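/-
Quadratic forms over the field with two elements with a given non-degenerate polar form.
-/
import Cfsg.Agent.H4.DiscClass

set_option autoImplicit false

open QuadraticMap Module

namespace Cfsg.Agent.H66

variable {m : ℕ}

/-- The space `F₂^(2m)`. -/
abbrev SpaceTwo (m : ℕ) : Type := Fin m ⊕ Fin m → ZMod 2

/-- The polarisation of the plus form over the field with two elements. -/
def polarTwo (m : ℕ) (u v : SpaceTwo m) : ZMod 2 :=
  Cfsg.quadFormPlus m (ZMod 2) (u + v) - Cfsg.quadFormPlus m (ZMod 2) u - Cfsg.quadFormPlus m (ZMod 2) v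

/-- `q` polarises to `polarTwo`. -/
def IsPolarTwo (m : ℕ) (q : SpaceTwo m → ZMod 2) : Prop :=
  ∀ u v, q (u + v) = q u + q v + polarTwo m u v

/-- Translate of the plus form by the functional attached to `a`. -/
def transTwo (a x : SpaceTwo m) : ZMod 2 := Cfsg.quadFormPlus m (ZMod 2) x + polarTwo m x a

/-- Linear form `polar(·, a)`. -/
theorem polarTwo_eq_polar (u v : SpaceTwo m) : polarTwo m u v = polar (H4.qPlus m (ZMod 2)) u v := by
  rw [polarTwo, ← H4.coe_qPlus]
  rfl

/-- Linearity of the polarisation in the first slot. -/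
theorem polarTwo_add_left (u v a : SpaceTwo m) :
    polarTwo m (u + v) a = polarTwo m u a + polarTwo m v a := by
  simp only [polarTwo_eq_polar]
  exact polar_add_left _ _ _ _

/-- Linearity of the polarisation in the second slot. -/
theorem polarTwo_add_right (u v a : SpaceTwo m) :
    polarTwo m a (u + v) = polarTwo m a u + polarTwo m a v := by
  simp only [polarTwo_eq_polar]
  exact polar_add_right _ _ _ _

/-- Translates polarise to `polarTwo`. -/
theorem isPolarTwo_transTwo (a : SpaceTwo m) : IsPolarTwo m (transTwo a) := fun u v => by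
  have h : Cfsg.quadFormPlus m (ZMod 2) (u + v) = Cfsg.quadFormPlus m (ZMod 2) u +
      Cfsg.quadFormPlus m (ZMod 2) v + polarTwo m u v := by rw [polarTwo]; ring
  simp only [transTwo, polarTwo_add_left, h]
  ring

/-- A translate has the zero set of `v ↦ Q v + Q a` shifted by `a`. -/
theorem transTwo_eq (a x : SpaceTwo m) :
    transTwo a x = Cfsg.quadFormPlus m (ZMod 2) (x + a) - Cfsg.quadFormPlus m (ZMod 2) a := by
  simp only [transTwo, polarTwo]
  ring

/-- `a ↦ transTwo a` is a bijection onto the forms polarising to `polarTwo`. -/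
theorem bijective_transTwo :
    Function.Bijective fun a : SpaceTwo m =>
      (⟨transTwo a, isPolarTwo_transTwo a⟩ : {q // IsPolarTwo m q}) := by
  have hinj : ∀ a b : SpaceTwo m, transTwo a = transTwo b → a = b := by
    intro a b h
    have hz : ∀ x, polar (H4.qPlus m (ZMod 2)) x (a - b) = 0 := fun x => by
      have := congrFun h x
      simp only [transTwo, polarTwo_eq_polar, add_right_inj] at this
      rw [polar_sub_right, this, sub_self]
    exact sub_eq_zero.1 (H4.eq_zero_of_polar (H4.qPlus_nondegenerate m) fun x => by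
      rw [polar_comm]; exact hz x)
  refine ⟨fun a b h => hinj a b (congrArg Subtype.val h), fun q => ?_⟩
  obtain ⟨q, hq⟩ := q
  let l : SpaceTwo m →+ ZMod 2 :=
    { toFun := fun x => q x - Cfsg.quadFormPlus m (ZMod 2) x
      map_zero' := by
        have := hq 0 0
        simp only [add_zero, polarTwo] at this
        linear_combination -this
      map_add' := fun u v => by
        have := hq u v
        rw [polarTwo] at this
        linear_combination this }
  obtain ⟨a, ha⟩ := H4.exists_polar_eq (H4.qPlus_nondegenerate m) (l.toZModLinearMap 2)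
  refine ⟨a, Subtype.ext (funext fun x => ?_)⟩
  have := ha x
  change transTwo a x = q x
  rw [transTwo, polarTwo_eq_polar, polar_comm, this]
  change _ + (q x - _) = q x
  ring

/-- The two counting facts for the plus form over the field with two elements. -/
theorem card_qPlus_two (m : ℕ) (hm : 1 ≤ m) :
    Nat.card {v : SpaceTwo m // Cfsg.quadFormPlus m (ZMod 2) v = 0} = 2 ^ (2 * m - 1) + 2 ^ (m - 1) := by
  obtain ⟨k, rfl⟩ := Nat.exists_eq_add_of_le' hm
  have h := H4.card_qPlus_zeros (F := ZMod 2) (k + 1)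
  rw [ZMod.card] at h
  rw [show 2 * (k + 1) - 1 = 2 * k + 1 from by omega, Nat.add_sub_cancel]
  have h2 : ((Nat.card {v : SpaceTwo (k + 1) // Cfsg.quadFormPlus (k + 1) (ZMod 2) v = 0} : ℕ) : ℤ) =
      ((2 ^ (2 * k + 1) + 2 ^ k : ℕ) : ℤ) := by
    push_cast at h ⊢
    have e1 : (2 : ℤ) ^ (2 * (k + 1)) = 2 * 2 ^ (2 * k + 1) := by ring
    have e2 : (2 : ℤ) ^ (k + 1 + 1) = 4 * 2 ^ k := by ring
    have e3 : (2 : ℤ) ^ (k + 1) = 2 * 2 ^ k := by ring
    linarith
  exact_mod_cast h2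

/-- Number of points where the plus form takes the value one. -/
theorem card_qPlus_two_ne (m : ℕ) (hm : 1 ≤ m) :
    Nat.card {v : SpaceTwo m // ¬ Cfsg.quadFormPlus m (ZMod 2) v = 0} = 2 ^ (2 * m - 1) - 2 ^ (m - 1) := by
  have h : Nat.card {v : SpaceTwo m // ¬ Cfsg.quadFormPlus m (ZMod 2) v = 0} +
      Nat.card {v : SpaceTwo m // Cfsg.quadFormPlus m (ZMod 2) v = 0} = 2 ^ (2 * m) := by
    classical
    rw [Nat.card_eq_fintype_card, Nat.card_eq_fintype_card, add_comm,
      ← Fintype.card_congr (Equiv.sumCompl _).symm |>.trans Fintype.card_sum, Fintype.card_fun]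
    simp [ZMod.card, two_mul]
  rw [card_qPlus_two m hm] at h
  have e : 2 ^ (2 * m) = 2 * 2 ^ (2 * m - 1) := by rw [← pow_succ']; congr 1; omega
  omega

/-- Zeros of a translate. -/
theorem card_transTwo_zeros (hm : 1 ≤ m) (a : SpaceTwo m) :
    Nat.card {v // transTwo a v = 0} =
      if Cfsg.quadFormPlus m (ZMod 2) a = 0 then 2 ^ (2 * m - 1) + 2 ^ (m - 1)
      else 2 ^ (2 * m - 1) - 2 ^ (m - 1) := by
  have e : {v // transTwo a v = 0} ≃
      {v : SpaceTwo m // Cfsg.quadFormPlus m (ZMod 2) v = Cfsg.quadFormPlus m (ZMod 2) a} :=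
    (Equiv.addRight a).subtypeEquiv fun v => by
      rw [transTwo_eq, Equiv.coe_addRight, sub_eq_zero]
  rw [Nat.card_congr e]
  split_ifs with h
  · rw [h, card_qPlus_two m hm]
  · rw [← card_qPlus_two_ne m hm]
    refine Nat.card_congr (Equiv.subtypeEquivRight fun v => ?_)
    have key : ∀ x y : ZMod 2, ¬ y = 0 → (x = y ↔ ¬ x = 0) := by decide
    exact key _ _ h

/-- Type of a translate: plus exactly when `Q a = 0`. -/
theorem transTwo_type (hm : 1 ≤ m) (a : SpaceTwo m) :
    ((∃ g : SpaceTwo m ≃ₗ[ZMod 2] SpaceTwo m,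
        ∀ v, transTwo a v = Cfsg.quadFormPlus m (ZMod 2) (g v)) ↔ Cfsg.quadFormPlus m (ZMod 2) a = 0) ∧
    ((∃ g : SpaceTwo m ≃ₗ[ZMod 2] ((Fin (m - 1) ⊕ Fin (m - 1)) ⊕ Fin 2 → ZMod 2),
        ∀ v, transTwo a v = Cfsg.quadFormMinus (m - 1) (ZMod 2) 1 1 (g v)) ↔
      ¬ Cfsg.quadFormPlus m (ZMod 2) a = 0) := by
  obtain ⟨k, rfl⟩ := Nat.exists_eq_add_of_le' hm
  have hz := card_transTwo_zeros hm a
  rw [show 2 * (k + 1) - 1 = 2 * k + 1 by omega, Nat.add_sub_cancel] at hz
  have hlt : (2 : ℕ) ^ (2 * k + 1) - 2 ^ k < 2 ^ (2 * k + 1) + 2 ^ k := by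
    have := Nat.one_le_two_pow (n := k)
    have h2k := Nat.one_le_two_pow (n := 2 * k + 1)
    generalize 2 ^ (2 * k + 1) = e at h2k ⊢
    omega
  have hplus : ∀ g : SpaceTwo (k + 1) ≃ₗ[ZMod 2] SpaceTwo (k + 1),
      (∀ v, transTwo a v = Cfsg.quadFormPlus (k + 1) (ZMod 2) (g v)) →
        Cfsg.quadFormPlus (k + 1) (ZMod 2) a = 0 := by
    intro g hg
    by_contra h
    have h1 : Nat.card {v // transTwo a v = 0} = 2 ^ (2 * k + 1) + 2 ^ k := by
      rw [Nat.card_congr (g.toEquiv.subtypeEquiv (q := fun v => Cfsg.quadFormPlus (k + 1) (ZMod 2) v = 0)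
        fun v => by rw [hg]; rfl), card_qPlus_two _ hm]
      congr 2
    rw [h1, if_neg h] at hz
    omega
  have hminus : ∀ g : SpaceTwo (k + 1) ≃ₗ[ZMod 2] ((Fin k ⊕ Fin k) ⊕ Fin 2 → ZMod 2),
      (∀ v, transTwo a v = Cfsg.quadFormMinus k (ZMod 2) 1 1 (g v)) →
        ¬ Cfsg.quadFormPlus (k + 1) (ZMod 2) a = 0 := by
    intro g hg h
    have h2 := H4.card_qMinus_zeros (F := ZMod 2) k 1 1 (by decide)
    rw [ZMod.card] at h2
    have h1 : ((Nat.card {v // transTwo a v = 0} : ℕ) : ℤ) = 2 ^ (2 * k + 1) + 2 ^ k - 2 ^ (k + 1) := by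
      rw [Nat.card_congr (g.toEquiv.subtypeEquiv
        (q := fun v => Cfsg.quadFormMinus k (ZMod 2) 1 1 v = 0) fun v => by rw [hg]; rfl)]
      exact_mod_cast h2
    rw [hz, if_pos h] at h1
    push_cast at h1
    have : (0 : ℤ) < 2 ^ (k + 1) := by positivity
    linarith
  let l : SpaceTwo (k + 1) →ₗ[ZMod 2] ZMod 2 := polarBilin (H4.qPlus (k + 1) (ZMod 2)) a
  let Qa : QuadraticForm (ZMod 2) (SpaceTwo (k + 1)) := H4.qPlus (k + 1) (ZMod 2) + linMulLin l l
  have hQa : ∀ v, Qa v = transTwo a v := fun v => by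
    have hsq : ∀ x : ZMod 2, x * x = x := by decide
    simp only [Qa, add_apply, linMulLin_apply, hsq, transTwo, polarTwo_eq_polar, ← H4.coe_qPlus]
    rw [polar_comm]
    rfl
  have hpol : ∀ x y, polar Qa x y = polar (H4.qPlus (k + 1) (ZMod 2)) x y := fun x y => by
    have : ∀ u v : ZMod 2, u * v + v * u = 0 := by decide
    simp only [QuadraticMap.polar, Qa, add_apply, linMulLin_apply, map_add]
    linear_combination this (l x) (l y)
  have hnd : (polarBilin Qa).Nondegenerate := by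
    have : polarBilin Qa = polarBilin (H4.qPlus (k + 1) (ZMod 2)) :=
      LinearMap.ext fun x => LinearMap.ext fun y => hpol x y
    rw [this]
    exact H4.qPlus_nondegenerate _
  have hdich : (∃ g : SpaceTwo (k + 1) ≃ₗ[ZMod 2] SpaceTwo (k + 1),
        ∀ v, transTwo a v = Cfsg.quadFormPlus (k + 1) (ZMod 2) (g v)) ∨
      (∃ g : SpaceTwo (k + 1) ≃ₗ[ZMod 2] ((Fin k ⊕ Fin k) ⊕ Fin 2 → ZMod 2),
        ∀ v, transTwo a v = Cfsg.quadFormMinus k (ZMod 2) 1 1 (g v)) := by
    rcases H4.isom_std_even hnd (m := k + 1) (by simp; omega) with ⟨g, hg⟩ | ⟨-, ζ, hζ, g, hg⟩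
    · exact Or.inl ⟨g, fun v => by rw [← hQa, ← hg, H4.coe_qPlus]⟩
    · have : ζ = 1 := (by decide : ∀ z : ZMod 2, (∀ t : ZMod 2, t ^ 2 + t + z ≠ 0) → z = 1) ζ hζ
      subst this
      exact Or.inr ⟨g, fun v => by rw [← hQa, ← hg, H4.coe_qMinus]; rfl⟩
  refine ⟨⟨fun ⟨g, hg⟩ => hplus g hg, fun h => hdich.resolve_right ?_⟩,
    ⟨fun ⟨g, hg⟩ => hminus g hg, fun h => hdich.resolve_left ?_⟩⟩
  · rintro ⟨g, hg⟩
    exact hminus g hg h
  · rintro ⟨g, hg⟩
    exact h (hplus g hg)

end Cfsg.Agent.H66
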