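/-
Elements of prime order of `SL_3(p)` and the normaliser of an extraspecial group of order 27.
-/
import Cfsg.Prelude.Def_GeometricClasses
import Mathlib

set_option autoImplicit false

open Matrix Module
open scoped commutatorElement

namespace Cfsg.Agent.H66.Extra

variable {F : Type*} [Field F]

/-- An element of order dividing `r` is diagonalisable when the `r`-th roots of unity are there. -/
theorem exists_diagonal {n r : ℕ} [NeZero r] (hr0 : (r : F) ≠ 0) {ω : F} (hω : IsPrimitiveRoot ω r)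
    {M : Matrix (Fin n) (Fin n) F} (hM : M ^ r = 1) :
    ∃ (Q : GL (Fin n) F) (k : Fin n → Fin r),
      M * (Q : Matrix (Fin n) (Fin n) F) = (Q : Matrix (Fin n) (Fin n) F) * Matrix.diagonal fun i => ω ^ (k i : ℕ) := by
  classical
  let E : Set (Fin n → F) := {v | ∃ k : Fin r, M *ᵥ v = ω ^ (k : ℕ) • v}
  have hωr : ω ^ r = 1 := hω.pow_eq_one
  have hspan : ⊤ ≤ Submodule.span F E := by
    intro v _
    let e : Fin r → (Fin n → F) := fun k =>
      (r : F)⁻¹ • ∑ i ∈ Finset.range r, ((ω ^ (k : ℕ))⁻¹) ^ i • ((M ^ i) *ᵥ v)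
    have hv : v = ∑ k, e k := by
      have h2 : ∀ i ∈ Finset.range r, ∑ k : Fin r, ((ω ^ (k : ℕ))⁻¹) ^ i • ((M ^ i) *ᵥ v) =
          if i = 0 then (r : F) • v else 0 := by
        intro i hi
        rw [← Finset.sum_smul]
        split_ifs with h0
        · subst h0; simp
        · have h3 : (ω⁻¹) ^ i ≠ 1 := fun h => by
            rw [inv_pow, inv_eq_one] at h
            have := Nat.le_of_dvd (Nat.pos_of_ne_zero h0) (hω.dvd_of_pow_eq_one i h)
            rw [Finset.mem_range] at hi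
            omega
          have h4 : ∑ k : Fin r, ((ω ^ (k : ℕ))⁻¹) ^ i = ∑ k ∈ Finset.range r, ((ω⁻¹) ^ i) ^ k := by
            rw [Finset.sum_range]
            exact Finset.sum_congr rfl fun k _ => by rw [← inv_pow, ← pow_mul, ← pow_mul, mul_comm]
          rw [h4, geom_sum_eq h3, ← pow_mul, mul_comm, pow_mul, inv_pow, hωr]
          simp
      show v = ∑ k : Fin r, (r : F)⁻¹ • _
      rw [← Finset.smul_sum, Finset.sum_comm, Finset.sum_congr rfl h2, Finset.sum_ite_eq',
        if_pos (Finset.mem_range.2 (Nat.pos_of_ne_zero (NeZero.ne r))), inv_smul_smul₀ hr0]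
    rw [hv]
    refine Submodule.sum_mem _ fun k _ => Submodule.subset_span ⟨k, ?_⟩
    show M *ᵥ ((r : F)⁻¹ • _) = ω ^ (k : ℕ) • ((r : F)⁻¹ • _)
    rw [Matrix.mulVec_smul, smul_comm (ω ^ (k : ℕ))]
    congr 1
    rw [Matrix.mulVec_sum, Finset.smul_sum]
    set u := (ω ^ (k : ℕ))⁻¹ with hu
    have hw0 : ω ^ (k : ℕ) ≠ 0 := pow_ne_zero _ (hω.ne_zero (NeZero.ne r))
    have hf : ∀ i, M *ᵥ (u ^ i • ((M ^ i) *ᵥ v)) = ω ^ (k : ℕ) • (u ^ (i + 1) • ((M ^ (i + 1)) *ᵥ v)) := by
      intro i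
      rw [Matrix.mulVec_smul, Matrix.mulVec_mulVec, ← pow_succ', smul_smul (ω ^ (k : ℕ)), pow_succ u, mul_left_comm,
        hu, mul_inv_cancel₀ hw0, mul_one]
    rw [Finset.sum_congr rfl fun i _ => hf i, ← Finset.smul_sum, ← Finset.smul_sum]
    congr 1
    obtain ⟨r', hr'⟩ := Nat.exists_eq_succ_of_ne_zero (NeZero.ne r)
    have hur : u ^ r = 1 := by rw [hu, inv_pow, ← pow_mul, mul_comm, pow_mul, hωr, one_pow, inv_one]
    subst hr'
    rw [Finset.sum_range_succ, Finset.sum_range_succ' (fun i => u ^ i • ((M ^ i) *ᵥ v)), hur, hM, pow_zero, pow_zero]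
  obtain ⟨b, hbE, hbspan, hbli⟩ := exists_linearIndependent F E
  let B := Basis.mk hbli (by rw [Subtype.range_coe, hbspan]; exact hspan)
  have : Finite b := Module.Finite.finite_basis B
  have := Fintype.ofFinite b
  have hc : Fintype.card b = n := by
    rw [← Module.finrank_eq_card_basis B, Module.finrank_pi, Fintype.card_fin]
  let B' := B.reindex (Fintype.equivFinOfCardEq hc)
  have hB' : ∀ i, ∃ k : Fin r, M *ᵥ B' i = ω ^ (k : ℕ) • B' i := fun i => by
    refine hbE ?_
    simp [B', B]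
  choose k hk using hB'
  have hdet : ((Pi.basisFun F (Fin n)).toMatrix B').det ≠ 0 := by
    have := (Pi.basisFun F (Fin n)).invertibleToMatrix B'
    exact ((Matrix.isUnit_iff_isUnit_det _).1 (isUnit_of_invertible _)).ne_zero
  refine ⟨Matrix.GeneralLinearGroup.mkOfDetNeZero _ hdet, k, ?_⟩
  ext i j
  show (M * (Pi.basisFun F (Fin n)).toMatrix B') i j =
    ((Pi.basisFun F (Fin n)).toMatrix B' * Matrix.diagonal fun i => ω ^ (k i : ℕ)) i j
  rw [Matrix.mul_diagonal, Module.Basis.toMatrix_apply, Pi.basisFun_repr, mul_comm _ (ω ^ _)]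
  exact congrFun (hk j) i

/-- Two elements similar to one diagonal matrix are conjugate in `SL`. -/
theorem exists_conj_of_diagonal {n : ℕ} [NeZero n] {x y P Q : GL (Fin n) F} {d : Fin n → F} (σ : Equiv.Perm (Fin n))
    (hx : (x : Matrix (Fin n) (Fin n) F) * (P : Matrix (Fin n) (Fin n) F) = (P : Matrix (Fin n) (Fin n) F) * Matrix.diagonal d)
    (hy : (y : Matrix (Fin n) (Fin n) F) * (Q : Matrix (Fin n) (Fin n) F) =
      (Q : Matrix (Fin n) (Fin n) F) * Matrix.diagonal (d ∘ σ)) :
    ∃ g ∈ Cfsg.Geo.specialLinear (Fin n) F, g⁻¹ * x * g = y := by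
  classical
  let S : Matrix (Fin n) (Fin n) F := ((P : Matrix (Fin n) (Fin n) F).submatrix id σ)
  have hSdet : S.det ≠ 0 := by
    show ((P : Matrix (Fin n) (Fin n) F).submatrix id σ).det ≠ 0
    rw [Matrix.det_permute']
    exact mul_ne_zero (by rcases Int.units_eq_one_or (Equiv.Perm.sign σ) with e | e <;> simp [e])
      ((Matrix.GeneralLinearGroup.det P).ne_zero)
  have hS : (x : Matrix (Fin n) (Fin n) F) * S = S * Matrix.diagonal (d ∘ σ) := by
    ext i j
    have h := congrFun (congrFun hx i) (σ j)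
    rw [Matrix.mul_diagonal] at h ⊢
    simpa [S, Matrix.mul_apply] using h
  set c := (Q : Matrix (Fin n) (Fin n) F).det / S.det with hc
  let t : Fin n → F := Function.update 1 0 c
  have ht : (Matrix.diagonal t).det = c := by
    rw [Matrix.det_diagonal, Finset.prod_eq_single (0 : Fin n)]
    · simp [t]
    · intro i _ hi; simp [t, hi]
    · simp
  have hSt : (S * Matrix.diagonal t).det = (Q : Matrix (Fin n) (Fin n) F).det := by
    rw [Matrix.det_mul, ht, hc]
    field_simp
  let S' : GL (Fin n) F := Matrix.GeneralLinearGroup.mkOfDetNeZero (S * Matrix.diagonal t)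
    (by rw [hSt]; exact (Matrix.GeneralLinearGroup.det Q).ne_zero)
  have hd : Matrix.GeneralLinearGroup.det S' = Matrix.GeneralLinearGroup.det Q := Units.ext hSt
  have h' : x * S' * Q⁻¹ = S' * Q⁻¹ * y := by
    let D : GL (Fin n) F := Q⁻¹ * y * Q
    have hD : (D : Matrix (Fin n) (Fin n) F) = Matrix.diagonal (d ∘ σ) := by
      show ((Q⁻¹ : GL (Fin n) F) : Matrix (Fin n) (Fin n) F) * (y : Matrix (Fin n) (Fin n) F) * (Q : Matrix (Fin n) (Fin n) F) = _
      rw [mul_assoc, hy, ← mul_assoc, Units.inv_mul, one_mul]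
    have h1 : x * S' = S' * D := Units.ext (by
      show (x : Matrix (Fin n) (Fin n) F) * (S * Matrix.diagonal t) = S * Matrix.diagonal t * (D : Matrix (Fin n) (Fin n) F)
      rw [hD, ← mul_assoc, hS, mul_assoc, mul_assoc, Matrix.diagonal_mul_diagonal, Matrix.diagonal_mul_diagonal]
      simp only [mul_comm])
    rw [h1]
    simp [D, mul_assoc]
  refine ⟨S' * Q⁻¹, ?_, ?_⟩
  · rw [Cfsg.Geo.specialLinear, MonoidHom.mem_ker, map_mul, map_inv, hd, mul_inv_cancel]
  · rw [mul_assoc, ← mul_assoc x, h', inv_mul_cancel_left]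

/-- Conjugating generators of a finite subgroup into it gives a normalising element. -/
theorem mem_normalizer_of_gens {G : Type*} [Group G] (R : Subgroup G) [Finite R] {s : Set G}
    (hgen : R = Subgroup.closure s) {w : G} (hs : ∀ u ∈ s, w * u * w⁻¹ ∈ R) :
    w ∈ Subgroup.normalizer (R : Set G) := by
  have hsub : ∀ h ∈ R, w * h * w⁻¹ ∈ R := by
    intro h hh
    rw [hgen] at hh
    induction hh using Subgroup.closure_induction with
    | mem u hu => exact hs u hu
    | one => simp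
    | mul u v _ _ hu hv =>
      have := R.mul_mem hu hv
      rwa [show w * u * w⁻¹ * (w * v * w⁻¹) = w * (u * v) * w⁻¹ by group] at this
    | inv u _ hu =>
      have := R.inv_mem hu
      rwa [show (w * u * w⁻¹)⁻¹ = w * u⁻¹ * w⁻¹ by group] at this
  let f : R → R := fun h => ⟨_, hsub h h.2⟩
  have hf : Function.Surjective f := Finite.injective_iff_surjective.1 fun a b h =>
    Subtype.ext (mul_left_cancel (mul_right_cancel (congrArg Subtype.val h)))
  refine Subgroup.mem_normalizer_iff.2 fun h => ⟨hsub h, fun hh => ?_⟩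
  obtain ⟨a, ha⟩ := hf ⟨_, hh⟩
  rw [← mul_left_cancel (mul_right_cancel (congrArg Subtype.val ha))]
  exact a.2

/-- An element of prime order normalising a group of order 27 with a fixed non-trivial element centralises it,
unless the prime is at most three. -/
theorem commute_of_normalizes {G : Type*} [Group G] (R : Subgroup G) (hR : Nat.card R = 27) {r : ℕ} [Fact r.Prime]
    (hr : 5 ≤ r) {y : G} (hy : y ∈ Subgroup.normalizer (R : Set G)) (hyr : y ^ r = 1) {c : G} (hcR : c ∈ R)
    (hc3 : orderOf c = 3) (hcy : y * c = c * y) : ∀ h ∈ R, y * h = h * y := by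
  classical
  have hrP : r.Prime := Fact.out
  have : Finite R := Nat.finite_of_card_ne_zero (by omega)
  let σ : Equiv.Perm R :=
    { toFun := fun h => ⟨y * h * y⁻¹, (Subgroup.mem_normalizer_iff.1 hy h).1 h.2⟩
      invFun := fun h => ⟨y⁻¹ * h * y, (Subgroup.mem_normalizer_iff''.1 hy h).1 h.2⟩
      left_inv := fun h => Subtype.ext (by simp [mul_assoc])
      right_inv := fun h => Subtype.ext (by simp [mul_assoc]) }
  have key : ∀ i : ℕ, ∀ h : R, ((σ ^ i) h : G) = y ^ i * h * (y ^ i)⁻¹ := by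
    intro i
    induction i with
    | zero => simp
    | succ i ih =>
      intro h
      rw [pow_succ', Equiv.Perm.mul_apply]
      show y * ((σ ^ i) h : G) * y⁻¹ = _
      rw [ih, pow_succ']
      group
  have hσr : σ ^ r = 1 := Equiv.ext fun h => Subtype.ext (by rw [key, hyr]; simp)
  have hP : IsPGroup r (Subgroup.zpowers σ) := by
    rcases hrP.eq_one_or_self_of_dvd _ (orderOf_dvd_of_pow_eq_one hσr) with h | h
    · exact IsPGroup.of_card (n := 0) (by rw [Nat.card_zpowers, h, pow_zero])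
    · exact IsPGroup.of_card (n := 1) (by rw [Nat.card_zpowers, h, pow_one])
  have hmod := hP.card_modEq_card_fixedPoints R
  set K : Subgroup R := (Subgroup.centralizer {y}).subgroupOf R with hK
  have hfp : MulAction.fixedPoints (Subgroup.zpowers σ) R = (K : Set R) := by
    ext h
    rw [MulAction.mem_fixedPoints, SetLike.mem_coe, hK, Subgroup.mem_subgroupOf, Subgroup.mem_centralizer_singleton_iff]
    constructor
    · intro hh
      have h1 : y * (h : G) * y⁻¹ = h := congrArg Subtype.val (hh ⟨σ, Subgroup.mem_zpowers σ⟩)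
      exact (mul_inv_eq_iff_eq_mul.1 h1).symm
    · rintro hh ⟨g, hg⟩
      obtain ⟨i, rfl⟩ := (Submonoid.mem_powers_iff _ _).1 ((mem_powers_iff_mem_zpowers).2 hg)
      refine Subtype.ext ?_
      show ((σ ^ i) h : G) = h
      rw [key, ((Commute.pow_left (show Commute y (h : G) from hh.symm)) i).eq, mul_inv_cancel_right]
  rw [hR, hfp, SetLike.coe_sort_coe] at hmod
  have hdvd : Nat.card K ∣ 27 := hR ▸ Subgroup.card_subgroup_dvd_card K
  have h3 : 3 ∣ Nat.card K := by
    have hmem : (⟨c, hcR⟩ : R) ∈ K := by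
      rw [hK, Subgroup.mem_subgroupOf, Subgroup.mem_centralizer_singleton_iff]; exact hcy.symm
    have := Subgroup.orderOf_dvd_natCard K hmem
    rwa [Subgroup.orderOf_mk, hc3] at this
  have hcases : Nat.card K = 3 ∨ Nat.card K = 9 ∨ Nat.card K = 27 := by
    obtain ⟨i, hi, he⟩ := (Nat.dvd_prime_pow Nat.prime_three).1 (show Nat.card K ∣ 3 ^ 3 from hdvd)
    rw [he] at h3 ⊢
    interval_cases i
    · norm_num at h3
    · left; norm_num
    · right; left; norm_num
    · right; right; norm_num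
  have hcontra : ∀ m, (27 : ℕ) - m = 24 ∨ (27 : ℕ) - m = 18 → m ≡ 27 [MOD r] → m ≤ 27 → False := by
    intro m hm hmod hle
    have hd := (Nat.modEq_iff_dvd' hle).1 hmod
    have : r ∣ 2 ^ 3 * 3 ^ 2 := by
      rcases hm with h | h <;> rw [h] at hd <;> exact hd.trans (by norm_num)
    rcases hrP.dvd_mul.1 this with h | h
    · have := Nat.le_of_dvd two_pos (hrP.dvd_of_dvd_pow h); omega
    · have := Nat.le_of_dvd (by norm_num) (hrP.dvd_of_dvd_pow h); omega
  have h27 : Nat.card K = 27 := by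
    rcases hcases with h | h | h
    · exact (hcontra _ (Or.inl rfl) (h ▸ hmod.symm) (by norm_num)).elim
    · exact (hcontra _ (Or.inr rfl) (h ▸ hmod.symm) (by norm_num)).elim
    · exact h
  intro h hh
  have := Subgroup.eq_top_of_card_eq K (h27.trans hR.symm)
  have hm : (⟨h, hh⟩ : R) ∈ K := this ▸ Subgroup.mem_top _
  rw [hK, Subgroup.mem_subgroupOf, Subgroup.mem_centralizer_singleton_iff] at hm
  exact hm.symm

abbrev M₃ (F : Type*) := Matrix (Fin 3) (Fin 3) F

/-- The cyclic permutation matrix. -/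
def cyc (F : Type*) [Field F] : M₃ F := !![0, 0, 1; 1, 0, 0; 0, 1, 0]

/-- A basis in which the generators are standard. -/
theorem exists_frame [Fintype F] (h3 : (3 : F) ≠ 0) (hω3 : ∃ ω : F, IsPrimitiveRoot ω 3)
    (R : Subgroup (GL (Fin 3) F)) (hR : Nat.card R = 27) (hRe : Monoid.exponent R = 3) (hRna : ¬ IsMulCommutative R) :
    ∃ (ω : F) (P a b : GL (Fin 3) F), IsPrimitiveRoot ω 3 ∧ a ∈ R ∧ b ∈ R ∧ R = Subgroup.closure {a, b} ∧
      (∃ c ∈ R, orderOf c = 3 ∧ ∀ u : GL (Fin 3) F, u * c = c * u) ∧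
      (a : M₃ F) * P = (P : M₃ F) * Matrix.diagonal ![1, ω, ω ^ 2] ∧ (b : M₃ F) * P = (P : M₃ F) * cyc F := by
  classical
  obtain ⟨ω₀, hω₀⟩ := hω3
  have : Fact (Nat.Prime 3) := ⟨Nat.prime_three⟩
  have : Finite R := Nat.finite_of_card_ne_zero (by omega)
  have hpow : ∀ x ∈ R, x ^ 3 = 1 := fun x hx =>
    congrArg Subtype.val (show (⟨x, hx⟩ : R) ^ 3 = 1 by
      have := Monoid.pow_exponent_eq_one (⟨x, hx⟩ : R)
      rwa [hRe] at this)
  obtain ⟨a, b, hab⟩ : ∃ a b : R, a * b ≠ b * a := by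
    by_contra h
    push Not at h
    exact hRna ⟨⟨h⟩⟩
  have hP : IsPGroup 3 R := IsPGroup.of_card (n := 3) (by rw [hR]; norm_num)
  have hcomm_of : ∀ H : Subgroup R, H ≠ ⊤ → ∀ u ∈ H, ∀ v ∈ H, u * v = v * u := by
    intro H hH u hu v hv
    obtain ⟨i, hi, he⟩ := (Nat.dvd_prime_pow Nat.prime_three).1
      (show Nat.card H ∣ 3 ^ 3 from by have := Subgroup.card_subgroup_dvd_card H; rwa [hR] at this)
    have hi3 : i ≠ 3 := fun h => hH (Subgroup.eq_top_of_card_eq H (by rw [he, h, hR]; norm_num))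
    have key : ∀ u v : H, u * v = v * u := by
      interval_cases i
      · intro u v
        have : Subsingleton H := (Nat.card_eq_one_iff_unique.1 (by simpa using he)).1
        exact Subsingleton.elim _ _
      · have : IsCyclic H := isCyclic_of_prime_card (p := 3) (by simpa using he)
        intro u v
        exact (IsCyclic.commutative (α := H)).is_comm.comm u v
      · intro u v
        exact IsPGroup.commutative_of_card_eq_prime_sq (p := 3) (by simpa using he) u v
      · exact absurd rfl hi3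
    exact congrArg Subtype.val (key ⟨u, hu⟩ ⟨v, hv⟩)
  -- the commutator is central
  have hcen : ⁅a, b⁆ ∈ Subgroup.center R := by
    have hZcard : Nat.card (R ⧸ Subgroup.center R) ∣ 9 := by
      have : Nontrivial R := ⟨⟨a, b, fun h => hab (by rw [h])⟩⟩
      have hnt := hP.center_nontrivial
      obtain ⟨i, hi, he⟩ := (Nat.dvd_prime_pow Nat.prime_three).1
        (show Nat.card (Subgroup.center R) ∣ 3 ^ 3 from by
          have := Subgroup.card_subgroup_dvd_card (Subgroup.center R); rwa [hR] at this)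
      have hi0 : i ≠ 0 := fun h => by
        rw [h, pow_zero] at he
        exact (Subgroup.one_lt_card_iff_ne_bot _).2 ((Subgroup.nontrivial_iff_ne_bot _).1 hnt) |>.ne he.symm
      have := Subgroup.card_eq_card_quotient_mul_card_subgroup (Subgroup.center R)
      rw [hR, he] at this
      obtain ⟨j, rfl⟩ := Nat.exists_eq_succ_of_ne_zero hi0
      refine ⟨3 ^ j, ?_⟩
      have hj : j ≤ 2 := by omega
      interval_cases j <;> simp at this ⊢ <;> omega
    rw [← QuotientGroup.eq_one_iff]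
    obtain ⟨i, hi, he⟩ := (Nat.dvd_prime_pow Nat.prime_three).1 (show _ ∣ 3 ^ 2 from hZcard)
    have key : ∀ u v : R ⧸ Subgroup.center R, u * v = v * u := by
      interval_cases i
      · intro u v
        have : Subsingleton (R ⧸ Subgroup.center R) := (Nat.card_eq_one_iff_unique.1 (by simpa using he)).1
        exact Subsingleton.elim _ _
      · have : IsCyclic (R ⧸ Subgroup.center R) := isCyclic_of_prime_card (p := 3) (by simpa using he)
        intro u v
        exact (IsCyclic.commutative (α := R ⧸ Subgroup.center R)).is_comm.comm u v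
      · exact IsPGroup.commutative_of_card_eq_prime_sq (p := 3) (by simpa using he)
    show ((⁅a, b⁆ : R) : R ⧸ Subgroup.center R) = 1
    rw [← QuotientGroup.mk'_apply, map_commutatorElement]
    exact commutatorElement_eq_one_iff_mul_comm.2 (key _ _)
  have hgen : R = Subgroup.closure {(a : GL (Fin 3) F), (b : GL (Fin 3) F)} := by
    have htop : Subgroup.closure ({a, b} : Set R) = ⊤ := by
      by_contra h
      exact hab (hcomm_of _ h a (Subgroup.subset_closure (by simp)) b (Subgroup.subset_closure (by simp)))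
    have := congrArg (Subgroup.map R.subtype) htop
    rw [MonoidHom.map_closure, ← MonoidHom.range_eq_map, R.range_subtype] at this
    refine this.symm.trans ?_
    rw [Set.image_pair]
    rfl
  set c : R := ⁅a, b⁆ with hc
  have hc1 : (c : GL (Fin 3) F) ≠ 1 := fun h => hab (commutatorElement_eq_one_iff_mul_comm.1 (Subtype.ext h))
  have hrel : (a : GL (Fin 3) F) * b = c * b * a := by
    rw [hc, commutatorElement_def]
    simp [mul_assoc]
  have hca : (c : GL (Fin 3) F) * a = a * c := congrArg Subtype.val (Subgroup.mem_center_iff.1 hcen a).symm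
  have hcb : (c : GL (Fin 3) F) * b = b * c := congrArg Subtype.val (Subgroup.mem_center_iff.1 hcen b).symm
  -- the commutator is scalar
  set C := ((c : GL (Fin 3) F) : M₃ F) with hC
  set A := ((a : GL (Fin 3) F) : M₃ F) with hA
  set B := ((b : GL (Fin 3) F) : M₃ F) with hB
  have hC3 : C ^ 3 = 1 := by rw [hC, ← Units.val_pow_eq_pow_val, hpow _ c.2]; rfl
  obtain ⟨Q, k, hQ⟩ := exists_diagonal (by exact_mod_cast h3) hω₀ hC3
  obtain ⟨ω, hω, hCs⟩ : ∃ ω : F, IsPrimitiveRoot ω 3 ∧ C = ω • (1 : M₃ F) := by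
    have hnz : ∃ i, (k i : ℕ) ≠ 0 := by
      by_contra h
      push Not at h
      apply hc1
      apply Units.ext
      show C = 1
      have hd : C * (Q : M₃ F) = (Q : M₃ F) := by rw [hQ]; simp [h]
      calc C = C * (Q : M₃ F) * ((Q⁻¹ : GL (Fin 3) F) : M₃ F) := by rw [mul_assoc, Units.mul_inv, mul_one]
        _ = 1 := by rw [hd, Units.mul_inv]
    obtain ⟨i₀, hi₀⟩ := hnz
    set l := ω₀ ^ (k i₀ : ℕ) with hl
    have hl1 : IsPrimitiveRoot l 3 := hω₀.pow_of_coprime _
      ((Nat.Prime.coprime_iff_not_dvd Nat.prime_three).2 fun h => hi₀ (Nat.eq_zero_of_dvd_of_lt h (k i₀).isLt)).symm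
    refine ⟨l, hl1, ?_⟩
    set cl : Module.End F (Fin 3 → F) := Matrix.toLinAlgEquiv' C
    set W := LinearMap.ker (cl - l • 1) with hW
    have hmemW : ∀ v, v ∈ W ↔ C *ᵥ v = l • v := fun v => by
      rw [hW, LinearMap.mem_ker, LinearMap.sub_apply, LinearMap.smul_apply, Module.End.one_apply, sub_eq_zero]
      rfl
    have hinv : ∀ X : M₃ F, C * X = X * C → ∀ v ∈ W, Matrix.toLinAlgEquiv' X v ∈ W := by
      intro X hX v hv
      rw [hmemW] at hv ⊢
      show C *ᵥ (X *ᵥ v) = l • (X *ᵥ v)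
      rw [Matrix.mulVec_mulVec, hX, ← Matrix.mulVec_mulVec, hv, Matrix.mulVec_smul]
    have hAi := hinv A (congrArg Units.val hca)
    have hBi := hinv B (congrArg Units.val hcb)
    set f := (Matrix.toLinAlgEquiv' A).restrict hAi
    set g := (Matrix.toLinAlgEquiv' B).restrict hBi
    have hfg : f * g = l • (g * f) := by
      refine LinearMap.ext fun v => Subtype.ext ?_
      show A *ᵥ (B *ᵥ v.1) = l • (B *ᵥ (A *ᵥ v.1))
      rw [Matrix.mulVec_mulVec, Matrix.mulVec_mulVec, show A * B = C * B * A from congrArg Units.val hrel,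
        show C * B = B * C from congrArg Units.val hcb, mul_assoc, show C * A = A * C from congrArg Units.val hca,
        ← mul_assoc, ← Matrix.mulVec_mulVec, (hmemW v.1).1 v.2, Matrix.mulVec_smul]
    have hunit : ∀ (X : GL (Fin 3) F) (hX : ∀ v ∈ W, Matrix.toLinAlgEquiv' (X : M₃ F) v ∈ W),
        LinearMap.det ((Matrix.toLinAlgEquiv' (X : M₃ F)).restrict hX) ≠ 0 := by
      intro X hX h0
      obtain ⟨v, hv, hv0⟩ := Submodule.exists_mem_ne_zero_of_ne_bot (LinearMap.bot_lt_ker_of_det_eq_zero h0).ne'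
      apply hv0
      refine Subtype.ext ?_
      have h1 : (X : M₃ F) *ᵥ v.1 = 0 := congrArg Subtype.val hv
      have h2 := congrArg (((X⁻¹ : GL (Fin 3) F) : M₃ F) *ᵥ ·) h1
      simp only [Matrix.mulVec_mulVec, Units.inv_mul, Matrix.one_mulVec, Matrix.mulVec_zero] at h2
      exact h2
    have hdet : l ^ finrank F W = 1 := by
      have h := congrArg LinearMap.det hfg
      rw [LinearMap.det_smul, map_mul, map_mul, mul_comm (LinearMap.det g)] at h
      exact mul_right_cancel₀ (mul_ne_zero (hunit a hAi) (hunit b hBi)) (h.symm.trans (one_mul _).symm)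
    have hWne : W ≠ ⊥ := by
      intro hbot
      have hv : (Q : M₃ F) *ᵥ Pi.single i₀ 1 ∈ W := by
        rw [hmemW, Matrix.mulVec_mulVec, hQ, ← Matrix.mulVec_mulVec, Matrix.diagonal_mulVec_single, mul_one,
          ← Matrix.mulVec_smul, ← Pi.single_smul, smul_eq_mul, mul_one]
      rw [hbot, Submodule.mem_bot] at hv
      have h2 := congrArg (((Q⁻¹ : GL (Fin 3) F) : M₃ F) *ᵥ ·) hv
      simp only [Matrix.mulVec_mulVec, Units.inv_mul, Matrix.one_mulVec, Matrix.mulVec_zero] at h2
      exact one_ne_zero (by simpa using congrFun h2 i₀ : (1 : F) = 0)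
    have hW3 : W = ⊤ := by
      refine Submodule.eq_top_of_finrank_eq ?_
      have hle := Submodule.finrank_le W
      rw [Module.finrank_pi, Fintype.card_fin] at hle ⊢
      have hpos : finrank F W ≠ 0 := fun h => hWne (Submodule.finrank_eq_zero.1 h)
      have := Nat.le_of_dvd (Nat.pos_of_ne_zero hpos) (hl1.dvd_of_pow_eq_one _ hdet)
      omega
    refine Matrix.toLin'.injective (LinearMap.ext fun v => ?_)
    rw [Matrix.toLin'_apply, Matrix.toLin'_apply, (hmemW v).1 (hW3 ▸ Submodule.mem_top),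
      Matrix.smul_mulVec, Matrix.one_mulVec]
  -- a fixed vector of `a`
  have hAB : A * B = ω • (B * A) := by
    rw [show A * B = C * B * A from congrArg Units.val hrel, hCs, smul_mul_assoc, one_mul, smul_mul_assoc]
  have hA3 : A ^ 3 = 1 := by rw [hA, ← Units.val_pow_eq_pow_val, hpow _ a.2]; rfl
  have hB3 : B ^ 3 = 1 := by rw [hB, ← Units.val_pow_eq_pow_val, hpow _ b.2]; rfl
  have hω0 : ω ≠ 0 := hω.ne_zero three_ne_zero
  have hω3' : ω ^ 3 = 1 := hω.pow_eq_one
  obtain ⟨QA, kA, hQA⟩ := exists_diagonal (by exact_mod_cast h3) hω hA3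
  set u := (QA : M₃ F) *ᵥ Pi.single (0 : Fin 3) 1 with hu
  have hAu : A *ᵥ u = ω ^ (kA 0 : ℕ) • u := by
    rw [hu, Matrix.mulVec_mulVec, hQA, ← Matrix.mulVec_mulVec, Matrix.diagonal_mulVec_single, mul_one,
      ← Matrix.mulVec_smul, ← Pi.single_smul, smul_eq_mul, mul_one]
  have hshift : ∀ (w : Fin 3 → F) (μ : F), A *ᵥ w = μ • w → A *ᵥ (B *ᵥ w) = (ω * μ) • (B *ᵥ w) := fun w μ hw => by
    rw [Matrix.mulVec_mulVec, hAB, Matrix.smul_mulVec, ← Matrix.mulVec_mulVec, hw, Matrix.mulVec_smul, smul_smul]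
  have hpows : ∀ i, A *ᵥ ((B ^ i) *ᵥ u) = (ω ^ i * ω ^ (kA 0 : ℕ)) • ((B ^ i) *ᵥ u) := by
    intro i
    induction i with
    | zero => simpa using hAu
    | succ i ih => rw [pow_succ', ← Matrix.mulVec_mulVec, hshift _ _ ih, pow_succ', mul_assoc]
  have hu0 : ∀ i, (B ^ i) *ᵥ u ≠ 0 := by
    intro i h
    have h2 := congrArg ((((b : GL (Fin 3) F) ^ i)⁻¹ : GL (Fin 3) F) : M₃ F).mulVec h
    rw [Matrix.mulVec_mulVec, hB, ← Units.val_pow_eq_pow_val, Units.inv_mul, Matrix.one_mulVec, Matrix.mulVec_zero, hu] at h2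
    have h4 := congrArg (((QA⁻¹ : GL (Fin 3) F) : M₃ F) *ᵥ ·) h2
    simp only [Matrix.mulVec_mulVec, Units.inv_mul, Matrix.one_mulVec, Matrix.mulVec_zero] at h4
    exact one_ne_zero (by simpa using congrFun h4 0 : (1 : F) = 0)
  set e := (3 - (kA 0 : ℕ)) with he
  set v := (B ^ e) *ᵥ u with hv
  have hAv : A *ᵥ v = v := by
    rw [hv, hpows, ← pow_add, he, Nat.sub_add_cancel (kA 0).isLt.le, hω3', one_smul]
  let cols : Fin 3 → (Fin 3 → F) := fun i => (B ^ (i : ℕ)) *ᵥ v
  have hcols : ∀ i, A *ᵥ cols i = ω ^ (i : ℕ) • cols i := by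
    intro i
    fin_cases i
    · simpa [cols] using hAv
    · simpa [cols] using hshift v 1 (by rw [one_smul]; exact hAv)
    · have := hshift _ _ (hshift v 1 (by rw [one_smul]; exact hAv))
      simpa [cols, pow_two, Matrix.mulVec_mulVec] using this
  have hli : LinearIndependent F cols := by
    refine Module.End.eigenvectors_linearIndependent' (Matrix.toLinAlgEquiv' A) (fun i : Fin 3 => ω ^ (i : ℕ)) ?_ cols ?_
    · intro i j hij
      exact Fin.ext (hω.pow_inj i.isLt j.isLt hij)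
    · intro i
      refine ⟨Module.End.mem_eigenspace_iff.2 (hcols i), ?_⟩
      show (B ^ (i : ℕ)) *ᵥ ((B ^ e) *ᵥ u) ≠ 0
      rw [Matrix.mulVec_mulVec, ← pow_add]
      exact hu0 _
  let Pm : M₃ F := Matrix.of fun i j => cols j i
  have hPdet : Pm.det ≠ 0 := by
    intro h0
    obtain ⟨t, ht, ht0⟩ := Matrix.exists_mulVec_eq_zero_iff.2 h0
    refine ht (funext fun j => Fintype.linearIndependent_iff.1 hli t ?_ j)
    rw [← ht0]
    funext i
    simp [Pm, Matrix.mulVec, dotProduct, Finset.sum_apply, mul_comm]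
  refine ⟨ω, Matrix.GeneralLinearGroup.mkOfDetNeZero Pm hPdet, a, b, hω, a.2, b.2, hgen, ⟨c, c.2, ?_, ?_⟩, ?_, ?_⟩
  · exact orderOf_eq_prime (hpow _ c.2) hc1
  · intro x
    apply Units.ext
    show (x : M₃ F) * C = C * (x : M₃ F)
    rw [hCs, mul_smul_comm, smul_mul_assoc, mul_one, one_mul]
  · ext i j
    show (A * Pm) i j = (Pm * Matrix.diagonal ![1, ω, ω ^ 2]) i j
    rw [Matrix.mul_diagonal]
    have := congrFun (hcols j) i
    rw [Pi.smul_apply, smul_eq_mul] at this
    calc (A * Pm) i j = (A *ᵥ cols j) i := rfl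
      _ = _ := by rw [this]; fin_cases j <;> simp [Pm, mul_comm]
  · ext i j
    show (B * Pm) i j = (Pm * cyc F) i j
    have hb : (B * Pm) i j = (B *ᵥ cols j) i := rfl
    rw [hb]
    fin_cases j
    · simp [Pm, cols, cyc, Matrix.mul_apply, Fin.sum_univ_three]
    · simp [Pm, cols, cyc, Matrix.mul_apply, Fin.sum_univ_three, Matrix.mulVec_mulVec, pow_two]
    · simp [Pm, cols, cyc, Matrix.mul_apply, Fin.sum_univ_three, Matrix.mulVec_mulVec, ← pow_succ', hB3]

/-- Exponent combinatorics. -/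
theorem perm_two : ∀ k : Fin 3 → Fin 2, (∑ i, k i) = 0 → (∃ i j, k i ≠ k j) →
    ∃ σ : Equiv.Perm (Fin 3), ∀ i, k (σ i) = ![1, 1, 0] i := by decide

theorem perm_three_zero : ∀ k : Fin 3 → Fin 3, (∑ i, k i) = 0 → (∃ i j, k i ≠ k j) →
    ∃ σ : Equiv.Perm (Fin 3), ∀ i, k (σ i) = ![0, 1, 2] i := by decide

theorem perm_three_ne : ∀ k : Fin 3 → Fin 3, (∑ i, k i) ≠ 0 →
    ∃ σ : Equiv.Perm (Fin 3), ∃ u : Fin 3, ∀ i, k (σ i) = ![u, u, u + ∑ i, k i] i := by decide

/-- Exponents of a diagonalised element of prescribed determinant. -/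
theorem sum_exponents {r : ℕ} [NeZero r] {ω : F} (hω : IsPrimitiveRoot ω r) (k : Fin 3 → Fin r) :
    ∏ i, ω ^ (k i : ℕ) = ω ^ ((∑ i, k i : Fin r) : ℕ) := by
  rw [Finset.prod_pow_eq_pow_sum, pow_eq_pow_mod _ hω.pow_eq_one]
  congr 1
  simp [Fin.sum_univ_three, Fin.val_add]

/-- The main criterion. -/
theorem main [Fintype F] {p : ℕ} [Fact p.Prime] [CharP F p] (hF : Fintype.card F = p) (hp3 : p % 3 = 1)
    (R : Subgroup (GL (Fin 3) F)) (hR : Nat.card R = 27) (hRe : Monoid.exponent R = 3) (hRna : ¬ IsMulCommutative R)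
    (r : ℕ) [Fact r.Prime]
    (hΩ : r ∣ (Cfsg.Geo.subgroupNormalizer R).relIndex (Cfsg.Geo.specialLinear (Fin 3) F)) :
    (∀ x ∈ Cfsg.Geo.specialLinear (Fin 3) F, (∃ z : F, ((x ^ r : GL (Fin 3) F) : M₃ F) = z • (1 : M₃ F)) →
      (∀ z : F, (x : M₃ F) ≠ z • (1 : M₃ F)) →
      ∃ g ∈ Cfsg.Geo.specialLinear (Fin 3) F, g⁻¹ * x * g ∈ Cfsg.Geo.subgroupNormalizer R) ↔ (r = 2 ∨ (r = 3 ∧ p % 9 = 1)) := by
  classical
  have hrP : r.Prime := Fact.out
  have hpP : p.Prime := Fact.out
  have hp7 : 7 ≤ p := by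
    by_contra h
    interval_cases p <;> first | omega | (exfalso; norm_num at hpP)
  have h3 : (3 : F) ≠ 0 := fun h => by
    have h' : ((3 : ℕ) : F) = 0 := by exact_mod_cast h
    rw [CharP.cast_eq_zero_iff F p] at h'
    have := Nat.le_of_dvd (by norm_num) h'
    omega
  have h2 : (2 : F) ≠ 0 := fun h => by
    have h' : ((2 : ℕ) : F) = 0 := by exact_mod_cast h
    rw [CharP.cast_eq_zero_iff F p] at h'
    have := Nat.le_of_dvd (by norm_num) h'
    omega
  have hroot : ∀ m, m ∣ p - 1 → 0 < m → ∃ ζ : F, IsPrimitiveRoot ζ m := by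
    intro m hm hm0
    obtain ⟨γ, hγ⟩ := IsCyclic.exists_generator (α := Fˣ)
    have hγo : orderOf γ = p - 1 := by
      rw [orderOf_eq_card_of_forall_mem_zpowers hγ, Nat.card_units, Nat.card_eq_fintype_card, hF]
    obtain ⟨j, hj⟩ := hm
    have hj0 : j ≠ 0 := by rintro rfl; rw [mul_zero] at hj; omega
    have : orderOf (γ ^ j) = m := by
      rw [orderOf_pow' _ hj0, hγo, hj, Nat.gcd_mul_left_left, Nat.mul_div_cancel _ (Nat.pos_of_ne_zero hj0)]
    exact ⟨((γ ^ j : Fˣ) : F), IsPrimitiveRoot.coe_units_iff.2 (this ▸ IsPrimitiveRoot.orderOf _)⟩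
  obtain ⟨ω, P, a, b, hω, haR, hbR, hgen, ⟨c, hcR, hc3, hcc⟩, hPa, hPb⟩ :=
    exists_frame h3 (hroot 3 (by omega) (by norm_num)) R hR hRe hRna
  have : Finite R := Nat.finite_of_card_ne_zero (by omega)
  have hω3 : ω ^ 3 = 1 := hω.pow_eq_one
  have hω0 : ω ≠ 0 := hω.ne_zero three_ne_zero
  have hRN : R ≤ Cfsg.Geo.subgroupNormalizer R := Subgroup.le_normalizer
  -- scalars and monomial normalisers
  have hnorm_of : ∀ (T : M₃ F) (hT : T.det ≠ 0),
      (∃ u ∈ R, T * Matrix.diagonal ![1, ω, ω ^ 2] = ((P⁻¹ * u * P : GL (Fin 3) F) : M₃ F) * T) →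
      (∃ u ∈ R, T * cyc F = ((P⁻¹ * u * P : GL (Fin 3) F) : M₃ F) * T) →
      P * Matrix.GeneralLinearGroup.mkOfDetNeZero T hT * P⁻¹ ∈ Cfsg.Geo.subgroupNormalizer R := by
    intro T hT ha' hb'
    set w := Matrix.GeneralLinearGroup.mkOfDetNeZero T hT
    refine mem_normalizer_of_gens R hgen ?_
    have key : ∀ (g : GL (Fin 3) F) (D : M₃ F), (g : M₃ F) * P = (P : M₃ F) * D →
        (∃ u ∈ R, T * D = ((P⁻¹ * u * P : GL (Fin 3) F) : M₃ F) * T) → P * w * P⁻¹ * g * (P * w * P⁻¹)⁻¹ ∈ R := by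
      rintro g D hg ⟨u, hu, hTu⟩
      have hD : ((P⁻¹ * g * P : GL (Fin 3) F) : M₃ F) = D := by
        rw [Units.val_mul, Units.val_mul, mul_assoc, hg, ← mul_assoc, Units.inv_mul, one_mul]
      have h : w * (P⁻¹ * g * P) = P⁻¹ * u * P * w := Units.ext (by
        rw [Units.val_mul, hD, Units.val_mul]; exact hTu)
      have : P * w * P⁻¹ * g * (P * w * P⁻¹)⁻¹ = u := by
        calc _ = P * (w * (P⁻¹ * g * P)) * w⁻¹ * P⁻¹ := by group
          _ = u := by rw [h]; group
      rwa [this]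
    rintro v (rfl | rfl)
    · exact key _ _ hPa ha'
    · exact key _ _ hPb hb'
  have hscalar : ∀ (g : GL (Fin 3) F) (l : F), (g : M₃ F) = l • 1 → g ∈ Cfsg.Geo.subgroupNormalizer R := by
    intro g l hg
    have hcomm : ∀ u : GL (Fin 3) F, g * u = u * g := fun u => Units.ext (by
      rw [Units.val_mul, Units.val_mul, hg, smul_mul_assoc, mul_smul_comm, one_mul, mul_one])
    refine Subgroup.mem_normalizer_iff.2 fun u => ?_
    rw [hcomm u, mul_inv_cancel_right]
  constructor
  · intro hall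
    by_contra hr
    rw [not_or, not_and] at hr
    rcases eq_or_ne r 3 with rfl | hr3
    · -- the index is prime to three
      have hp9 : p % 9 = 4 ∨ p % 9 = 7 := by
        have := hr.2 rfl
        omega
      have hsl : Nat.card (Cfsg.Geo.specialLinear (Fin 3) F) * (p - 1) = (p ^ 3 - 1) * (p ^ 3 - p) * (p ^ 3 - p ^ 2) := by
        have h := (Cfsg.Geo.specialLinear (Fin 3) F).card_mul_index
        have hsurj : Function.Surjective (Matrix.GeneralLinearGroup.det : GL (Fin 3) F →* Fˣ) := fun u =>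
          ⟨Matrix.GeneralLinearGroup.mkOfDetNeZero (Matrix.diagonal ![(u : F), 1, 1])
            (by simp [Matrix.det_diagonal, Fin.prod_univ_three]), by
            apply Units.ext; simp [Matrix.GeneralLinearGroup.val_det_apply, Matrix.det_diagonal, Fin.prod_univ_three]⟩
        rw [Cfsg.Geo.specialLinear, Subgroup.index_ker, MonoidHom.range_eq_top.2 hsurj,
          Subgroup.card_top, Nat.card_units, Nat.card_eq_fintype_card (α := F), hF,
          Matrix.card_GL_field, hF] at h
        rw [Cfsg.Geo.specialLinear, h, Fin.prod_univ_three]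
        simp
      have hRS : R ≤ Cfsg.Geo.specialLinear (Fin 3) F := by
        rw [hgen, Subgroup.closure_le]
        have hdetdiag : ∀ (g : GL (Fin 3) F) (D : M₃ F), (g : M₃ F) * P = (P : M₃ F) * D → D.det = 1 →
            g ∈ Cfsg.Geo.specialLinear (Fin 3) F := by
          intro g D hg hD
          rw [Cfsg.Geo.specialLinear, MonoidHom.mem_ker]
          apply Units.ext
          have h := congrArg Matrix.det hg
          rw [Matrix.det_mul, Matrix.det_mul, hD, mul_one] at h
          exact mul_right_cancel₀ ((Matrix.GeneralLinearGroup.det P).ne_zero) (h.trans (one_mul _).symm)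
        rintro v (rfl | rfl)
        · exact hdetdiag _ _ hPa (by simp [Matrix.det_diagonal, Fin.prod_univ_three]; rw [← hω3]; ring)
        · exact hdetdiag _ _ hPb (by simp [cyc, Matrix.det_fin_three])
      have hd : 3 * 27 ∣ Nat.card (Cfsg.Geo.specialLinear (Fin 3) F) := by
        have hle : R ≤ Cfsg.Geo.subgroupNormalizer R ⊓ Cfsg.Geo.specialLinear (Fin 3) F := le_inf hRN hRS
        have h1 := Subgroup.card_dvd_of_le hle
        rw [hR] at h1
        have h2 : Nat.card (Cfsg.Geo.specialLinear (Fin 3) F) =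
            Nat.card ↥(Cfsg.Geo.subgroupNormalizer R ⊓ Cfsg.Geo.specialLinear (Fin 3) F) *
              (Cfsg.Geo.subgroupNormalizer R).relIndex (Cfsg.Geo.specialLinear (Fin 3) F) := by
          have := ((Cfsg.Geo.subgroupNormalizer R).subgroupOf (Cfsg.Geo.specialLinear (Fin 3) F)).card_mul_index
          rw [← Subgroup.inf_subgroupOf_right, Nat.card_congr (Subgroup.subgroupOfEquivOfLe inf_le_right).toEquiv,
            Subgroup.inf_subgroupOf_right] at this
          exact this.symm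
        rw [h2, mul_comm 3 27]
        exact Nat.mul_dvd_mul h1 hΩ
      have hd' := Nat.mul_dvd_mul_right hd (p - 1)
      rw [hsl] at hd'
      obtain ⟨m, hm⟩ : ∃ m, p = 9 * m + 4 ∨ p = 9 * m + 7 := ⟨p / 9, by omega⟩
      have hid : (p ^ 3 - 1) * (p ^ 3 - p) * (p ^ 3 - p ^ 2) = (p ^ 3 * (p ^ 2 + p + 1) * (p + 1) * (p - 1) * (p - 1)) * (p - 1) := by
        have e1 : 1 ≤ p ^ 3 := Nat.one_le_pow _ _ (by omega)
        have e2 : p ≤ p ^ 3 := Nat.le_self_pow (by norm_num) p
        have e3 : p ^ 2 ≤ p ^ 3 := Nat.pow_le_pow_right (by omega) (by norm_num)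
        zify [e1, e2, e3, show 1 ≤ p by omega]
        ring
      rw [hid] at hd'
      have hd'' := Nat.dvd_of_mul_dvd_mul_right (by omega : 0 < p - 1) hd'
      rw [← ZMod.natCast_eq_zero_iff] at hd''
      push_cast [show 1 ≤ p by omega] at hd''
      have key : ∀ x : ZMod (3 * 27), (x.val % 9 = 4 ∨ x.val % 9 = 7) → x ^ 3 * (x ^ 2 + x + 1) * (x + 1) * (x - 1) * (x - 1) ≠ 0 := by
        decide +kernel
      exact key _ (by rw [ZMod.val_natCast]; omega) hd''
    -- a prime at least five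
    have hr5 : 5 ≤ r := by
      have := hrP.two_le
      have h4' : r ≠ 4 := fun h => by rw [h] at hrP; norm_num at hrP
      have := hr.1
      omega
    have hrd : r ∣ Nat.card (Cfsg.Geo.specialLinear (Fin 3) F) := hΩ.trans (Subgroup.relIndex_dvd_card _ _)
    obtain ⟨⟨x, hxS⟩, hx⟩ := exists_prime_orderOf_dvd_card' r hrd
    have hxo : orderOf x = r := by rw [← hx]; exact (Subgroup.orderOf_mk x hxS).symm
    have hxs : ∀ z : F, (x : M₃ F) ≠ z • (1 : M₃ F) := by
      intro z hz
      have hd : (x : M₃ F).det = 1 := congrArg Units.val hxS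
      rw [hz, Matrix.det_smul, Matrix.det_one, mul_one, Fintype.card_fin] at hd
      have h3' : x ^ 3 = 1 := Units.ext (by rw [Units.val_pow_eq_pow_val, hz, _root_.smul_pow, hd, one_pow, one_smul, Units.val_one])
      have := Nat.le_of_dvd (by norm_num) (hxo ▸ orderOf_dvd_of_pow_eq_one h3')
      omega
    obtain ⟨g, hg, hy⟩ := hall x hxS ⟨1, by rw [← hxo, pow_orderOf_eq_one, one_smul]; rfl⟩ hxs
    set y := g⁻¹ * x * g with hydef
    have hyr : y ^ r = 1 := by
      rw [hydef, show g⁻¹ * x * g = g⁻¹ * x * g⁻¹⁻¹ by rw [inv_inv], conj_pow, ← hxo, pow_orderOf_eq_one]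
      group
    have hfix := commute_of_normalizes R hR hr5 hy hyr hcR hc3 (hcc y)
    -- a matrix commuting with the standard generators is scalar
    set N := ((P⁻¹ * y * P : GL (Fin 3) F) : M₃ F) with hN
    have hcomm : ∀ (g₀ : GL (Fin 3) F) (D : M₃ F), g₀ ∈ R → (g₀ : M₃ F) * P = (P : M₃ F) * D → N * D = D * N := by
      intro g₀ D hg₀ hD
      have hD' : ((P⁻¹ * g₀ * P : GL (Fin 3) F) : M₃ F) = D := by
        rw [Units.val_mul, Units.val_mul, mul_assoc, hD, ← mul_assoc, Units.inv_mul, one_mul]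
      rw [← hD', hN, ← Units.val_mul, ← Units.val_mul]
      refine congrArg Units.val ?_
      calc P⁻¹ * y * P * (P⁻¹ * g₀ * P) = P⁻¹ * (y * g₀) * P := by group
        _ = _ := by rw [hfix g₀ hg₀]; group
    have e1 := hcomm a _ haR hPa
    have e2 := hcomm b _ hbR hPb
    have hd1 : ω - 1 ≠ 0 := sub_ne_zero.2 (hω.ne_one (by norm_num))
    have hd2 : ω ^ 2 - 1 ≠ 0 := sub_ne_zero.2 (hω.pow_ne_one_of_pos_of_lt two_ne_zero (by norm_num))
    have hd3 : ω ^ 2 - ω ≠ 0 := by rw [show ω ^ 2 - ω = ω * (ω - 1) by ring]; exact mul_ne_zero hω0 hd1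
    have hoff : ∀ i j, i ≠ j → N i j = 0 := by
      intro i j hij
      have h := congrFun (congrFun e1 i) j
      rw [Matrix.mul_diagonal, Matrix.diagonal_mul] at h
      fin_cases i <;> fin_cases j <;> simp at hij h ⊢ <;>
        first
        | exact (mul_eq_zero.1 (show (ω - 1) * _ = 0 by linear_combination h)).resolve_left hd1
        | exact (mul_eq_zero.1 (show (ω - 1) * _ = 0 by linear_combination -h)).resolve_left hd1
        | exact (mul_eq_zero.1 (show (ω ^ 2 - 1) * _ = 0 by linear_combination h)).resolve_left hd2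
        | exact (mul_eq_zero.1 (show (ω ^ 2 - 1) * _ = 0 by linear_combination -h)).resolve_left hd2
        | exact (mul_eq_zero.1 (show (ω ^ 2 - ω) * _ = 0 by linear_combination h)).resolve_left hd3
        | exact (mul_eq_zero.1 (show (ω ^ 2 - ω) * _ = 0 by linear_combination -h)).resolve_left hd3
    have hscal : N = N 0 0 • (1 : M₃ F) := by
      have h10 := congrFun (congrFun e2 1) 0
      have h21 := congrFun (congrFun e2 2) 1
      simp [cyc, Matrix.mul_apply, Fin.sum_univ_three] at h10 h21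
      ext i j
      fin_cases i <;> fin_cases j <;> simp [hoff, h10, h21]
    refine hxs (N 0 0) ?_
    have hx' : x = g * P * (P⁻¹ * y * P) * (g * P)⁻¹ := by rw [hydef]; group
    rw [hx', Units.val_mul, Units.val_mul (g * P), ← hN, hscal, mul_smul_comm, mul_one, smul_mul_assoc,
      Units.mul_inv]
    simp
  · intro hr x hxS hxr hxs
    obtain ⟨z, hz⟩ := hxr
    have hd : (x : M₃ F).det = 1 := congrArg Units.val hxS
    rw [Units.val_pow_eq_pow_val] at hz
    have hz3 : z ^ 3 = 1 := by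
      have h := congrArg Matrix.det hz
      rw [Matrix.det_pow, hd, one_pow, Matrix.det_smul, Matrix.det_one, mul_one, Fintype.card_fin] at h
      exact h.symm
    -- reduce to an element of order dividing `r`
    have hred : ∀ (l : F), l ≠ 0 → l ^ r = z →
        ∀ (η : F), IsPrimitiveRoot η r → ((r : F) ≠ 0) →
        (∀ k : Fin 3 → Fin r, ∏ i, η ^ (k i : ℕ) = (l ^ 3)⁻¹ → (∃ i j, k i ≠ k j) →
          ∃ (σ : Equiv.Perm (Fin 3)) (T : GL (Fin 3) F) (Q : GL (Fin 3) F) (c₀ : F), T ∈ Cfsg.Geo.subgroupNormalizer R ∧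
            (T : M₃ F) * Q = (Q : M₃ F) * Matrix.diagonal (fun i => c₀ * η ^ (k (σ i) : ℕ)) ∧ c₀ ≠ 0) →
        ∃ g ∈ Cfsg.Geo.specialLinear (Fin 3) F, g⁻¹ * x * g ∈ Cfsg.Geo.subgroupNormalizer R := by
      intro l hl0 hlz η hη hr0 hk
      have : NeZero r := ⟨hrP.ne_zero⟩
      set Y : M₃ F := l⁻¹ • (x : M₃ F) with hY
      have hYr : Y ^ r = 1 := by rw [hY, _root_.smul_pow, hz, inv_pow, hlz, smul_smul, inv_mul_cancel₀ (hlz ▸ pow_ne_zero _ hl0), one_smul]
      obtain ⟨Q₀, k, hQ₀⟩ := exists_diagonal hr0 hη hYr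
      have hxQ : (x : M₃ F) * Q₀ = (Q₀ : M₃ F) * Matrix.diagonal (fun i => l * η ^ (k i : ℕ)) := by
        have : (x : M₃ F) = l • Y := by rw [hY, smul_smul, mul_inv_cancel₀ hl0, one_smul]
        rw [this, smul_mul_assoc, hQ₀, ← mul_smul_comm, ← Matrix.diagonal_smul]
        rfl
      have hprod : ∏ i, η ^ (k i : ℕ) = (l ^ 3)⁻¹ := by
        have h := congrArg Matrix.det hxQ
        rw [Matrix.det_mul, Matrix.det_mul, hd, one_mul, Matrix.det_diagonal, Finset.prod_mul_distrib, Finset.prod_const,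
          Finset.card_univ, Fintype.card_fin] at h
        have hQd : (Q₀ : M₃ F).det ≠ 0 := (Matrix.GeneralLinearGroup.det Q₀).ne_zero
        exact eq_inv_of_mul_eq_one_right (mul_left_cancel₀ hQd (h.symm.trans (mul_one _).symm))
      have hne : ∃ i j, k i ≠ k j := by
        by_contra h
        push Not at h
        refine hxs (l * η ^ (k 0 : ℕ)) ?_
        have hd' : Matrix.diagonal (fun i => l * η ^ (k i : ℕ)) = (l * η ^ (k 0 : ℕ)) • (1 : M₃ F) := by
          rw [Matrix.smul_one_eq_diagonal]; congr 1; funext i; rw [h i 0]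
        rw [hd', mul_smul_comm, mul_one] at hxQ
        calc (x : M₃ F) = (x : M₃ F) * Q₀ * ((Q₀⁻¹ : GL (Fin 3) F) : M₃ F) := by rw [mul_assoc, Units.mul_inv, mul_one]
          _ = _ := by rw [hxQ, smul_mul_assoc, Units.mul_inv]
      obtain ⟨σ, T, Q, c₀, hT, hTQ, hc0⟩ := hk k hprod hne
      -- rescale the target
      let s : GL (Fin 3) F := Matrix.GeneralLinearGroup.mkOfDetNeZero ((l / c₀) • (1 : M₃ F))
        (by simp [Matrix.det_smul, hl0, hc0])
      have hsT : s * T ∈ Cfsg.Geo.subgroupNormalizer R := Subgroup.mul_mem _ (hscalar s _ rfl) hT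
      obtain ⟨g, hg, hgT⟩ := exists_conj_of_diagonal (x := x) (y := s * T) σ hxQ (Q := Q) (by
        show ((l / c₀) • (1 : M₃ F)) * (T : M₃ F) * (Q : M₃ F) = _
        rw [smul_mul_assoc, one_mul, smul_mul_assoc, hTQ, ← mul_smul_comm, ← Matrix.diagonal_smul]
        congr 2
        funext i
        simp only [Pi.smul_apply, smul_eq_mul, Function.comp_apply]
        field_simp)
      exact ⟨g, hg, hgT ▸ hsT⟩
    rcases hr with rfl | ⟨rfl, hp9⟩
    · -- involutions
      have hzne : z ≠ 0 := fun h => by rw [h] at hz3; simp at hz3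
      refine hred (z ^ 2) (pow_ne_zero _ hzne) (by rw [← pow_mul, show 2 * 2 = 3 + 1 from rfl, pow_add, hz3, one_mul, pow_one])
        (-1) (IsPrimitiveRoot.neg_one p (by omega)) (by exact_mod_cast h2) ?_
      intro k hk hne
      rw [← pow_mul, mul_comm, pow_mul, hz3, one_pow, inv_one, sum_exponents (IsPrimitiveRoot.neg_one p (by omega))] at hk
      have hsum : (∑ i, k i) = 0 := by
        generalize (∑ i, k i) = s at hk ⊢
        fin_cases s
        · rfl
        · exfalso
          simp at hk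
          exact h2 (by linear_combination -hk)
      obtain ⟨σ, hσ⟩ := perm_two k hsum hne
      let T₀ : M₃ F := !![-1, 0, 0; 0, 0, -1; 0, -1, 0]
      let Q₁ : M₃ F := !![1, 0, 0; 0, 1, 1; 0, 1, -1]
      have hT₀ : T₀.det ≠ 0 := by simp [T₀, Matrix.det_fin_three]
      have hQ₁ : Q₁.det ≠ 0 := by
        simp [Q₁, Matrix.det_fin_three]
        intro h
        exact h2 (by linear_combination -h)
      refine ⟨σ, P * Matrix.GeneralLinearGroup.mkOfDetNeZero T₀ hT₀ * P⁻¹,
        P * Matrix.GeneralLinearGroup.mkOfDetNeZero Q₁ hQ₁, 1, hnorm_of T₀ hT₀ ⟨a * a, R.mul_mem haR haR, ?_⟩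
          ⟨b * b, R.mul_mem hbR hbR, ?_⟩, ?_, one_ne_zero⟩
      · have : ((P⁻¹ * (a * a) * P : GL (Fin 3) F) : M₃ F) = Matrix.diagonal ![1, ω, ω ^ 2] * Matrix.diagonal ![1, ω, ω ^ 2] := by
          simp only [Units.val_mul]
          rw [mul_assoc, mul_assoc (a : M₃ F), hPa, ← mul_assoc (a : M₃ F), hPa, mul_assoc, ← mul_assoc, Units.inv_mul, one_mul]
        rw [this]
        ext i j
        fin_cases i <;> fin_cases j <;> simp [T₀, Matrix.mul_apply, Fin.sum_univ_three] <;>
          first | ring1 | linear_combination ω * hω3 | linear_combination -ω * hω3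
      · have : ((P⁻¹ * (b * b) * P : GL (Fin 3) F) : M₃ F) = cyc F * cyc F := by
          simp only [Units.val_mul]
          rw [mul_assoc, mul_assoc (b : M₃ F), hPb, ← mul_assoc (b : M₃ F), hPb, mul_assoc, ← mul_assoc, Units.inv_mul, one_mul]
        rw [this]
        ext i j
        fin_cases i <;> fin_cases j <;> simp [T₀, cyc, Matrix.mul_apply, Fin.sum_univ_three]
      · simp only [Units.val_mul, Matrix.GeneralLinearGroup.mkOfDetNeZero, hσ, one_mul]
        show (P : M₃ F) * T₀ * ((P⁻¹ : GL (Fin 3) F) : M₃ F) * ((P : M₃ F) * Q₁) = (P : M₃ F) * Q₁ * _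
        rw [mul_assoc ((P : M₃ F) * T₀), ← mul_assoc ((P⁻¹ : GL (Fin 3) F) : M₃ F), Units.inv_mul, one_mul, mul_assoc, mul_assoc]
        congr 1
        ext i j
        fin_cases i <;> fin_cases j <;> simp [T₀, Q₁, Matrix.mul_apply, Fin.sum_univ_three]
    · -- order three, nine divides `p - 1`
      obtain ⟨ζ, hζ⟩ := hroot 9 (by omega) (by norm_num)
      have hζ3 : IsPrimitiveRoot (ζ ^ 3) 3 := hζ.pow (by norm_num) (by norm_num)
      obtain ⟨j, hj, hjz⟩ := hζ3.eq_pow_of_pow_eq_one hz3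
      have hζ0 : ζ ≠ 0 := hζ.ne_zero (by norm_num)
      refine hred (ζ ^ j) (pow_ne_zero _ hζ0) (by rw [← pow_mul, mul_comm, pow_mul, hjz]) ω hω (by exact_mod_cast h3) ?_
      intro k hk hne
      rw [sum_exponents hω] at hk
      set s := (∑ i, k i) with hs
      by_cases hs0 : s = 0
      · obtain ⟨σ, hσ⟩ := perm_three_zero k hs0 hne
        refine ⟨σ, a, P, 1, hRN haR, ?_, one_ne_zero⟩
        rw [hPa]
        congr 2
        funext i
        rw [hσ, one_mul]
        fin_cases i <;> simp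
      · obtain ⟨σ, u, hσ⟩ := perm_three_ne k hs0
        let T₀ : M₃ F := Matrix.diagonal ![1, 1, ω ^ (s : ℕ)]
        have hT₀ : T₀.det ≠ 0 := by simp [T₀, Matrix.det_diagonal, Fin.prod_univ_three, hω0]
        refine ⟨σ, P * Matrix.GeneralLinearGroup.mkOfDetNeZero T₀ hT₀ * P⁻¹, P, (ω ^ (u : ℕ))⁻¹,
          hnorm_of T₀ hT₀ ⟨a, haR, ?_⟩ ⟨b * a ^ (s : ℕ), R.mul_mem hbR (R.pow_mem haR _), ?_⟩, ?_,
          inv_ne_zero (pow_ne_zero _ hω0)⟩
        · have : ((P⁻¹ * a * P : GL (Fin 3) F) : M₃ F) = Matrix.diagonal ![1, ω, ω ^ 2] := by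
            rw [Units.val_mul, Units.val_mul, mul_assoc, hPa, ← mul_assoc, Units.inv_mul, one_mul]
          rw [this, Matrix.diagonal_mul_diagonal, Matrix.diagonal_mul_diagonal]
          simp only [mul_comm]
        · have : ((P⁻¹ * (b * a ^ (s : ℕ)) * P : GL (Fin 3) F) : M₃ F) =
              cyc F * Matrix.diagonal ![1, ω, ω ^ 2] ^ (s : ℕ) := by
            rw [show P⁻¹ * (b * a ^ (s : ℕ)) * P = (P⁻¹ * b * P) * (P⁻¹ * a * P) ^ (s : ℕ) by
              rw [show P⁻¹ * a * P = P⁻¹ * a * P⁻¹⁻¹ by rw [inv_inv], conj_pow]; group]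
            rw [Units.val_mul, Units.val_pow_eq_pow_val]
            congr 1
            · rw [Units.val_mul, Units.val_mul, mul_assoc, hPb, ← mul_assoc, Units.inv_mul, one_mul]
            · congr 1
              rw [Units.val_mul, Units.val_mul, mul_assoc, hPa, ← mul_assoc, Units.inv_mul, one_mul]
          rw [this, Matrix.diagonal_pow]
          ext i j'
          have h9 : (ω ^ 2) ^ (s : ℕ) * ω ^ (s : ℕ) = 1 := by rw [← mul_pow, ← pow_succ, hω3, one_pow]
          fin_cases i <;> fin_cases j' <;> simp [T₀, cyc, Matrix.mul_apply, Fin.sum_univ_three, Matrix.vecMul_diagonal, Matrix.mulVec_diagonal, Pi.pow_apply, h9]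
        · simp only [Units.val_mul]
          show (P : M₃ F) * T₀ * ((P⁻¹ : GL (Fin 3) F) : M₃ F) * (P : M₃ F) = _
          rw [mul_assoc ((P : M₃ F) * T₀), Units.inv_mul, mul_one]
          congr 1
          simp only [T₀]
          congr 1
          funext i
          rw [hσ]
          have hadd : ∀ u s : Fin 3, ω ^ ((u + s : Fin 3) : ℕ) = ω ^ (u : ℕ) * ω ^ (s : ℕ) := fun u s => by
            rw [← pow_add, Fin.val_add, ← pow_eq_pow_mod _ hω3]
          fin_cases i <;> simp [hadd, hω0, hs.symm]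

end Cfsg.Agent.H66.Extra
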