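/-
Elements of prime order of `SU_3(p)` and the normaliser of an extraspecial group of order 27.
-/
import Cfsg.Agent.H66.ExtraspecialNormalizer
import Cfsg.Agent.H66.SemisimpleSU
import Cfsg.Agent.H67.GUMatrix
import Cfsg.Agent.H3.Count

set_option autoImplicit false

open Matrix Module

namespace Cfsg.Agent.H66.Extra

variable {F : Type*} [Field F]

/-- The characteristic polynomial from a diagonalisation. -/
theorem charpoly_of_diagonal {n : ℕ} {A : Matrix (Fin n) (Fin n) F} {Q : GL (Fin n) F} {d : Fin n → F}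
    (h : A * (Q : Matrix (Fin n) (Fin n) F) = (Q : Matrix (Fin n) (Fin n) F) * Matrix.diagonal d) :
    A.charpoly = ∏ i, (Polynomial.X - Polynomial.C (d i)) := by
  have hA : A = (Q : Matrix (Fin n) (Fin n) F) * Matrix.diagonal d * ((Q⁻¹ : GL (Fin n) F) : Matrix (Fin n) (Fin n) F) := by
    rw [← h, mul_assoc, Units.mul_inv, mul_one]
  rw [hA, Matrix.coe_units_inv, Matrix.charpoly_units_conj, Matrix.charpoly_diagonal]

variable [Fintype F]

/-- The standard basis of a unitary extraspecial group can be chosen orthonormal. -/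
theorem exists_unitary_frame {p : ℕ} (hF : Fintype.card F = p ^ 2) (hp3 : p % 3 = 2) {ω : F} (hω : IsPrimitiveRoot ω 3)
    {P a b : GL (Fin 3) F} (ha : a ∈ Cfsg.GU 3 F p) (hb : b ∈ Cfsg.GU 3 F p)
    (hPa : (a : M₃ F) * P = (P : M₃ F) * Matrix.diagonal ![1, ω, ω ^ 2]) (hPb : (b : M₃ F) * P = (P : M₃ F) * cyc F) :
    ∃ P' : GL (Fin 3) F, P' ∈ Cfsg.GU 3 F p ∧
      (a : M₃ F) * P' = (P' : M₃ F) * Matrix.diagonal ![1, ω, ω ^ 2] ∧ (b : M₃ F) * P' = (P' : M₃ F) * cyc F := by
  classical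
  set σ := H3.conjQ hF with hσ
  set M := (P : M₃ F) with hM
  have hmap : ∀ X : M₃ F, X.map (fun x => x ^ p) = X.map σ := fun X => rfl
  have hinv : ∀ (g : GL (Fin 3) F) (D : M₃ F), g ∈ Cfsg.GU 3 F p → (g : M₃ F) * M = M * D →
      Dᵀ * (Mᵀ * M.map σ) * D.map σ = Mᵀ * M.map σ := by
    intro g D hg hgD
    have h1 := (H67.mem_GU_iff_matrix hF g).1 hg
    rw [hmap] at h1
    calc Dᵀ * (Mᵀ * M.map σ) * D.map σ = (M * D)ᵀ * (M * D).map σ := by
          rw [Matrix.transpose_mul, Matrix.map_mul]; simp only [mul_assoc]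
      _ = Mᵀ * ((g : M₃ F)ᵀ * (g : M₃ F).map σ) * M.map σ := by
          rw [← hgD, Matrix.transpose_mul, Matrix.map_mul]; simp only [mul_assoc]
      _ = _ := by rw [h1, mul_one]
  set G := Mᵀ * M.map σ with hG
  have hω3 := hω.pow_eq_one
  have hσω : σ ω = ω ^ 2 := by
    rw [hσ, H3.conjQ_apply, pow_eq_pow_mod p hω3, hp3]
  have hω0 : ω ≠ 0 := hω.ne_zero three_ne_zero
  have hd1 : ω - 1 ≠ 0 := sub_ne_zero.2 (hω.ne_one (by norm_num))
  have hd2 : ω ^ 2 - 1 ≠ 0 := sub_ne_zero.2 (hω.pow_ne_one_of_pos_of_lt two_ne_zero (by norm_num))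
  have e1 := hinv a _ ha hPa
  have e2 := hinv b _ hb hPb
  have hoff : ∀ i j, i ≠ j → G i j = 0 := by
    intro i j hij
    have h := congrFun (congrFun e1 i) j
    rw [Matrix.diagonal_map (map_zero σ), Matrix.diagonal_transpose, Matrix.mul_diagonal, Matrix.diagonal_mul] at h
    have hω4 : ω ^ 4 = ω := by rw [pow_succ, hω3, one_mul]
    fin_cases i <;> fin_cases j <;> simp [hσω, map_pow, ← pow_mul, hω4] at hij h ⊢ <;>
      first
      | exact (mul_eq_zero.1 (show (ω - 1) * _ = 0 by linear_combination h)).resolve_left hd1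
      | exact (mul_eq_zero.1 (show (ω ^ 2 - 1) * _ = 0 by linear_combination h)).resolve_left hd2
      | exact (mul_eq_zero.1 (show (ω - 1) * G 2 1 = 0 by linear_combination h - G 2 1 * hω4)).resolve_left hd1
  have h11 : G 1 1 = G 0 0 := by
    have h := congrFun (congrFun e2 0) 0
    simpa [cyc, Matrix.mul_apply, Fin.sum_univ_three] using h
  have h22 : G 2 2 = G 0 0 := by
    have h := congrFun (congrFun e2 1) 1
    rw [← h11]
    simpa [cyc, Matrix.mul_apply, Fin.sum_univ_three] using h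
  set h := G 0 0 with hh
  have hGh : G = h • 1 := by
    ext i j
    rcases eq_or_ne i j with rfl | hij
    · fin_cases i <;> simp [h11, h22, hh]
    · simp [hoff i j hij, hij]
  have hh0 : h ≠ 0 := by
    intro h0
    have hd : G.det = 0 := by rw [hGh, h0, zero_smul, Matrix.det_zero]
    rw [hG, Matrix.det_mul, Matrix.det_transpose, ← RingHom.mapMatrix_apply, ← RingHom.map_det] at hd
    have hdet : M.det ≠ 0 := (Matrix.GeneralLinearGroup.det P).ne_zero
    exact mul_ne_zero hdet ((_root_.map_ne_zero σ).2 hdet) hd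
  have hhσ : h ^ p = h := by
    show σ h = h
    rw [hh, hG, Matrix.mul_apply, map_sum]
    refine Finset.sum_congr rfl fun k _ => ?_
    rw [map_mul, Matrix.transpose_apply, Matrix.map_apply, H3.conjQ_conjQ hF, mul_comm]
  obtain ⟨l, hl⟩ := H3.exists_norm_eq hF (μ := h⁻¹) (by rw [inv_pow, hhσ])
  have hl0 : l ≠ 0 := fun h' => by rw [h', zero_pow (Nat.succ_ne_zero p)] at hl; exact inv_ne_zero hh0 hl.symm
  have hMdet : (l • M).det ≠ 0 := by
    rw [Matrix.det_smul]
    exact mul_ne_zero (pow_ne_zero _ hl0) (Matrix.GeneralLinearGroup.det P).ne_zero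
  refine ⟨Matrix.GeneralLinearGroup.mkOfDetNeZero (l • M) hMdet, ?_, ?_, ?_⟩
  · rw [H67.mem_GU_iff_matrix hF, hmap]
    show (l • M)ᵀ * (l • M).map σ = 1
    rw [Matrix.transpose_smul, Matrix.map_smul' _ _ _ (map_mul σ), smul_mul_smul_comm, ← hG, hGh, smul_smul,
      show l * σ l = h⁻¹ by rw [← hl, pow_succ', hσ, H3.conjQ_apply], inv_mul_cancel₀ hh0, one_smul]
  · show (a : M₃ F) * (l • M) = l • M * _
    rw [mul_smul_comm, hPa, smul_mul_assoc]
  · show (b : M₃ F) * (l • M) = l • M * _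
    rw [mul_smul_comm, hPb, smul_mul_assoc]

/-- The main criterion. -/
theorem mainU {p : ℕ} [Fact p.Prime] [CharP F p] (hF : Fintype.card F = p ^ 2) (hp : 5 ≤ p) (hp3 : p % 3 = 2)
    (R : Subgroup (GL (Fin 3) F)) (hRU : R ≤ Cfsg.GU 3 F p) (hR : Nat.card R = 27) (hRe : Monoid.exponent R = 3) (hRna : ¬ IsMulCommutative R)
    (r : ℕ) [Fact r.Prime]
    (hΩ : r ∣ (Cfsg.Geo.subgroupNormalizer R).relIndex (Cfsg.GU 3 F p ⊓ Cfsg.Geo.specialLinear (Fin 3) F)) :
    (∀ x ∈ Cfsg.GU 3 F p ⊓ Cfsg.Geo.specialLinear (Fin 3) F, (∃ z : F, ((x ^ r : GL (Fin 3) F) : M₃ F) = z • (1 : M₃ F)) →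
      (∀ z : F, (x : M₃ F) ≠ z • (1 : M₃ F)) →
      ∃ g ∈ Cfsg.GU 3 F p ⊓ Cfsg.Geo.specialLinear (Fin 3) F, g⁻¹ * x * g ∈ Cfsg.Geo.subgroupNormalizer R) ↔ (r = 2 ∨ (r = 3 ∧ p % 9 = 8)) := by
  classical
  have hrP : r.Prime := Fact.out
  have hpP : p.Prime := Fact.out
  have h3 : (3 : F) ≠ 0 := fun h => by
    have h' : ((3 : ℕ) : F) = 0 := by exact_mod_cast h
    rw [CharP.cast_eq_zero_iff F p] at h'
    have := Nat.le_of_dvd (by norm_num) h'
    omega
  have h2 : (2 : F) ≠ 0 := fun h => by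
    have h' : ((2 : ℕ) : F) = 0 := by exact_mod_cast h
    rw [CharP.cast_eq_zero_iff F p] at h'
    have := Nat.le_of_dvd (by norm_num) h'
    omega
  have hσp : ∀ X : M₃ F, X.map (fun x => x ^ p) = X.map (H3.conjQ hF) := fun X => rfl
  have hroot : ∀ m, m ∣ p + 1 → 0 < m → ∃ ζ : F, IsPrimitiveRoot ζ m := by
    intro m hm hm0
    obtain ⟨γ, hγ⟩ := IsCyclic.exists_generator (α := Fˣ)
    have hγo : orderOf γ = p ^ 2 - 1 := by
      rw [orderOf_eq_card_of_forall_mem_zpowers hγ, Nat.card_units, Nat.card_eq_fintype_card, hF]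
    obtain ⟨j, hj⟩ : m ∣ p ^ 2 - 1 := hm.trans ⟨p - 1, by rw [← Nat.sq_sub_sq, one_pow]⟩
    have hj0 : j ≠ 0 := by
      rintro rfl
      rw [mul_zero] at hj
      have := Nat.pow_le_pow_left hp 2
      omega
    have : orderOf (γ ^ j) = m := by
      rw [orderOf_pow' _ hj0, hγo, hj, Nat.gcd_mul_left_left, Nat.mul_div_cancel _ (Nat.pos_of_ne_zero hj0)]
    exact ⟨((γ ^ j : Fˣ) : F), IsPrimitiveRoot.coe_units_iff.2 (this ▸ IsPrimitiveRoot.orderOf _)⟩
  obtain ⟨ω, P₀, a, b, hω, haR, hbR, hgen, ⟨c, hcR, hc3, hcc⟩, hPa₀, hPb₀⟩ :=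
    exists_frame h3 (hroot 3 (by omega) (by norm_num)) R hR hRe hRna
  obtain ⟨P, hPU, hPa, hPb⟩ := exists_unitary_frame hF hp3 hω (hRU haR) (hRU hbR) hPa₀ hPb₀
  have : Finite R := Nat.finite_of_card_ne_zero (by omega)
  have hω3 : ω ^ 3 = 1 := hω.pow_eq_one
  have hω0 : ω ≠ 0 := hω.ne_zero three_ne_zero
  have hRN : R ≤ Cfsg.Geo.subgroupNormalizer R := Subgroup.le_normalizer
  -- scalars and monomial normalisers
  have hnorm_of : ∀ (T : M₃ F) (hT : T.det ≠ 0),
      (∃ u ∈ R, T * Matrix.diagonal ![1, ω, ω ^ 2] = ((P⁻¹ * u * P : GL (Fin 3) F) : M₃ F) * T) →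
      (∃ u ∈ R, T * cyc F = ((P⁻¹ * u * P : GL (Fin 3) F) : M₃ F) * T) →
      P * Matrix.GeneralLinearGroup.mkOfDetNeZero T hT * P⁻¹ ∈ Cfsg.Geo.subgroupNormalizer R := by
    intro T hT ha' hb'
    set w := Matrix.GeneralLinearGroup.mkOfDetNeZero T hT
    refine mem_normalizer_of_gens R hgen ?_
    have key : ∀ (g : GL (Fin 3) F) (D : M₃ F), (g : M₃ F) * P = (P : M₃ F) * D →
        (∃ u ∈ R, T * D = ((P⁻¹ * u * P : GL (Fin 3) F) : M₃ F) * T) → P * w * P⁻¹ * g * (P * w * P⁻¹)⁻¹ ∈ R := by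
      rintro g D hg ⟨u, hu, hTu⟩
      have hD : ((P⁻¹ * g * P : GL (Fin 3) F) : M₃ F) = D := by
        rw [Units.val_mul, Units.val_mul, mul_assoc, hg, ← mul_assoc, Units.inv_mul, one_mul]
      have h : w * (P⁻¹ * g * P) = P⁻¹ * u * P * w := Units.ext (by
        rw [Units.val_mul, hD, Units.val_mul]; exact hTu)
      have : P * w * P⁻¹ * g * (P * w * P⁻¹)⁻¹ = u := by
        calc _ = P * (w * (P⁻¹ * g * P)) * w⁻¹ * P⁻¹ := by group
          _ = u := by rw [h]; group
      rwa [this]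
    rintro v (rfl | rfl)
    · exact key _ _ hPa ha'
    · exact key _ _ hPb hb'
  have hscalar : ∀ (g : GL (Fin 3) F) (l : F), (g : M₃ F) = l • 1 → g ∈ Cfsg.Geo.subgroupNormalizer R := by
    intro g l hg
    have hcomm : ∀ u : GL (Fin 3) F, g * u = u * g := fun u => Units.ext (by
      rw [Units.val_mul, Units.val_mul, hg, smul_mul_assoc, mul_smul_comm, one_mul, mul_one])
    refine Subgroup.mem_normalizer_iff.2 fun u => ?_
    rw [hcomm u, mul_inv_cancel_right]
  constructor
  · intro hall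
    by_contra hr
    rw [not_or, not_and] at hr
    rcases eq_or_ne r 3 with rfl | hr3
    · -- the index is prime to three
      have hp9 : p % 9 = 2 ∨ p % 9 = 5 := by
        have := hr.2 rfl
        omega
      have hsl : Nat.card ↥(Cfsg.GU 3 F p ⊓ Cfsg.Geo.specialLinear (Fin 3) F) * (p + 1) =
          p ^ 3 * ((p + 1) * (p ^ 2 - 1) * (p ^ 3 + 1)) := by
        let f : Cfsg.SU 3 F p → ↥(Cfsg.GU 3 F p ⊓ Cfsg.Geo.specialLinear (Fin 3) F) :=
          fun g => ⟨Matrix.SpecialLinearGroup.toGL g.1, g.2, Units.ext g.1.2⟩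
        have hf : Function.Bijective f := by
          constructor
          · intro g g' h
            exact Subtype.ext (Subtype.ext (congrArg (fun x : ↥(Cfsg.GU 3 F p ⊓ Cfsg.Geo.specialLinear (Fin 3) F) => ((x : GL (Fin 3) F) : M₃ F)) h))
          · rintro ⟨g, hgU, hgS⟩
            exact ⟨⟨⟨(g : M₃ F), congrArg Units.val hgS⟩, hgU⟩, Subtype.ext (Units.ext rfl)⟩
        rw [← Nat.card_congr (Equiv.ofBijective f hf), mul_comm, H3.card_SU hF (by norm_num), H3.card_GU hF,
          Finset.prod_range_succ, Finset.prod_range_succ, Finset.prod_range_succ, Finset.prod_range_zero]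
        simp [show ¬ Even 1 by decide, show Even 2 by decide]
      have hRS : R ≤ Cfsg.Geo.specialLinear (Fin 3) F := by
        rw [hgen, Subgroup.closure_le]
        have hdetdiag : ∀ (g : GL (Fin 3) F) (D : M₃ F), (g : M₃ F) * P = (P : M₃ F) * D → D.det = 1 →
            g ∈ Cfsg.Geo.specialLinear (Fin 3) F := by
          intro g D hg hD
          rw [Cfsg.Geo.specialLinear, MonoidHom.mem_ker]
          apply Units.ext
          have h := congrArg Matrix.det hg
          rw [Matrix.det_mul, Matrix.det_mul, hD, mul_one] at h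
          exact mul_right_cancel₀ ((Matrix.GeneralLinearGroup.det P).ne_zero) (h.trans (one_mul _).symm)
        rintro v (rfl | rfl)
        · exact hdetdiag _ _ hPa (by simp [Matrix.det_diagonal, Fin.prod_univ_three]; rw [← hω3]; ring)
        · exact hdetdiag _ _ hPb (by simp [cyc, Matrix.det_fin_three])
      set T := Cfsg.GU 3 F p ⊓ Cfsg.Geo.specialLinear (Fin 3) F with hT
      have hd : 3 * 27 ∣ Nat.card T := by
        have hle : R ≤ Cfsg.Geo.subgroupNormalizer R ⊓ T := le_inf hRN (le_inf hRU hRS)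
        have h1 := Subgroup.card_dvd_of_le hle
        rw [hR] at h1
        have h2 : Nat.card T =
            Nat.card ↥(Cfsg.Geo.subgroupNormalizer R ⊓ T) * (Cfsg.Geo.subgroupNormalizer R).relIndex T := by
          have := ((Cfsg.Geo.subgroupNormalizer R).subgroupOf T).card_mul_index
          rw [← Subgroup.inf_subgroupOf_right, Nat.card_congr (Subgroup.subgroupOfEquivOfLe inf_le_right).toEquiv,
            Subgroup.inf_subgroupOf_right] at this
          exact this.symm
        rw [h2, mul_comm 3 27]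
        exact Nat.mul_dvd_mul h1 hΩ
      have hd' := Nat.mul_dvd_mul_right hd (p + 1)
      rw [hsl] at hd'
      have hid : p ^ 3 * ((p + 1) * (p ^ 2 - 1) * (p ^ 3 + 1)) = (p ^ 3 * (p ^ 2 - 1) * (p ^ 3 + 1)) * (p + 1) := by ring
      rw [hid] at hd'
      have hd'' := Nat.dvd_of_mul_dvd_mul_right (by omega : 0 < p + 1) hd'
      rw [← ZMod.natCast_eq_zero_iff] at hd''
      push_cast [Nat.one_le_pow 2 p (by omega)] at hd''
      have key : ∀ x : ZMod (3 * 27), (x.val % 9 = 2 ∨ x.val % 9 = 5) → x ^ 3 * (x ^ 2 - 1) * (x ^ 3 + 1) ≠ 0 := by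
        decide +kernel
      exact key _ (by rw [ZMod.val_natCast]; omega) hd''
    -- a prime at least five
    have hr5 : 5 ≤ r := by
      have := hrP.two_le
      have h4' : r ≠ 4 := fun h => by rw [h] at hrP; norm_num at hrP
      have := hr.1
      omega
    have hrd : r ∣ Nat.card ↥(Cfsg.GU 3 F p ⊓ Cfsg.Geo.specialLinear (Fin 3) F) := hΩ.trans (Subgroup.relIndex_dvd_card _ _)
    obtain ⟨⟨x, hxS⟩, hx⟩ := exists_prime_orderOf_dvd_card' r hrd
    have hxo : orderOf x = r := by rw [← hx]; exact (Subgroup.orderOf_mk x hxS).symm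
    have hxs : ∀ z : F, (x : M₃ F) ≠ z • (1 : M₃ F) := by
      intro z hz
      have hd : (x : M₃ F).det = 1 := congrArg Units.val hxS.2
      rw [hz, Matrix.det_smul, Matrix.det_one, mul_one, Fintype.card_fin] at hd
      have h3' : x ^ 3 = 1 := Units.ext (by rw [Units.val_pow_eq_pow_val, hz, _root_.smul_pow, hd, one_pow, one_smul, Units.val_one])
      have := Nat.le_of_dvd (by norm_num) (hxo ▸ orderOf_dvd_of_pow_eq_one h3')
      omega
    obtain ⟨g, hg, hy⟩ := hall x hxS ⟨1, by rw [← hxo, pow_orderOf_eq_one, one_smul]; rfl⟩ hxs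
    set y := g⁻¹ * x * g with hydef
    have hyr : y ^ r = 1 := by
      rw [hydef, show g⁻¹ * x * g = g⁻¹ * x * g⁻¹⁻¹ by rw [inv_inv], conj_pow, ← hxo, pow_orderOf_eq_one]
      group
    have hfix := commute_of_normalizes R hR hr5 hy hyr hcR hc3 (hcc y)
    -- a matrix commuting with the standard generators is scalar
    set N := ((P⁻¹ * y * P : GL (Fin 3) F) : M₃ F) with hN
    have hcomm : ∀ (g₀ : GL (Fin 3) F) (D : M₃ F), g₀ ∈ R → (g₀ : M₃ F) * P = (P : M₃ F) * D → N * D = D * N := by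
      intro g₀ D hg₀ hD
      have hD' : ((P⁻¹ * g₀ * P : GL (Fin 3) F) : M₃ F) = D := by
        rw [Units.val_mul, Units.val_mul, mul_assoc, hD, ← mul_assoc, Units.inv_mul, one_mul]
      rw [← hD', hN, ← Units.val_mul, ← Units.val_mul]
      refine congrArg Units.val ?_
      calc P⁻¹ * y * P * (P⁻¹ * g₀ * P) = P⁻¹ * (y * g₀) * P := by group
        _ = _ := by rw [hfix g₀ hg₀]; group
    have e1 := hcomm a _ haR hPa
    have e2 := hcomm b _ hbR hPb
    have hd1 : ω - 1 ≠ 0 := sub_ne_zero.2 (hω.ne_one (by norm_num))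
    have hd2 : ω ^ 2 - 1 ≠ 0 := sub_ne_zero.2 (hω.pow_ne_one_of_pos_of_lt two_ne_zero (by norm_num))
    have hd3 : ω ^ 2 - ω ≠ 0 := by rw [show ω ^ 2 - ω = ω * (ω - 1) by ring]; exact mul_ne_zero hω0 hd1
    have hoff : ∀ i j, i ≠ j → N i j = 0 := by
      intro i j hij
      have h := congrFun (congrFun e1 i) j
      rw [Matrix.mul_diagonal, Matrix.diagonal_mul] at h
      fin_cases i <;> fin_cases j <;> simp at hij h ⊢ <;>
        first
        | exact (mul_eq_zero.1 (show (ω - 1) * _ = 0 by linear_combination h)).resolve_left hd1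
        | exact (mul_eq_zero.1 (show (ω - 1) * _ = 0 by linear_combination -h)).resolve_left hd1
        | exact (mul_eq_zero.1 (show (ω ^ 2 - 1) * _ = 0 by linear_combination h)).resolve_left hd2
        | exact (mul_eq_zero.1 (show (ω ^ 2 - 1) * _ = 0 by linear_combination -h)).resolve_left hd2
        | exact (mul_eq_zero.1 (show (ω ^ 2 - ω) * _ = 0 by linear_combination h)).resolve_left hd3
        | exact (mul_eq_zero.1 (show (ω ^ 2 - ω) * _ = 0 by linear_combination -h)).resolve_left hd3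
    have hscal : N = N 0 0 • (1 : M₃ F) := by
      have h10 := congrFun (congrFun e2 1) 0
      have h21 := congrFun (congrFun e2 2) 1
      simp [cyc, Matrix.mul_apply, Fin.sum_univ_three] at h10 h21
      ext i j
      fin_cases i <;> fin_cases j <;> simp [hoff, h10, h21]
    refine hxs (N 0 0) ?_
    have hx' : x = g * P * (P⁻¹ * y * P) * (g * P)⁻¹ := by rw [hydef]; group
    rw [hx', Units.val_mul, Units.val_mul (g * P), ← hN, hscal, mul_smul_comm, mul_one, smul_mul_assoc,
      Units.mul_inv]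
    simp
  · intro hr x hxS hxr hxs
    obtain ⟨z, hz⟩ := hxr
    have hd : (x : M₃ F).det = 1 := congrArg Units.val hxS.2
    rw [Units.val_pow_eq_pow_val] at hz
    have hz3 : z ^ 3 = 1 := by
      have h := congrArg Matrix.det hz
      rw [Matrix.det_pow, hd, one_pow, Matrix.det_smul, Matrix.det_one, mul_one, Fintype.card_fin] at h
      exact h.symm
    -- reduce to an element of order dividing `r`
    have hdiagU : ∀ (g : GL (Fin 3) F) (d : Fin 3 → F), (∀ i, d i ^ (p + 1) = 1) → (g : M₃ F) = Matrix.diagonal d →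
        g ∈ Cfsg.GU 3 F p := by
      intro g d hdN hg
      rw [H67.mem_GU_iff_matrix hF, hσp, hg, Matrix.diagonal_transpose, Matrix.diagonal_map (map_zero _),
        Matrix.diagonal_mul_diagonal, ← Matrix.diagonal_one]
      congr 1
      funext i
      show d i * H3.conjQ hF (d i) = 1
      rw [← hdN i, pow_succ']
      rfl
    have hsymU : ∀ (T : M₃ F) (hT : T.det ≠ 0), Matrix.GeneralLinearGroup.mkOfDetNeZero T hT ∈ Cfsg.GU 3 F p →
        P * Matrix.GeneralLinearGroup.mkOfDetNeZero T hT * P⁻¹ ∈ Cfsg.GU 3 F p :=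
      fun T hT h => Subgroup.mul_mem _ (Subgroup.mul_mem _ hPU h) (inv_mem hPU)
    have hzN : z ^ (p + 1) = 1 := by
      obtain ⟨e, he⟩ : 3 ∣ p + 1 := by omega
      rw [he, pow_mul, hz3, one_pow]
    have hred : ∀ (l : F), l ≠ 0 → l ^ r = z → l ^ (p + 1) = 1 →
        ∀ (η : F), IsPrimitiveRoot η r → ((r : F) ≠ 0) →
        (∀ k : Fin 3 → Fin r, ∏ i, η ^ (k i : ℕ) = (l ^ 3)⁻¹ → (∃ i j, k i ≠ k j) →
          ∃ (σ : Equiv.Perm (Fin 3)) (T : GL (Fin 3) F) (Q : GL (Fin 3) F) (c₀ : F), T ∈ Cfsg.Geo.subgroupNormalizer R ⊓ Cfsg.GU 3 F p ∧ c₀ ^ (p + 1) = 1 ∧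
            (T : M₃ F) * Q = (Q : M₃ F) * Matrix.diagonal (fun i => c₀ * η ^ (k (σ i) : ℕ)) ∧ c₀ ≠ 0) →
        ∃ g ∈ Cfsg.GU 3 F p ⊓ Cfsg.Geo.specialLinear (Fin 3) F, g⁻¹ * x * g ∈ Cfsg.Geo.subgroupNormalizer R := by
      intro l hl0 hlz hlN η hη hr0 hk
      have : NeZero r := ⟨hrP.ne_zero⟩
      set Y : M₃ F := l⁻¹ • (x : M₃ F) with hY
      have hYr : Y ^ r = 1 := by rw [hY, _root_.smul_pow, hz, inv_pow, hlz, smul_smul, inv_mul_cancel₀ (hlz ▸ pow_ne_zero _ hl0), one_smul]
      obtain ⟨Q₀, k, hQ₀⟩ := exists_diagonal hr0 hη hYr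
      have hxQ : (x : M₃ F) * Q₀ = (Q₀ : M₃ F) * Matrix.diagonal (fun i => l * η ^ (k i : ℕ)) := by
        have : (x : M₃ F) = l • Y := by rw [hY, smul_smul, mul_inv_cancel₀ hl0, one_smul]
        rw [this, smul_mul_assoc, hQ₀, ← mul_smul_comm, ← Matrix.diagonal_smul]
        rfl
      have hprod : ∏ i, η ^ (k i : ℕ) = (l ^ 3)⁻¹ := by
        have h := congrArg Matrix.det hxQ
        rw [Matrix.det_mul, Matrix.det_mul, hd, one_mul, Matrix.det_diagonal, Finset.prod_mul_distrib, Finset.prod_const,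
          Finset.card_univ, Fintype.card_fin] at h
        have hQd : (Q₀ : M₃ F).det ≠ 0 := (Matrix.GeneralLinearGroup.det Q₀).ne_zero
        exact eq_inv_of_mul_eq_one_right (mul_left_cancel₀ hQd (h.symm.trans (mul_one _).symm))
      have hne : ∃ i j, k i ≠ k j := by
        by_contra h
        push Not at h
        refine hxs (l * η ^ (k 0 : ℕ)) ?_
        have hd' : Matrix.diagonal (fun i => l * η ^ (k i : ℕ)) = (l * η ^ (k 0 : ℕ)) • (1 : M₃ F) := by
          rw [Matrix.smul_one_eq_diagonal]; congr 1; funext i; rw [h i 0]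
        rw [hd', mul_smul_comm, mul_one] at hxQ
        calc (x : M₃ F) = (x : M₃ F) * Q₀ * ((Q₀⁻¹ : GL (Fin 3) F) : M₃ F) := by rw [mul_assoc, Units.mul_inv, mul_one]
          _ = _ := by rw [hxQ, smul_mul_assoc, Units.mul_inv]
      obtain ⟨σ, T, Q, c₀, hT, hcN, hTQ, hc0⟩ := hk k hprod hne
      -- rescale the target
      let s : GL (Fin 3) F := Matrix.GeneralLinearGroup.mkOfDetNeZero ((l / c₀) • (1 : M₃ F))
        (by simp [Matrix.det_smul, hl0, hc0])
      have hsT : s * T ∈ Cfsg.Geo.subgroupNormalizer R := Subgroup.mul_mem _ (hscalar s _ rfl) hT.1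
      have hsU : s * T ∈ Cfsg.GU 3 F p := Subgroup.mul_mem _ (hdiagU s (fun _ => l / c₀) (fun _ => by
        rw [div_pow, hlN, hcN, div_one]) (by
        show (l / c₀) • (1 : M₃ F) = _
        rw [Matrix.smul_one_eq_diagonal])) hT.2
      have hTd : ((s * T : GL (Fin 3) F) : M₃ F) * (Q : M₃ F) = (Q : M₃ F) * Matrix.diagonal (fun i => l * η ^ (k (σ i) : ℕ)) := by
        show ((l / c₀) • (1 : M₃ F)) * (T : M₃ F) * (Q : M₃ F) = _
        rw [smul_mul_assoc, one_mul, smul_mul_assoc, hTQ, ← mul_smul_comm, ← Matrix.diagonal_smul]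
        congr 2
        funext i
        simp only [Pi.smul_apply, smul_eq_mul]
        field_simp
      have hchar : ((s * T : GL (Fin 3) F) : M₃ F).charpoly = (x : M₃ F).charpoly := by
        rw [charpoly_of_diagonal hTd, charpoly_of_diagonal hxQ]
        exact Equiv.prod_comp σ fun i => Polynomial.X - Polynomial.C (l * η ^ (k i : ℕ))
      have hTdet : ((s * T : GL (Fin 3) F) : M₃ F).det = 1 := by
        rw [Matrix.det_eq_sign_charpoly_coeff, hchar, ← Matrix.det_eq_sign_charpoly_coeff, hd]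
      let xs : Cfsg.SU 3 F p := ⟨⟨(x : M₃ F), hd⟩, hxS.1⟩
      let ts : Cfsg.SU 3 F p := ⟨⟨((s * T : GL (Fin 3) F) : M₃ F), hTdet⟩, hsU⟩
      have hpow : ∀ (A : Cfsg.SU 3 F p) (Q' : GL (Fin 3) F) (e : Fin 3 → Fin r),
          (A.1 : M₃ F) * Q' = (Q' : M₃ F) * Matrix.diagonal (fun i => l * η ^ (e i : ℕ)) → (orderOf A).Coprime p := by
        intro A Q' e hA
        have hdvd : orderOf A ∣ 3 * r := by
          refine orderOf_dvd_of_pow_eq_one (Subtype.ext (Subtype.ext ?_))
          show (A.1 : M₃ F) ^ (3 * r) = 1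
          have hA' : ∀ m : ℕ, (A.1 : M₃ F) ^ m * Q' = (Q' : M₃ F) * Matrix.diagonal (fun i => (l * η ^ (e i : ℕ)) ^ m) := by
            intro m
            induction m with
            | zero => simp
            | succ m ih =>
              rw [pow_succ', mul_assoc, ih, ← mul_assoc, hA, mul_assoc, Matrix.diagonal_mul_diagonal]
              simp [pow_succ']
          have h1 : ∀ i, (l * η ^ (e i : ℕ)) ^ (3 * r) = 1 := fun i => by
            rw [mul_pow, mul_comm 3 r, pow_mul, hlz, hz3, one_mul, ← pow_mul, mul_comm (e i : ℕ), mul_assoc, pow_mul,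
              hη.pow_eq_one, one_pow]
          have h2' := hA' (3 * r)
          simp only [h1, Matrix.diagonal_one, mul_one] at h2'
          calc (A.1 : M₃ F) ^ (3 * r) = (A.1 : M₃ F) ^ (3 * r) * (Q' : M₃ F) * ((Q'⁻¹ : GL (Fin 3) F) : M₃ F) := by
                rw [mul_assoc, Units.mul_inv, mul_one]
            _ = 1 := by rw [h2', Units.mul_inv]
        refine Nat.Coprime.coprime_dvd_left hdvd (Nat.Coprime.mul_left ?_ ?_)
        · exact (Nat.coprime_primes Nat.prime_three hpP).2 (by omega)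
        · refine (Nat.coprime_primes hrP hpP).2 fun h => ?_
          exact hr0 (by rw [h]; exact CharP.cast_eq_zero F p)
      obtain ⟨w, hw⟩ := isConj_iff.1 (su_isConj_of_charpoly_eq hF p xs ts (hpow xs Q₀ k hxQ)
        (hpow ts Q (k ∘ σ) hTd) hchar.symm)
      refine ⟨(Matrix.SpecialLinearGroup.toGL w.1)⁻¹, inv_mem ⟨w.2, Units.ext w.1.2⟩, ?_⟩
      rw [inv_inv]
      have e : Matrix.SpecialLinearGroup.toGL w.1 * x * (Matrix.SpecialLinearGroup.toGL w.1)⁻¹ = s * T := by
        have h := congrArg (fun A : Cfsg.SU 3 F p => Matrix.SpecialLinearGroup.toGL A.1) hw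
        simp only [Subgroup.coe_mul, Subgroup.coe_inv, map_mul, map_inv] at h
        rwa [show Matrix.SpecialLinearGroup.toGL xs.1 = x from Units.ext rfl,
          show Matrix.SpecialLinearGroup.toGL ts.1 = s * T from Units.ext rfl] at h
      rw [e]
      exact hsT
    rcases hr with rfl | ⟨rfl, hp9⟩
    · -- involutions
      have hzne : z ≠ 0 := fun h => by rw [h] at hz3; simp at hz3
      refine hred (z ^ 2) (pow_ne_zero _ hzne) (by rw [← pow_mul, show 2 * 2 = 3 + 1 from rfl, pow_add, hz3, one_mul, pow_one])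
        (by rw [← pow_mul, mul_comm, pow_mul, hzN, one_pow])
        (-1) (IsPrimitiveRoot.neg_one p (by omega)) (by exact_mod_cast h2) ?_
      intro k hk hne
      rw [← pow_mul, mul_comm, pow_mul, hz3, one_pow, inv_one, sum_exponents (IsPrimitiveRoot.neg_one p (by omega))] at hk
      have hsum : (∑ i, k i) = 0 := by
        generalize (∑ i, k i) = s at hk ⊢
        fin_cases s
        · rfl
        · exfalso
          simp at hk
          exact h2 (by linear_combination -hk)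
      obtain ⟨σ, hσ⟩ := perm_two k hsum hne
      let T₀ : M₃ F := !![-1, 0, 0; 0, 0, -1; 0, -1, 0]
      let Q₁ : M₃ F := !![1, 0, 0; 0, 1, 1; 0, 1, -1]
      have hT₀ : T₀.det ≠ 0 := by simp [T₀, Matrix.det_fin_three]
      have hQ₁ : Q₁.det ≠ 0 := by
        simp [Q₁, Matrix.det_fin_three]
        intro h
        exact h2 (by linear_combination -h)
      refine ⟨σ, P * Matrix.GeneralLinearGroup.mkOfDetNeZero T₀ hT₀ * P⁻¹,
        P * Matrix.GeneralLinearGroup.mkOfDetNeZero Q₁ hQ₁, 1, ⟨hnorm_of T₀ hT₀ ⟨a * a, R.mul_mem haR haR, ?_⟩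
          ⟨b * b, R.mul_mem hbR hbR, ?_⟩, hsymU T₀ hT₀ ?_⟩, one_pow _, ?_, one_ne_zero⟩
      · have : ((P⁻¹ * (a * a) * P : GL (Fin 3) F) : M₃ F) = Matrix.diagonal ![1, ω, ω ^ 2] * Matrix.diagonal ![1, ω, ω ^ 2] := by
          simp only [Units.val_mul]
          rw [mul_assoc, mul_assoc (a : M₃ F), hPa, ← mul_assoc (a : M₃ F), hPa, mul_assoc, ← mul_assoc, Units.inv_mul, one_mul]
        rw [this]
        ext i j
        fin_cases i <;> fin_cases j <;> simp [T₀, Matrix.mul_apply, Fin.sum_univ_three] <;>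
          first | ring1 | linear_combination ω * hω3 | linear_combination -ω * hω3
      · have : ((P⁻¹ * (b * b) * P : GL (Fin 3) F) : M₃ F) = cyc F * cyc F := by
          simp only [Units.val_mul]
          rw [mul_assoc, mul_assoc (b : M₃ F), hPb, ← mul_assoc (b : M₃ F), hPb, mul_assoc, ← mul_assoc, Units.inv_mul, one_mul]
        rw [this]
        ext i j
        fin_cases i <;> fin_cases j <;> simp [T₀, cyc, Matrix.mul_apply, Fin.sum_univ_three]
      · rw [H67.mem_GU_iff_matrix hF, hσp]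
        show T₀ᵀ * T₀.map (H3.conjQ hF) = 1
        ext i j
        fin_cases i <;> fin_cases j <;>
          simp [T₀, Matrix.mul_apply, Fin.sum_univ_three, H3.conjQ_apply, zero_pow hpP.ne_zero, Odd.neg_one_pow (hpP.odd_of_ne_two (by omega))]
      · simp only [Units.val_mul, Matrix.GeneralLinearGroup.mkOfDetNeZero, hσ, one_mul]
        show (P : M₃ F) * T₀ * ((P⁻¹ : GL (Fin 3) F) : M₃ F) * ((P : M₃ F) * Q₁) = (P : M₃ F) * Q₁ * _
        rw [mul_assoc ((P : M₃ F) * T₀), ← mul_assoc ((P⁻¹ : GL (Fin 3) F) : M₃ F), Units.inv_mul, one_mul, mul_assoc, mul_assoc]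
        congr 1
        ext i j
        fin_cases i <;> fin_cases j <;> simp [T₀, Q₁, Matrix.mul_apply, Fin.sum_univ_three]
    · -- order three, nine divides `p - 1`
      obtain ⟨ζ, hζ⟩ := hroot 9 (by omega) (by norm_num)
      have hζN : ζ ^ (p + 1) = 1 := by
        obtain ⟨e, he⟩ : 9 ∣ p + 1 := by omega
        rw [he, pow_mul, hζ.pow_eq_one, one_pow]
      have hωN : ω ^ (p + 1) = 1 := by
        obtain ⟨e, he⟩ : 3 ∣ p + 1 := by omega
        rw [he, pow_mul, hω3, one_pow]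
      have hζ3 : IsPrimitiveRoot (ζ ^ 3) 3 := hζ.pow (by norm_num) (by norm_num)
      obtain ⟨j, hj, hjz⟩ := hζ3.eq_pow_of_pow_eq_one hz3
      have hζ0 : ζ ≠ 0 := hζ.ne_zero (by norm_num)
      refine hred (ζ ^ j) (pow_ne_zero _ hζ0) (by rw [← pow_mul, mul_comm, pow_mul, hjz])
        (by rw [← pow_mul, mul_comm, pow_mul, hζN, one_pow]) ω hω (by exact_mod_cast h3) ?_
      intro k hk hne
      rw [sum_exponents hω] at hk
      set s := (∑ i, k i) with hs
      by_cases hs0 : s = 0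
      · obtain ⟨σ, hσ⟩ := perm_three_zero k hs0 hne
        refine ⟨σ, a, P, 1, ⟨hRN haR, hRU haR⟩, one_pow _, ?_, one_ne_zero⟩
        rw [hPa]
        congr 2
        funext i
        rw [hσ, one_mul]
        fin_cases i <;> simp
      · obtain ⟨σ, u, hσ⟩ := perm_three_ne k hs0
        let T₀ : M₃ F := Matrix.diagonal ![1, 1, ω ^ (s : ℕ)]
        have hT₀ : T₀.det ≠ 0 := by simp [T₀, Matrix.det_diagonal, Fin.prod_univ_three, hω0]
        refine ⟨σ, P * Matrix.GeneralLinearGroup.mkOfDetNeZero T₀ hT₀ * P⁻¹, P, (ω ^ (u : ℕ))⁻¹,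
          ⟨hnorm_of T₀ hT₀ ⟨a, haR, ?_⟩ ⟨b * a ^ (s : ℕ), R.mul_mem hbR (R.pow_mem haR _), ?_⟩,
            hsymU T₀ hT₀ (hdiagU _ ![1, 1, ω ^ (s : ℕ)] (fun i => by
              fin_cases i
              · simp
              · simp
              · show (ω ^ (s : ℕ)) ^ (p + 1) = 1
                rw [← pow_mul, mul_comm, pow_mul, hωN, one_pow]) rfl)⟩,
          (by rw [inv_pow, ← pow_mul, mul_comm, pow_mul, hωN, one_pow, inv_one]), ?_,
          inv_ne_zero (pow_ne_zero _ hω0)⟩
        · have : ((P⁻¹ * a * P : GL (Fin 3) F) : M₃ F) = Matrix.diagonal ![1, ω, ω ^ 2] := by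
            rw [Units.val_mul, Units.val_mul, mul_assoc, hPa, ← mul_assoc, Units.inv_mul, one_mul]
          rw [this, Matrix.diagonal_mul_diagonal, Matrix.diagonal_mul_diagonal]
          simp only [mul_comm]
        · have : ((P⁻¹ * (b * a ^ (s : ℕ)) * P : GL (Fin 3) F) : M₃ F) =
              cyc F * Matrix.diagonal ![1, ω, ω ^ 2] ^ (s : ℕ) := by
            rw [show P⁻¹ * (b * a ^ (s : ℕ)) * P = (P⁻¹ * b * P) * (P⁻¹ * a * P) ^ (s : ℕ) by
              rw [show P⁻¹ * a * P = P⁻¹ * a * P⁻¹⁻¹ by rw [inv_inv], conj_pow]; group]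
            rw [Units.val_mul, Units.val_pow_eq_pow_val]
            congr 1
            · rw [Units.val_mul, Units.val_mul, mul_assoc, hPb, ← mul_assoc, Units.inv_mul, one_mul]
            · congr 1
              rw [Units.val_mul, Units.val_mul, mul_assoc, hPa, ← mul_assoc, Units.inv_mul, one_mul]
          rw [this, Matrix.diagonal_pow]
          ext i j'
          have h9 : (ω ^ 2) ^ (s : ℕ) * ω ^ (s : ℕ) = 1 := by rw [← mul_pow, ← pow_succ, hω3, one_pow]
          fin_cases i <;> fin_cases j' <;> simp [T₀, cyc, Matrix.mul_apply, Fin.sum_univ_three, Matrix.vecMul_diagonal, Matrix.mulVec_diagonal, Pi.pow_apply, h9]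
        · simp only [Units.val_mul]
          show (P : M₃ F) * T₀ * ((P⁻¹ : GL (Fin 3) F) : M₃ F) * (P : M₃ F) = _
          rw [mul_assoc ((P : M₃ F) * T₀), Units.inv_mul, mul_one]
          congr 1
          simp only [T₀]
          congr 1
          funext i
          rw [hσ]
          have hadd : ∀ u s : Fin 3, ω ^ ((u + s : Fin 3) : ℕ) = ω ^ (u : ℕ) * ω ^ (s : ℕ) := fun u s => by
            rw [← pow_add, Fin.val_add, ← pow_eq_pow_mod _ hω3]
          fin_cases i <;> simp [hadd, hω0, hs.symm]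

end Cfsg.Agent.H66.Extra
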