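/-
Characteristic polynomials of elements of order two, three and five in dimension four.
-/
import Cfsg.Agent.H66.PGLInvolutions
import Mathlib

set_option autoImplicit false

open Polynomial Matrix

namespace Cfsg.Agent.H66.Four

universe u

variable {F : Type u} [Field F]

theorem charpoly_involution (h2 : (2 : F) ≠ 0) {A : Matrix (Fin 4) (Fin 4) F} (hA : A * A = 1) :
    ∃ b : ℕ, b ≤ 4 ∧ A.charpoly = (X - C (-1)) ^ b * (X - C 1) ^ (4 - b) ∧ A.trace = 4 - 2 * (b : F) ∧
      A.det = (-1) ^ b := by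
  obtain ⟨b, hb, hc⟩ := Cfsg.Agent.H66.charpoly_of_sq_one h2 hA
  refine ⟨b, hb, hc, ?_, ?_⟩
  · rw [Matrix.trace_eq_neg_charpoly_nextCoeff, hc,
      ((monic_X_sub_C (-1 : F)).pow b).nextCoeff_mul ((monic_X_sub_C (1 : F)).pow (4 - b)),
      (monic_X_sub_C (-1 : F)).nextCoeff_pow, (monic_X_sub_C (1 : F)).nextCoeff_pow, nextCoeff_X_sub_C,
      nextCoeff_X_sub_C, nsmul_eq_mul, nsmul_eq_mul, Nat.cast_sub hb]
    push_cast
    ring
  · rw [Matrix.det_eq_sign_charpoly_coeff, hc, coeff_zero_eq_eval_zero]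
    have : b = 0 ∨ b = 1 ∨ b = 2 ∨ b = 3 ∨ b = 4 := by omega
    rcases this with rfl | rfl | rfl | rfl | rfl <;> simp <;> norm_num

theorem eq_of_trace_eq {p : ℕ} [Fact p.Prime] [CharP F p] (hp : 5 ≤ p) {a b : ℕ} (ha : a ≤ 4) (hb : b ≤ 4)
    (h : (4 : F) - 2 * (a : F) = 4 - 2 * (b : F)) : a = b := by
  have h2 : (2 : F) ≠ 0 := fun e => by
    rw [show (2 : F) = ((2 : ℕ) : F) by norm_num, CharP.cast_eq_zero_iff F p] at e
    have := Nat.le_of_dvd two_pos e
    omega
  have h' : (a : F) = b := mul_left_cancel₀ h2 (by linear_combination -h)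
  have := (CharP.natCast_eq_natCast F p).1 h'
  rwa [Nat.ModEq, Nat.mod_eq_of_lt (by omega), Nat.mod_eq_of_lt (by omega)] at this

theorem irreducible_cyclotomic_three [Fintype F] {p : ℕ} [Fact p.Prime] [CharP F p] (hF : Fintype.card F = p)
    (hp : p % 3 = 2) : Irreducible (cyclotomic 3 F) := by
  haveI : Fact (Nat.Prime 3) := ⟨Nat.prime_three⟩
  have hd : (cyclotomic 3 F).natDegree = 2 := by rw [natDegree_cyclotomic]; decide
  refine Polynomial.irreducible_of_degree_le_three_of_not_isRoot (by rw [hd]; decide) fun x hx => ?_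
  have h3 : ((3 : ℕ) : F) ≠ 0 := by
    rw [Ne, CharP.cast_eq_zero_iff F p, Nat.prime_dvd_prime_iff_eq Fact.out Nat.prime_three]
    omega
  haveI : NeZero ((3 : ℕ) : F) := ⟨h3⟩
  have hpr := isRoot_cyclotomic_iff.1 hx
  have hx0 : x ≠ 0 := hpr.ne_zero (by norm_num)
  have hdv : orderOf x ∣ p - 1 := orderOf_dvd_of_pow_eq_one (by rw [← hF]; exact FiniteField.pow_card_sub_one_eq_one x hx0)
  rw [← hpr.eq_orderOf] at hdv
  omega

/-- Elements of order three over a field with `p ≡ 2 mod 3` elements. -/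
theorem charpoly_three [Fintype F] {p : ℕ} [Fact p.Prime] [CharP F p] (hF : Fintype.card F = p) (hp : p % 3 = 2)
    {A : Matrix (Fin 4) (Fin 4) F} (hA : A ^ 3 = 1) :
    A.charpoly = (X - C 1) ^ 4 ∨ (A.charpoly = cyclotomic 3 F ^ 2 ∧ A.trace = -2) ∨
      (A.charpoly = (X - C 1) ^ 2 * cyclotomic 3 F ∧ A.trace = 1) := by
  classical
  haveI : Fact (Nat.Prime 3) := ⟨Nat.prime_three⟩
  have h3 : ((3 : ℕ) : F) ≠ 0 := by
    rw [Ne, CharP.cast_eq_zero_iff F p, Nat.prime_dvd_prime_iff_eq Fact.out Nat.prime_three]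
    omega
  obtain ⟨ι, hι, p₀, e, hf⟩ := exists_isDecomp (Matrix.toLin' A)
  have hs : Squarefree (X ^ 3 - 1 : F[X]) := (X_pow_sub_one_separable_iff.2 h3).squarefree
  have h0 : aeval (Matrix.toLin' A) (X ^ 3 - 1 : F[X]) = 0 := by
    rw [aeval_toLin']; simp [hA]
  have hprod : A.charpoly = ∏ i, p₀ i := by
    rw [← Matrix.charpoly_toLin', hf.charpoly_eq]
    exact Finset.prod_congr rfl fun i _ => by rw [hf.exp_eq_one hs h0 i, pow_one]
  have hirr := irreducible_cyclotomic_three hF hp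
  have he : ∀ i, ¬ p₀ i = X - C 1 → p₀ i = cyclotomic 3 F := fun i hne => by
    have h := hf.dvd_of_aeval_eq_zero h0 i
    rw [← cyclotomic_prime_mul_X_sub_one F 3] at h
    rcases (hf.irreducible i).prime.dvd_or_dvd h with h | h
    · exact eq_of_monic_of_associated (hf.monic i) (cyclotomic.monic 3 F) ((hf.irreducible i).associated_of_dvd hirr h)
    · rw [← C_1] at h
      exact absurd (eq_of_monic_of_associated (hf.monic i) (monic_X_sub_C _)
        ((hf.irreducible i).associated_of_dvd (irreducible_X_sub_C _) h)) hne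
  rw [← Finset.prod_filter_mul_prod_filter_not Finset.univ (fun i => p₀ i = X - C 1),
    Finset.prod_congr rfl (fun i hi => (Finset.mem_filter.1 hi).2),
    Finset.prod_congr rfl (fun i hi => he i (Finset.mem_filter.1 hi).2),
    Finset.prod_const, Finset.prod_const] at hprod
  generalize (Finset.univ.filter fun i => p₀ i = X - C 1).card = a at hprod
  generalize (Finset.univ.filter fun i => ¬ p₀ i = X - C 1).card = b at hprod
  have hd := congrArg natDegree hprod
  rw [Matrix.charpoly_natDegree_eq_dim, Fintype.card_fin,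
    ((monic_X_sub_C _).pow _).natDegree_mul ((cyclotomic.monic 3 F).pow _), natDegree_pow, natDegree_pow,
    natDegree_X_sub_C, natDegree_cyclotomic, show Nat.totient 3 = 2 by decide] at hd
  have hnext : A.trace = (a : F) - (b : F) := by
    have hc3 : (cyclotomic 3 F).nextCoeff = 1 := by
      rw [cyclotomic_three, nextCoeff_of_natDegree_pos]
      · have : (X ^ 2 + X + 1 : F[X]).natDegree = 2 := by compute_degree!
        rw [this]; simp [coeff_X, coeff_one]
      · have : (X ^ 2 + X + 1 : F[X]).natDegree = 2 := by compute_degree!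
        omega
    rw [Matrix.trace_eq_neg_charpoly_nextCoeff, hprod,
      ((monic_X_sub_C (1 : F)).pow a).nextCoeff_mul ((cyclotomic.monic 3 F).pow b),
      (monic_X_sub_C (1 : F)).nextCoeff_pow, (cyclotomic.monic 3 F).nextCoeff_pow, nextCoeff_X_sub_C, hc3,
      nsmul_eq_mul, nsmul_eq_mul]
    ring
  have hab : (a = 4 ∧ b = 0) ∨ (a = 0 ∧ b = 2) ∨ (a = 2 ∧ b = 1) := by omega
  rcases hab with ⟨rfl, rfl⟩ | ⟨rfl, rfl⟩ | ⟨rfl, rfl⟩
  · left; simpa using hprod
  · right; left; exact ⟨by simpa using hprod, by rw [hnext]; norm_num⟩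
  · right; right; exact ⟨by simpa using hprod, by rw [hnext]; norm_num⟩

theorem charpoly_five [Fintype F] {p : ℕ} [Fact p.Prime] [CharP F p] (hF : Fintype.card F = p)
    (h5 : orderOf (p : ZMod 5) = 4) {A : Matrix (Fin 4) (Fin 4) F} (hA : A ^ 5 = 1) (hA1 : A ≠ 1) :
    A.charpoly = cyclotomic 5 F := by
  haveI : Fact (Nat.Prime 5) := ⟨Nat.prime_five⟩
  have hcop : p.Coprime 5 := (ZMod.isUnit_iff_coprime p 5).1 (by
    have h4 := pow_orderOf_eq_one (p : ZMod 5)
    rw [h5] at h4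
    exact IsUnit.of_mul_eq_one ((p : ZMod 5) ^ 3) (by rw [← pow_succ']; exact h4))
  have hdeg : (cyclotomic 5 F).natDegree = 4 := by rw [natDegree_cyclotomic]; decide
  have hirr : Irreducible (cyclotomic 5 F) :=
    Polynomial.irreducible_of_dvd_cyclotomic_of_natDegree (f := 1) (p := p) (n := 5) (by rw [hF, pow_one]) hcop
      dvd_rfl (by rw [hdeg, ← orderOf_units, ZMod.coe_unitOfCoprime, pow_one, h5])
  have hdvd : minpoly F A ∣ (X - C 1) * cyclotomic 5 F := by
    refine minpoly.dvd F _ ?_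
    rw [show (X - C 1 : F[X]) * cyclotomic 5 F = X ^ 5 - 1 by rw [mul_comm, C_1, cyclotomic_prime_mul_X_sub_one]]
    rw [map_sub, map_pow, aeval_X, map_one, hA, sub_self]
  have hP : cyclotomic 5 F ∣ minpoly F A := by
    by_contra hn
    have hco : IsCoprime (minpoly F A) (cyclotomic 5 F) := ((hirr.coprime_iff_not_dvd).2 hn).symm
    obtain ⟨q, hq⟩ := hco.dvd_of_dvd_mul_right hdvd
    refine hA1 ?_
    have h0 : aeval A (X - C 1 : F[X]) = 0 := by rw [hq, map_mul, minpoly.aeval, zero_mul]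
    simpa [sub_eq_zero] using h0
  refine eq_of_monic_of_dvd_of_natDegree_le (cyclotomic.monic 5 F) (Matrix.charpoly_monic _)
    (hP.trans (Matrix.minpoly_dvd_charpoly _)) ?_
  rw [Matrix.charpoly_natDegree_eq_dim, hdeg]; rfl

theorem nonsquare_five : ∀ a : ZMod 5, ¬ IsSquare a → a ^ 4 = 1 ∧ ¬ a ^ 2 = 1 := by
  have key : ∀ a : ZMod 5, (∀ b : ZMod 5, a ≠ b * b) → a ^ 4 = 1 ∧ ¬ a ^ 2 = 1 := by decide
  exact fun a ha => key a fun b hb => ha ⟨b, hb⟩

/-- The golden ratio exists unless `5` is inert. -/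
theorem exists_golden {p : ℕ} [Fact p.Prime] [CharP F p] (hp2 : p ≠ 2) (hord : orderOf (p : ZMod 5) ≠ 4) :
    ∃ c : F, c * c + c - 1 = 0 := by
  have h2 : (2 : F) ≠ 0 := fun h => by
    rw [show (2 : F) = ((2 : ℕ) : F) by norm_num, CharP.cast_eq_zero_iff F p] at h
    exact hp2 ((Nat.prime_dvd_prime_iff_eq Fact.out Nat.prime_two).1 h)
  suffices h : IsSquare (5 : ZMod p) by
    obtain ⟨s, hs⟩ := h
    have hs' : (ZMod.castHom dvd_rfl F s) * (ZMod.castHom dvd_rfl F s) = 5 := by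
      rw [← map_mul, ← hs, map_ofNat]
    refine ⟨((ZMod.castHom dvd_rfl F s) - 1) / 2, ?_⟩
    field_simp
    linear_combination hs'
  haveI : Fact (Nat.Prime 5) := ⟨Nat.prime_five⟩
  have h5 : IsSquare (p : ZMod 5) := by
    by_contra hns
    obtain ⟨h4, h22⟩ := nonsquare_five _ hns
    exact hord (orderOf_eq_prime_pow (p := 2) (n := 1) (by simpa using h22) (by simpa using h4))
  simpa using (ZMod.exists_sq_eq_prime_iff_of_mod_four_eq_one (p := 5) (q := p) (by norm_num) hp2).1 h5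

end Cfsg.Agent.H66.Four
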