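/-
Elements of odd prime order normalising an absolutely irreducible extraspecial group of order 32 of minus type.
-/
import Cfsg.Prelude.Def_GeometricClasses
import Cfsg.Agent.H91.Small.MinusFive
import Cfsg.Agent.H58.SymplecticFour
import Mathlib

set_option autoImplicit false

open Matrix
open scoped commutatorElement

namespace Cfsg.Agent.H66.Minus

section Anticommute

variable {F : Type*} [Field F] {ι : Type*} [Fintype ι] [DecidableEq ι]

/-- A family of pairwise anticommuting matrices squaring to one. -/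
structure IsFrame {κ : Type*} (t : κ → Matrix ι ι F) : Prop where
  sq : ∀ i, t i * t i = 1
  anti : ∀ i j, i ≠ j → t i * t j = -(t j * t i)

theorem IsFrame.semiconj_left {κ : Type*} {t : κ → Matrix ι ι F} (ht : IsFrame t) {i j : κ} (hij : i ≠ j) :
    SemiconjBy (t i - t j) (t i) (-t j) := by
  show (t i - t j) * t i = -t j * (t i - t j)
  rw [sub_mul, neg_mul, mul_sub, ht.sq, ht.sq]
  abel

theorem IsFrame.semiconj_right {κ : Type*} {t : κ → Matrix ι ι F} (ht : IsFrame t) {i j : κ} (hij : i ≠ j) :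
    SemiconjBy (t i - t j) (t j) (-t i) := by
  show (t i - t j) * t j = -t i * (t i - t j)
  rw [sub_mul, neg_mul, mul_sub, ht.sq, ht.sq]
  abel

theorem IsFrame.semiconj_other {κ : Type*} {t : κ → Matrix ι ι F} (ht : IsFrame t) {i j k : κ} (hki : k ≠ i)
    (hkj : k ≠ j) : SemiconjBy (t i - t j) (t k) (-t k) := by
  show (t i - t j) * t k = -t k * (t i - t j)
  rw [sub_mul, neg_mul, mul_sub, ht.anti i k hki.symm, ht.anti j k hkj.symm]
  abel

theorem IsFrame.sub_mul_sub {κ : Type*} {t : κ → Matrix ι ι F} (ht : IsFrame t) {i j : κ} (hij : i ≠ j) :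
    (t i - t j) * (t i - t j) = (2 : F) • 1 := by
  rw [sub_mul, mul_sub, mul_sub, ht.sq, ht.sq, ht.anti i j hij, two_smul]
  abel

theorem IsFrame.trace_mul {κ : Type*} {t : κ → Matrix ι ι F} (ht : IsFrame t) (h2 : (2 : F) ≠ 0) {a b : κ}
    (hab : a ≠ b) : (t a * t b).trace = 0 := by
  have h : (t a * t b).trace = -(t a * t b).trace := by
    conv_lhs => rw [ht.anti a b hab, trace_neg, trace_mul_comm]
  linear_combination (norm := (field_simp; ring)) (1 / 2 : F) * h

theorem IsFrame.trace_mul_four {κ : Type*} {t : κ → Matrix ι ι F} (ht : IsFrame t) (h2 : (2 : F) ≠ 0)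
    {a b c d : κ} (hab : a ≠ b) (hac : a ≠ c) (had : a ≠ d) (hbd : b ≠ d) :
    (t a * t b * (t c * t d)).trace = 0 := by
  by_cases hbc : b = c
  · subst hbc
    rw [mul_assoc, ← mul_assoc (t b), ht.sq, one_mul]
    exact ht.trace_mul h2 had
  · have h : (t a * t b * (t c * t d)).trace = -(t a * t b * (t c * t d)).trace := by
      conv_lhs => rw [mul_assoc, trace_mul_comm]
      have e : t b * (t c * t d) * t a = -(t a * t b * (t c * t d)) := by
        calc t b * (t c * t d) * t a = t b * (t c * (t d * t a)) := by simp only [mul_assoc]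
          _ = -(t b * (t c * (t a * t d))) := by rw [ht.anti d a had.symm]; simp only [mul_neg]
          _ = -(t b * (t c * t a * t d)) := by simp only [mul_assoc]
          _ = t b * (t a * t c * t d) := by
            rw [ht.anti c a hac.symm]; simp only [neg_mul, mul_neg, neg_neg]
          _ = t b * t a * (t c * t d) := by simp only [mul_assoc]
          _ = -(t a * t b * (t c * t d)) := by rw [ht.anti b a hab.symm, neg_mul]
      rw [e, trace_neg]
    linear_combination (norm := (field_simp; ring)) (1 / 2 : F) * h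

/-- The product moving five anticommuting involutions cyclically. -/
def cycle (t : Fin 5 → Matrix ι ι F) : Matrix ι ι F :=
  (t 0 - t 1) * (t 1 - t 2) * ((t 2 - t 3) * (t 3 - t 4))

theorem IsFrame.rev {t : Fin 5 → Matrix ι ι F} (ht : IsFrame t) : IsFrame fun i : Fin 5 => t i.rev :=
  ⟨fun i => ht.sq _, fun i j hij => ht.anti _ _ fun h => hij (Fin.rev_injective h)⟩

theorem cycle_rev (t : Fin 5 → Matrix ι ι F) :
    cycle (fun i => t i.rev) = (t 3 - t 4) * (t 2 - t 3) * ((t 1 - t 2) * (t 0 - t 1)) := by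
  have e : ∀ i j : Fin 5, t i - t j = -(t j - t i) := fun i j => (neg_sub _ _).symm
  show (t 4 - t 3) * (t 3 - t 2) * ((t 2 - t 1) * (t 1 - t 0)) = _
  rw [e 4 3, e 3 2, e 2 1, e 1 0]
  simp only [neg_mul, mul_neg, neg_neg]

theorem IsFrame.cycle_semiconj {t : Fin 5 → Matrix ι ι F} (ht : IsFrame t) :
    ∀ i, SemiconjBy (cycle t) (t i) (t (i + 1)) := by
  have L := fun {i j : Fin 5} (h : i ≠ j) => ht.semiconj_left h
  have R := fun {i j : Fin 5} (h : i ≠ j) => ht.semiconj_right h
  have O := fun {i j k : Fin 5} (h : k ≠ i) (h' : k ≠ j) => ht.semiconj_other (i := i) (j := j) h h'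
  intro i
  unfold cycle
  match i with
  | 0 =>
    have a := (O (i := 3) (j := 4) (k := 0) (by decide) (by decide))
    have b := (O (i := 2) (j := 3) (k := 0) (by decide) (by decide)).neg_right
    have c := (O (i := 1) (j := 2) (k := 0) (by decide) (by decide))
    have d := (L (i := 0) (j := 1) (by decide)).neg_right
    rw [neg_neg] at b d
    exact (d.mul_left c).mul_left (b.mul_left a)
  | 1 =>
    have a := (O (i := 3) (j := 4) (k := 1) (by decide) (by decide))
    have b := (O (i := 2) (j := 3) (k := 1) (by decide) (by decide)).neg_right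
    have c := (L (i := 1) (j := 2) (by decide))
    have d := (O (i := 0) (j := 1) (k := 2) (by decide) (by decide)).neg_right
    rw [neg_neg] at b d
    exact (d.mul_left c).mul_left (b.mul_left a)
  | 2 =>
    have a := (O (i := 3) (j := 4) (k := 2) (by decide) (by decide))
    have b := (L (i := 2) (j := 3) (by decide)).neg_right
    have c := (O (i := 1) (j := 2) (k := 3) (by decide) (by decide))
    have d := (O (i := 0) (j := 1) (k := 3) (by decide) (by decide)).neg_right
    rw [neg_neg] at b d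
    exact (d.mul_left c).mul_left (b.mul_left a)
  | 3 =>
    have a := (L (i := 3) (j := 4) (by decide))
    have b := (O (i := 2) (j := 3) (k := 4) (by decide) (by decide)).neg_right
    have c := (O (i := 1) (j := 2) (k := 4) (by decide) (by decide))
    have d := (O (i := 0) (j := 1) (k := 4) (by decide) (by decide)).neg_right
    rw [neg_neg] at b d
    exact (d.mul_left c).mul_left (b.mul_left a)
  | 4 =>
    have a := (R (i := 3) (j := 4) (by decide))
    have b := (R (i := 2) (j := 3) (by decide)).neg_right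
    have c := (R (i := 1) (j := 2) (by decide))
    have d := (R (i := 0) (j := 1) (by decide)).neg_right
    rw [neg_neg] at b d
    exact (d.mul_left c).mul_left (b.mul_left a)

theorem IsFrame.cycle_mul_rev {t : Fin 5 → Matrix ι ι F} (ht : IsFrame t) :
    cycle t * cycle (fun i => t i.rev) = (16 : F) • 1 := by
  rw [cycle_rev]
  unfold cycle
  have key : ∀ {i j : Fin 5}, i ≠ j → ∀ A : Matrix ι ι F,
      (t i - t j) * ((t i - t j) * A) = (2 : F) • A := fun h A => by
    rw [← mul_assoc, ht.sub_mul_sub h, smul_mul_assoc, one_mul]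
  simp only [mul_assoc]
  rw [key (by decide : (3 : Fin 5) ≠ 4)]
  simp only [mul_smul_comm]
  rw [key (by decide : (2 : Fin 5) ≠ 3)]
  simp only [mul_smul_comm]
  rw [key (by decide : (1 : Fin 5) ≠ 2)]
  simp only [mul_smul_comm]
  rw [ht.sub_mul_sub (by decide : (0 : Fin 5) ≠ 1), smul_smul, smul_smul, smul_smul]
  norm_num

theorem IsFrame.rev_mul_cycle {t : Fin 5 → Matrix ι ι F} (ht : IsFrame t) :
    cycle (fun i => t i.rev) * cycle t = (16 : F) • 1 := by
  have h := ht.rev.cycle_mul_rev
  simpa only [Fin.rev_rev] using h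

theorem IsFrame.trace_cycle {t : Fin 5 → Matrix ι ι F} (ht : IsFrame t) (h2 : (2 : F) ≠ 0)
    (hι : Fintype.card ι = 4) : (cycle t).trace = 4 := by
  have e : ∀ {i j k : Fin 5}, i ≠ j → j ≠ k →
      (t i - t j) * (t j - t k) = t i * t j - t i * t k - 1 + t j * t k := fun {i j k} _ _ => by
    rw [sub_mul, mul_sub, mul_sub, ht.sq]; abel
  unfold cycle
  rw [e (by decide : (0 : Fin 5) ≠ 1) (by decide : (1 : Fin 5) ≠ 2),
    e (by decide : (2 : Fin 5) ≠ 3) (by decide : (3 : Fin 5) ≠ 4)]
  simp only [sub_mul, add_mul, mul_sub, mul_add, one_mul, mul_one, trace_sub, trace_add, trace_one, hι,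
    ht.trace_mul h2, ht.trace_mul_four h2, ne_eq, Fin.reduceEq, not_false_eq_true]
  simp

/-- A matrix cycling five anticommuting involutions whose joint commutant is scalar. -/
theorem IsFrame.trace_mul_trace_of_cycles {t : Fin 5 → Matrix ι ι F} (ht : IsFrame t) (h2 : (2 : F) ≠ 0)
    (hι : Fintype.card ι = 4) (hsch : ∀ M, (∀ i, M * t i = t i * M) → ∃ c : F, M = c • 1)
    {x x' : Matrix ι ι F} (hxx : x * x' = 1) (hx : ∀ i, SemiconjBy x (t i) (t (i + 1))) :
    x.trace * x'.trace = 1 := by
  have h16 : (16 : F) ≠ 0 := by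
    rw [show (16 : F) = 2 * 2 * 2 * 2 by norm_num]; exact mul_ne_zero (mul_ne_zero (mul_ne_zero h2 h2) h2) h2
  set y := cycle t with hy
  set z := cycle fun i => t i.rev with hz
  obtain ⟨c, hc⟩ := hsch (z * x) fun i => by
    have h1 : z * t (i + 1) = t i * z := by
      refine smul_right_injective _ h16 ?_
      calc (16 : F) • (z * t (i + 1)) = z * t (i + 1) * ((16 : F) • 1) := by rw [mul_smul_comm, mul_one]
        _ = z * (t (i + 1) * y) * z := by rw [← ht.cycle_mul_rev]; simp only [mul_assoc]; rfl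
        _ = (z * y) * t i * z := by rw [← (ht.cycle_semiconj i).eq]; simp only [mul_assoc]; rfl
        _ = (16 : F) • (t i * z) := by rw [ht.rev_mul_cycle, smul_mul_assoc, one_mul, smul_mul_assoc]
    rw [mul_assoc, (hx i).eq, ← mul_assoc, h1, mul_assoc]
  have hxy : (16 : F) • x = c • y := by
    rw [show (16 : F) • x = y * (z * x) by rw [← mul_assoc, ht.cycle_mul_rev, smul_mul_assoc, one_mul], hc,
      mul_smul_comm, mul_one]
  have hc0 : c • x' = z := by
    calc c • x' = (c • 1) * x' := by rw [smul_mul_assoc, one_mul]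
      _ = z := by rw [← hc, mul_assoc, hxx, mul_one]
  have t1 : (16 : F) * x.trace = c * 4 := by
    have := congrArg Matrix.trace hxy
    rwa [trace_smul, trace_smul, hy, ht.trace_cycle h2 hι] at this
  have t2 : c * x'.trace = 4 := by
    have := congrArg Matrix.trace hc0
    rwa [trace_smul, hz, ht.rev.trace_cycle h2 hι] at this
  refine mul_left_cancel₀ h16 ?_
  linear_combination (norm := ring_nf) x'.trace * t1 + 4 * t2

/-- A matrix with a cyclic two-dimensional image of `x - 1` commutes with no two anticommuting invertible ones. -/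
theorem false_of_two_anticommuting (h2 : (2 : F) ≠ 0) {x u v : Matrix ι ι F} (hu : IsUnit u) (hv : IsUnit v)
    (hxu : x * u = u * x) (hxv : x * v = v * x) (huv : u * v = -(v * u)) {w e : ι → F} (hw : w ≠ 0)
    (he : (x - 1) *ᵥ e = w) (hrange : ∀ v', ∃ a b : F, (x - 1) *ᵥ v' = a • w + b • (x *ᵥ w)) : False := by
  have key : ∀ {u : Matrix ι ι F}, x * u = u * x → ∃ a b : F, u *ᵥ w = a • w + b • (x *ᵥ w) := by
    intro u hxu
    obtain ⟨a, b, h⟩ := hrange (u *ᵥ e)
    refine ⟨a, b, ?_⟩
    rw [← h, ← he, mulVec_mulVec, mulVec_mulVec]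
    congr 1
    rw [mul_sub, mul_one, sub_mul, one_mul, hxu]
  obtain ⟨a, b, hA⟩ := key hxu
  obtain ⟨c, d, hC⟩ := key hxv
  have hUx : u *ᵥ (x *ᵥ w) = x *ᵥ (u *ᵥ w) := by rw [mulVec_mulVec, mulVec_mulVec, hxu]
  have hVx : v *ᵥ (x *ᵥ w) = x *ᵥ (v *ᵥ w) := by rw [mulVec_mulVec, mulVec_mulVec, hxv]
  have hsym : (u * v) *ᵥ w = (v * u) *ᵥ w := by
    rw [← mulVec_mulVec, ← mulVec_mulVec, hA, hC, mulVec_add, mulVec_add, mulVec_smul, mulVec_smul,
      mulVec_smul, mulVec_smul, hUx, hVx, hA, hC]
    simp only [mulVec_add, mulVec_smul, smul_add, smul_smul]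
    module
  have h0 : (u * v) *ᵥ w = 0 := by
    have h : (u * v) *ᵥ w = -((u * v) *ᵥ w) := by
      conv_rhs => rw [hsym]
      rw [huv, neg_mulVec]
    have h' : (2 : F) • ((u * v) *ᵥ w) = 0 := by rw [two_smul]; exact add_eq_zero_iff_eq_neg.2 h
    exact (smul_eq_zero.1 h').resolve_left h2
  exact hw ((mulVec_injective_iff_isUnit.2 (hu.mul hv)) (h0.trans (mulVec_zero _).symm))

/-- A matrix fixing a hyperplane pointwise maps an involution to one it cannot anticommute with. -/
theorem false_of_hyperplane (h2 : (2 : F) ≠ 0) (hι : 3 ≤ Fintype.card ι) {x x' s : Matrix ι ι F}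
    (hxx : x' * x = 1) {v φ : ι → F} (hx : x = 1 + vecMulVec v φ) (hs : s * s = 1)
    (hanti : (x * s * x') * s = -(s * (x * s * x'))) : False := by
  let L : (ι → F) →ₗ[F] (Fin 2 → F) :=
    LinearMap.pi ![(dotProductBilin F F φ), (dotProductBilin F F φ).comp (Matrix.mulVecLin s)]
  obtain ⟨w, hw, hw0⟩ : ∃ w ∈ LinearMap.ker L, w ≠ 0 := by
    refine Submodule.exists_mem_ne_zero_of_ne_bot fun hbot => ?_
    have := LinearMap.finrank_le_finrank_of_injective (LinearMap.ker_eq_bot.1 hbot)
    simp only [Module.finrank_pi, Fintype.card_fin] at this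
    omega
  have hw1 : φ ⬝ᵥ w = 0 := congrFun hw 0
  have hw2 : φ ⬝ᵥ (s *ᵥ w) = 0 := congrFun hw 1
  have hfix : ∀ u, φ ⬝ᵥ u = 0 → x *ᵥ u = u := fun u hu => by
    rw [hx, add_mulVec, one_mulVec, vecMulVec_mulVec, hu]; simp
  have hfix' : ∀ u, φ ⬝ᵥ u = 0 → x' *ᵥ u = u := fun u hu => by
    conv_lhs => rw [← hfix u hu]
    rw [mulVec_mulVec, hxx, one_mulVec]
  have hss : s *ᵥ (s *ᵥ w) = w := by rw [mulVec_mulVec, hs, one_mulVec]
  have h1 : x *ᵥ (s *ᵥ (x' *ᵥ w)) = s *ᵥ w := by rw [hfix' w hw1, hfix _ hw2]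
  have h3 : x *ᵥ (s *ᵥ (x' *ᵥ (s *ᵥ w))) = w := by rw [hfix' _ hw2, hss, hfix _ hw1]
  have := congrArg (· *ᵥ w) hanti
  simp only [neg_mulVec, ← mulVec_mulVec] at this
  rw [h3, h1, hss] at this
  have h' : (2 : F) • w = 0 := by rw [two_smul]; exact add_eq_zero_iff_eq_neg.2 this
  exact hw0 ((smul_eq_zero.1 h').resolve_left h2)

end Anticommute

/-- Three values leave two of five points. -/
theorem two_missed : ∀ π : Fin 3 → Fin 5, ∃ a b : Fin 5, a ≠ b ∧ (∀ k, π k ≠ a) ∧ ∀ k, π k ≠ b := by
  intro π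
  have h : 1 < ((Finset.univ.image π)ᶜ).card := by
    have h1 := (Finset.card_image_le (f := π) (s := Finset.univ))
    rw [Finset.card_compl, Fintype.card_fin]
    simp only [Finset.card_univ, Fintype.card_fin] at h1
    omega
  obtain ⟨a, ha, b, hb, hab⟩ := Finset.one_lt_card.1 h
  simp only [Finset.mem_compl, Finset.mem_image, Finset.mem_univ, true_and, not_exists] at ha hb
  exact ⟨a, b, hab, ha, hb⟩

section Group

variable {F : Type*} [Field F] [Fintype F] {ι : Type} [Fintype ι] [DecidableEq ι]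

omit [Fintype F] in
theorem eq_neg_self_false [Nonempty ι] (h2 : (2 : F) ≠ 0) {g : GL ι F}
    (h : (g : Matrix ι ι F) = -(g : Matrix ι ι F)) : False := by
  have h' : (2 : F) • (g : Matrix ι ι F) = 0 := by rw [two_smul]; exact add_eq_zero_iff_eq_neg.2 h
  exact g.ne_zero ((smul_eq_zero.1 h').resolve_left h2)

/-- The five involutions of a minus-type group and their joint commutant. -/
theorem exists_five [Nonempty ι] (h2 : (2 : F) ≠ 0) (R : Subgroup (GL ι F))
    (hRs : Cfsg.Geo.IsSymplecticTypeGroup 2 R)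
    (hRi : Cfsg.Geo.ActsAbsolutelyIrreducibly (Cfsg.Geo.matrixSet R)) (hR5 : Nat.card R = 2 ^ 5)
    (hRZ : Nat.card (Subgroup.center R) = 2) (hRm : Cfsg.Geo.IsOfMinusType 2 R) :
    ∃ t : Fin 5 → GL ι F, (∀ i, t i ∈ R) ∧ IsFrame (fun i => (t i : Matrix ι ι F)) ∧
      R ≤ Subgroup.closure (Set.range t) ∧
      (∀ u ∈ R, (u : Matrix ι ι F) * u = 1 →
        ((u : Matrix ι ι F) = 1 ∨ (u : Matrix ι ι F) = -1) ∨
          ∃ i, (u : Matrix ι ι F) = t i ∨ (u : Matrix ι ι F) = -(t i : Matrix ι ι F)) ∧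
      ∀ M : Matrix ι ι F, (∀ i, M * (t i : Matrix ι ι F) = (t i : Matrix ι ι F) * M) → ∃ c : F, M = c • 1 := by
  classical
  obtain ⟨z, hz, hz1⟩ : ∃ z ∈ Subgroup.center R, z ≠ 1 :=
    Subgroup.bot_or_exists_ne_one (Subgroup.center R) |>.resolve_left fun h => by
      rw [h, Subgroup.card_bot] at hRZ; omega
  have hz2 : z * z = 1 := by
    have := H24.pow_eq_one_of_card_eq hRZ hz
    rwa [pow_two] at this
  have hzm : ((z : GL ι F) : Matrix ι ι F) = -1 := by
    obtain ⟨c, hc⟩ := hRi.2 ((z : GL ι F) : Matrix ι ι F) (by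
      rintro _ ⟨g, hg, rfl⟩
      exact congrArg (fun u : R => ((u : GL ι F) : Matrix ι ι F))
        (Subgroup.mem_center_iff.1 hz ⟨g, hg⟩).symm)
    have h : ((c • 1 : Matrix ι ι F)) * (c • 1) = (1 : F) • 1 := by
      rw [← hc, one_smul]; exact congrArg (fun u : R => ((u : GL ι F) : Matrix ι ι F)) hz2
    rw [smul_mul_smul, one_mul] at h
    have h' : c * c = 1 := smul_left_injective F (one_ne_zero (α := Matrix ι ι F)) h
    rcases mul_self_eq_one_iff.1 h' with rfl | rfl
    · exact absurd (Subtype.ext (Units.ext (by simpa using hc))) hz1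
    · rw [hc, neg_one_smul]
  have h4 : ∀ q : R, q ^ 4 = 1 := fun q => by
    have h := Monoid.pow_exponent_eq_one q
    rw [hRs.exponent_eq] at h
    exact h
  obtain ⟨hc, hsq, -⟩ := H58.symplectic_four_spec ⟨hRs.pGroup, hRs.cyclic_of_characteristic⟩ h4 hz hz2 hz1
  haveI : Fact (Nat.Prime 2) := ⟨Nat.prime_two⟩
  have hnt : Subgroup.center R ≠ ⊤ := fun h => by
    rw [h, Subgroup.card_top, hR5] at hRZ; omega
  have hex : Cfsg.IsExtraspecial 2 R := by
    refine H24.isExtraspecial_of hRs.pGroup hRZ hnt (fun a b => ?_) fun a => ?_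
    · rcases hc a b with h | h <;> rw [h]
      · exact Subgroup.one_mem _
      · exact hz
    · rw [pow_two]
      rcases hsq a with h | h <;> rw [h]
      · exact Subgroup.one_mem _
      · exact hz
  have hS : H91.MinusFive.Setting R := ⟨hex, hR5, fun A hA => by
    have h := hRm A hA.1 fun x hx => by rw [← pow_two]; exact hA.2 x hx
    obtain ⟨k, -, hk⟩ := (Nat.dvd_prime_pow Nat.prime_two).1
      (hR5 ▸ Subgroup.card_subgroup_dvd_card A : Nat.card A ∣ 2 ^ 5)
    have hk' : k < 3 := by
      rw [hk] at h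
      exact (Nat.pow_lt_pow_iff_right (le_refl 2)).1 h
    rw [hk]
    exact (Nat.pow_le_pow_right two_pos (by omega : k ≤ 2)).trans_eq rfl⟩
  haveI := Fintype.ofFinite (H91.MinusFive.Pt R)
  let e : Fin 5 ≃ H91.MinusFive.Pt R :=
    (Fintype.equivFinOfCardEq (by rw [← Nat.card_eq_fintype_card]; exact H91.MinusFive.card_pt hS)).symm
  let t : Fin 5 → R := fun i => H91.MinusFive.lift (e i)
  have hcomm : ∀ i j, i ≠ j → ⁅t i, t j⁆ = z := fun i j hij =>
    H91.MinusFive.comm_lift hS hz hz1 (H91.MinusFive.lift_notMem _) (H91.MinusFive.lift_notMem _)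
      (H91.MinusFive.lift_sq _) (H91.MinusFive.lift_sq _)
      fun h => hij (e.injective (Subtype.ext (by rwa [H91.MinusFive.mk_lift, H91.MinusFive.mk_lift] at h)))
  have hgen : R ≤ Subgroup.closure (Set.range fun i => (t i : GL ι F)) := by
    intro g hg
    have h : (⟨g, hg⟩ : R) ∈ Subgroup.closure (Set.range fun i : Fin 4 => t i.castSucc) := by
      rw [H91.MinusFive.closure_eq_top hS hz hz1 _ fun i j hij =>
        hcomm _ _ fun h => hij (Fin.castSucc_injective 4 h)]
      exact Subgroup.mem_top _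
    have h' : g ∈ (Subgroup.closure (Set.range fun i : Fin 4 => t i.castSucc)).map R.subtype := ⟨_, h, rfl⟩
    rw [MonoidHom.map_closure] at h'
    refine Subgroup.closure_mono ?_ h'
    rintro _ ⟨_, ⟨i, rfl⟩, rfl⟩
    exact ⟨i.castSucc, rfl⟩
  have hsqm : ∀ i, ((t i : GL ι F) : Matrix ι ι F) * (t i : GL ι F) = 1 := fun i => by
    have := H91.MinusFive.lift_sq (e i)
    rw [pow_two] at this
    exact congrArg (fun u : R => ((u : GL ι F) : Matrix ι ι F)) this
  refine ⟨fun i => t i, fun i => (t i).2, ⟨hsqm, fun i j hij => ?_⟩, hgen, fun u hu hu2 => ?_, fun M hM => ?_⟩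
  · have h : t i * t j = z * (t j * t i) := by
      rw [← hcomm i j hij, commutatorElement_def]; group
    have h' := congrArg (fun u : R => ((u : GL ι F) : Matrix ι ι F)) h
    simpa [hzm] using h'
  · have hu' : (⟨u, hu⟩ : R) ^ 2 = 1 := by
      rw [pow_two]; exact Subtype.ext (Units.ext hu2)
    have hcase : ∀ w : R, w ∈ Subgroup.center R → w = 1 ∨ w = z := fun w hw => by
      rw [← H24.zpowers_eq_of_card_prime hRZ hz hz1] at hw
      obtain ⟨k, rfl⟩ := Subgroup.mem_zpowers_iff.1 hw
      rcases Int.even_or_odd k with ⟨r, rfl⟩ | ⟨r, rfl⟩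
      · left; rw [← two_mul, _root_.zpow_mul, zpow_ofNat, pow_two, hz2, _root_.one_zpow]
      · right; rw [_root_.zpow_add, _root_.zpow_mul, zpow_ofNat, pow_two, hz2, _root_.one_zpow, one_mul, zpow_one]
    by_cases huc : (⟨u, hu⟩ : R) ∈ Subgroup.center R
    · left
      rcases hcase _ huc with h | h
      · left; exact congrArg (fun w : R => ((w : GL ι F) : Matrix ι ι F)) h
      · right
        have h' := congrArg (fun w : R => ((w : GL ι F) : Matrix ι ι F)) h
        exact h'.trans hzm
    · right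
      have hpt : ((⟨u, hu⟩ : R) : R ⧸ Subgroup.center R) ≠ 1 ∧
          ∀ x : R, (x : R ⧸ Subgroup.center R) = ((⟨u, hu⟩ : R) : R ⧸ Subgroup.center R) → x ^ 2 = 1 :=
        ⟨fun h => huc ((QuotientGroup.eq_one_iff _).1 h),
          fun x hx => by rw [H91.MinusFive.sq_congr hS hx, hu']⟩
      refine ⟨e.symm ⟨_, hpt⟩, ?_⟩
      have h := H91.MinusFive.mk_lift (⟨_, hpt⟩ : H91.MinusFive.Pt R)
      rw [← e.apply_symm_apply ⟨_, hpt⟩] at h
      change (t (e.symm ⟨_, hpt⟩) : R ⧸ Subgroup.center R) = _ at h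
      rw [e.apply_symm_apply] at h
      have hm := QuotientGroup.eq.1 h
      generalize e.symm ⟨_, hpt⟩ = i at hm ⊢
      rcases hcase _ hm with h' | h'
      · left
        have h'' := congrArg (fun w : R => ((w : GL ι F) : Matrix ι ι F)) (inv_mul_eq_one.1 h')
        exact h''.symm
      · right
        have h'' := congrArg (fun w : R => ((w : GL ι F) : Matrix ι ι F)) (inv_mul_eq_iff_eq_mul.1 h')
        simp only [Subgroup.coe_mul, Units.val_mul, hzm] at h''
        simpa using h''
  · refine hRi.2 M ?_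
    rintro _ ⟨g, hg, rfl⟩
    show M * (g : Matrix ι ι F) = (g : Matrix ι ι F) * M
    have h := hgen hg
    clear hg
    induction h using Subgroup.closure_induction with
    | mem a ha => obtain ⟨i, rfl⟩ := ha; exact hM i
    | one => simp
    | mul a b _ _ iha ihb => rw [Units.val_mul, ← mul_assoc, iha, mul_assoc, ihb, mul_assoc]
    | inv a _ iha => exact (Commute.units_inv_right iha).eq

omit [Fintype F] in
/-- Conjugation by a normalising element of odd order either fixes an involution or moves it to an anticommuting one. -/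
theorem commute_or_moves [Nonempty ι] (h2 : (2 : F) ≠ 0) {R : Subgroup (GL ι F)} {t : Fin 5 → GL ι F}
    (htR : ∀ i, t i ∈ R) (hinv : ∀ u ∈ R, (u : Matrix ι ι F) * u = 1 →
        ((u : Matrix ι ι F) = 1 ∨ (u : Matrix ι ι F) = -1) ∨
          ∃ i, (u : Matrix ι ι F) = t i ∨ (u : Matrix ι ι F) = -(t i : Matrix ι ι F))
    (ht : IsFrame (fun i => (t i : Matrix ι ι F)))
    {x : GL ι F} (hx : x ∈ Cfsg.Geo.subgroupNormalizer R) {r : ℕ} [Fact r.Prime] (hr : r ≠ 2) (hxr : x ^ r = 1)
    (i : Fin 5) (hcomm : (x : Matrix ι ι F) * t i ≠ (t i : Matrix ι ι F) * x) :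
    IsFrame (fun k : Fin r => ((x ^ (k : ℕ) * t i * (x ^ (k : ℕ))⁻¹ : GL ι F) : Matrix ι ι F)) := by
  have hsqc : ∀ g : GL ι F, g * t i * g⁻¹ * (g * t i * g⁻¹) = 1 := fun g => by
    rw [show g * t i * g⁻¹ * (g * t i * g⁻¹) = g * (t i * t i) * g⁻¹ by group,
      show t i * t i = 1 from Units.ext (ht.sq i)]
    group
  refine ⟨fun k => congrArg Units.val (hsqc _), fun k l hkl => ?_⟩
  wlog hlt : (k : ℕ) < l generalizing k l
  · have := this l k hkl.symm (by omega)
    rw [this, neg_neg]
  obtain ⟨d, hd0, hd⟩ : ∃ d, 0 < d ∧ (l : ℕ) = k + d := ⟨l - k, by omega, by omega⟩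
  set u := x ^ d * t i * (x ^ d)⁻¹ with hu
  have huR : u ∈ R := by
    have := Subgroup.pow_mem _ hx d
    exact (Subgroup.mem_normalizer_iff.1 this (t i)).1 (htR i)
  have hdr : ¬ r ∣ d := fun h => by
    have := Nat.le_of_dvd hd0 h
    have := l.isLt
    omega
  have hcop : ∀ {m : ℕ}, ¬ r ∣ m → x ^ m * t i = t i * x ^ m → False := fun {m} hm h => by
    have h' : Commute (x ^ m) (t i) := h
    have hgcd : m.Coprime r := ((Fact.out : r.Prime).coprime_iff_not_dvd.2 hm).symm
    obtain ⟨a, ha⟩ := exists_pow_eq_self_of_coprime (hgcd.coprime_dvd_right (orderOf_dvd_of_pow_eq_one hxr))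
    refine hcomm ?_
    rw [← ha]
    exact congrArg Units.val (h'.pow_left a).eq
  have hanti : (t i : Matrix ι ι F) * (u : Matrix ι ι F) = -((u : Matrix ι ι F) * t i) := by
    rcases hinv u huR (congrArg Units.val (hsqc _)) with (h | h) | ⟨j, hj⟩
    · exfalso
      have h1 : t i = 1 := by
        have : u = 1 := Units.ext h
        rw [hu, mul_inv_eq_one] at this
        exact mul_left_cancel (this.trans (mul_one _).symm)
      rw [h1] at hcomm; simp at hcomm
    · exfalso
      have h' : (x ^ d : GL ι F) * t i = u * x ^ d := by rw [hu, inv_mul_cancel_right]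
      have h1 : ((x ^ d : GL ι F) : Matrix ι ι F) * t i = -((x ^ d : GL ι F) : Matrix ι ι F) := by
        rw [← Units.val_mul, h', Units.val_mul, h, neg_one_mul]
      have h3 : (t i : Matrix ι ι F) = -1 := (x ^ d).isUnit.mul_left_cancel (h1.trans (by simp))
      rw [h3] at hcomm; simp at hcomm
    · by_cases hji : j = i
      · exfalso
        rw [hji] at hj
        have hdd : ¬ r ∣ 2 * d := fun h => (Fact.out : r.Prime).dvd_mul.1 h |>.elim
          (fun h => hr ((Nat.prime_dvd_prime_iff_eq Fact.out Nat.prime_two).1 h)) hdr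
        rcases hj with h | h
        · refine hcop hdr ?_
          have : u = t i := Units.ext h
          rw [hu, mul_inv_eq_iff_eq_mul] at this
          exact this
        · refine hcop hdd ?_
          have h' : (x ^ d : GL ι F) * t i = u * x ^ d := by rw [hu, inv_mul_cancel_right]
          refine Units.ext ?_
          have h1 : ((x ^ d : GL ι F) : Matrix ι ι F) * t i = -((t i : Matrix ι ι F) * (x ^ d : GL ι F)) := by
            rw [← Units.val_mul, h', Units.val_mul, h, neg_mul]
          rw [Units.val_mul, Units.val_mul, two_mul, pow_add, Units.val_mul, mul_assoc, h1, mul_neg, ← mul_assoc,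
            h1, neg_mul, neg_neg, mul_assoc]
      · rcases hj with h | h
        · rw [h]; exact ht.anti i j fun e => hji e.symm
        · rw [h, mul_neg, neg_mul, ht.anti i j fun e => hji e.symm]
  have hk : ∀ A : GL ι F, x ^ (k : ℕ) * A * (x ^ (k : ℕ))⁻¹ = x ^ (k : ℕ) * A * (x ^ (k : ℕ))⁻¹ := fun _ => rfl
  have hl : x ^ (l : ℕ) * t i * (x ^ (l : ℕ))⁻¹ = x ^ (k : ℕ) * u * (x ^ (k : ℕ))⁻¹ := by
    rw [hu, hd, pow_add]; group
  simp only [hl]
  simp only [Units.val_mul, mul_assoc, Units.inv_mul_cancel_left]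
  rw [← mul_assoc (t i : Matrix ι ι F), hanti, neg_mul, mul_neg, mul_assoc]

/-- The three cases for a nonscalar normalising element of odd prime order. -/
theorem main [Nonempty ι] (h2 : (2 : F) ≠ 0) (R : Subgroup (GL ι F))
    (hRs : Cfsg.Geo.IsSymplecticTypeGroup 2 R)
    (hRi : Cfsg.Geo.ActsAbsolutelyIrreducibly (Cfsg.Geo.matrixSet R)) (hR5 : Nat.card R = 2 ^ 5)
    (hRZ : Nat.card (Subgroup.center R) = 2) (hRm : Cfsg.Geo.IsOfMinusType 2 R)
    {x : GL ι F} (hx : x ∈ Cfsg.Geo.subgroupNormalizer R) {r : ℕ} [Fact r.Prime] (hr : r ≠ 2) (hxr : x ^ r = 1)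
    (hns : ∀ c : F, (x : Matrix ι ι F) ≠ c • 1) :
    (r = 3 ∨ r = 5) ∧
      (r = 3 → ∃ u v : GL ι F, (x : Matrix ι ι F) * u = (u : Matrix ι ι F) * x ∧
        (x : Matrix ι ι F) * v = (v : Matrix ι ι F) * x ∧
        (u : Matrix ι ι F) * v = -((v : Matrix ι ι F) * u)) ∧
      (∃ s : GL ι F, (s : Matrix ι ι F) * s = 1 ∧
        ((x * s * x⁻¹ : GL ι F) : Matrix ι ι F) * s = -((s : Matrix ι ι F) * (x * s * x⁻¹ : GL ι F))) ∧
      (r = 5 → Fintype.card ι = 4 →
        (x : Matrix ι ι F).trace * ((x⁻¹ : GL ι F) : Matrix ι ι F).trace = 1) := by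
  classical
  obtain ⟨t, htR, ht, -, hinv, hsch⟩ := exists_five h2 R hRs hRi hR5 hRZ hRm
  obtain ⟨i, hi⟩ : ∃ i, (x : Matrix ι ι F) * t i ≠ (t i : Matrix ι ι F) * x := by
    by_contra h
    push Not at h
    obtain ⟨c, hc⟩ := hsch _ h
    exact hns c hc
  have hK := commute_or_moves h2 htR hinv ht hx hr hxr i hi
  set s : Fin r → GL ι F := fun k => x ^ (k : ℕ) * t i * (x ^ (k : ℕ))⁻¹
  have hsR : ∀ k, s k ∈ R := fun k =>
    (Subgroup.mem_normalizer_iff.1 (Subgroup.pow_mem _ hx k) (t i)).1 (htR i)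
  have hidx : ∀ k, ∃ j, (s k : Matrix ι ι F) = t j ∨ (s k : Matrix ι ι F) = -(t j : Matrix ι ι F) := by
    intro k
    refine (hinv _ (hsR k) (hK.sq k)).resolve_left fun h => ?_
    have hr1 := (Fact.out : r.Prime).two_le
    obtain ⟨l, hl⟩ : ∃ l : Fin r, l ≠ k :=
      Fintype.exists_ne_of_one_lt_card (by rw [Fintype.card_fin]; omega) k
    have h' := hK.anti k l hl.symm
    rcases h with h | h
    · change (s k : Matrix ι ι F) * (s l : Matrix ι ι F) = -((s l : Matrix ι ι F) * (s k : Matrix ι ι F)) at h'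
      rw [h, one_mul, mul_one] at h'
      exact eq_neg_self_false h2 h'
    · change (s k : Matrix ι ι F) * (s l : Matrix ι ι F) = -((s l : Matrix ι ι F) * (s k : Matrix ι ι F)) at h'
      rw [h, neg_one_mul, mul_neg_one, neg_neg] at h'
      exact eq_neg_self_false h2 h'.symm
  choose π hπ using hidx
  have hπi : Function.Injective π := fun k l hkl => by
    by_contra hne
    have h' := hK.anti k l hne
    change (s k : Matrix ι ι F) * (s l : Matrix ι ι F) = -((s l : Matrix ι ι F) * (s k : Matrix ι ι F)) at h'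
    rcases hπ k with h | h <;> rcases hπ l with e | e <;>
      · rw [h, e, hkl] at h'
        simp only [neg_mul, mul_neg, neg_neg, ht.sq] at h'
        first
          | exact eq_neg_self_false (g := (1 : GL ι F)) h2 h'
          | exact eq_neg_self_false (g := (1 : GL ι F)) h2 h'.symm
  have hr5 : r ≤ 5 := by simpa using Fintype.card_le_of_injective π hπi
  have hr35 : r = 3 ∨ r = 5 := by
    have h2r := (Fact.out : r.Prime).two_le
    have hodd := ((Fact.out : r.Prime).eq_two_or_odd).resolve_left hr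
    omega
  refine ⟨hr35, fun h3 => ?_, ⟨t i, ht.sq i, ?_⟩, fun h5 hι => ?_⟩
  · subst h3
    have hfix : ∀ j, (∀ k, π k ≠ j) → (x : Matrix ι ι F) * t j = (t j : Matrix ι ι F) * x := by
      intro j hj
      by_contra hjc
      have hJ := commute_or_moves h2 htR hinv ht hx hr hxr j hjc
      have hjR : ∀ m : Fin 3, x ^ (m : ℕ) * t j * (x ^ (m : ℕ))⁻¹ ∈ R := fun m =>
        (Subgroup.mem_normalizer_iff.1 (Subgroup.pow_mem _ hx m) (t j)).1 (htR j)
      have hidj : ∀ m : Fin 3, ∃ l, ∀ k, π k ≠ l ∧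
          (((x ^ (m : ℕ) * t j * (x ^ (m : ℕ))⁻¹ : GL ι F) : Matrix ι ι F) = t l ∨
          ((x ^ (m : ℕ) * t j * (x ^ (m : ℕ))⁻¹ : GL ι F) : Matrix ι ι F) = -(t l : Matrix ι ι F)) := by
        intro m
        refine ((hinv _ (hjR m) (hJ.sq m)).resolve_left fun h => ?_).elim fun l hl =>
          ⟨l, fun k => ⟨fun hkl => ?_, hl⟩⟩
        · have h' := hJ.anti m (m + 1) ((by decide : ∀ m : Fin 3, m ≠ m + 1) m)
          rcases h with h | h
          · rw [h, one_mul, mul_one] at h'
            exact eq_neg_self_false h2 h'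
          · rw [h, neg_one_mul, mul_neg_one, neg_neg] at h'
            exact eq_neg_self_false h2 h'.symm
        · -- the point would lie in the orbit of `t i`
          have hk : ((x ^ (m : ℕ) * t j * (x ^ (m : ℕ))⁻¹ : GL ι F) : Matrix ι ι F) = s k ∨
              ((x ^ (m : ℕ) * t j * (x ^ (m : ℕ))⁻¹ : GL ι F) : Matrix ι ι F) = -(s k : Matrix ι ι F) := by
            rcases hπ k with h | h <;> rcases hl with e | e <;> rw [e, h, hkl] <;> simp
          obtain ⟨n, hn⟩ : ∃ n : Fin 3, ((m : ℕ) + n) % 3 = (k : ℕ) :=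
            (by decide : ∀ m k : Fin 3, ∃ n : Fin 3, ((m : ℕ) + n) % 3 = (k : ℕ)) m k
          have hsk : s k = x ^ (m : ℕ) * s n * (x ^ (m : ℕ))⁻¹ := by
            have hp : x ^ ((m : ℕ) + n) = x ^ (k : ℕ) := by
              rw [← hn, pow_eq_pow_mod _ hxr]
            simp only [s]
            rw [← hp, pow_add]; group
          rw [hsk] at hk
          have hjn : (t j : Matrix ι ι F) = s n ∨ (t j : Matrix ι ι F) = -(s n : Matrix ι ι F) := by
            rcases hk with h | h
            · left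
              simp only [Units.val_mul, mul_assoc] at h
              exact (x ^ (m : ℕ)).isUnit.mul_left_cancel
                (((x ^ (m : ℕ))⁻¹).isUnit.mul_right_cancel (by simpa only [mul_assoc] using h))
            · right
              simp only [Units.val_mul, mul_assoc] at h
              rw [← mul_neg, ← neg_mul] at h
              exact (x ^ (m : ℕ)).isUnit.mul_left_cancel
                (((x ^ (m : ℕ))⁻¹).isUnit.mul_right_cancel (by simpa only [mul_assoc] using h))
          have hne : j ≠ π n := fun e => hj n e.symm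
          have h' := ht.anti j (π n) hne
          change (t j : Matrix ι ι F) * (t (π n) : Matrix ι ι F) = -((t (π n) : Matrix ι ι F) * t j) at h'
          rcases hπ n with h | h <;> rcases hjn with e | e <;> rw [e, h] at h' <;>
            simp only [neg_mul, mul_neg, neg_neg, ht.sq] at h' <;>
            first
              | exact eq_neg_self_false (g := (1 : GL ι F)) h2 h'
              | exact eq_neg_self_false (g := (1 : GL ι F)) h2 h'.symm
      choose ρ hρ using hidj
      have hρi : Function.Injective ρ := fun a b hab => by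
        by_contra hne
        have h' := hJ.anti a b hne
        rcases (hρ a 0).2 with h | h <;> rcases (hρ b 0).2 with e | e <;>
          · rw [h, e, hab] at h'
            simp only [neg_mul, mul_neg, neg_neg, ht.sq] at h'
            first
              | exact eq_neg_self_false (g := (1 : GL ι F)) h2 h'
              | exact eq_neg_self_false (g := (1 : GL ι F)) h2 h'.symm
      have hinj : Function.Injective (Sum.elim π ρ) :=
        hπi.sumElim hρi fun a b => (hρ b a).1
      simpa using Fintype.card_le_of_injective _ hinj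
    obtain ⟨a, b, hab, ha, hb⟩ : ∃ a b : Fin 5, a ≠ b ∧ (∀ k, π k ≠ a) ∧ ∀ k, π k ≠ b := by
      exact two_missed π
    exact ⟨t a, t b, hfix a ha, hfix b hb, ht.anti a b hab⟩
  · have h1r := (Fact.out : r.Prime).one_lt
    have h' := hK.anti ⟨1, h1r⟩ ⟨0, by omega⟩ (by simp)
    simpa using h'
  · subst h5
    refine hK.trace_mul_trace_of_cycles h2 hι (fun M hM => hsch M fun j => ?_) (by simp) fun k => ?_
    · obtain ⟨k, rfl⟩ := (Finite.injective_iff_surjective.1 hπi) j
      rcases hπ k with h | h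
      · rw [← h]; exact hM k
      · have := hM k
        change M * (s k : Matrix ι ι F) = (s k : Matrix ι ι F) * M at this
        rwa [h, mul_neg, neg_mul, neg_inj] at this
    · show (x : Matrix ι ι F) * (s k : Matrix ι ι F) = (s (k + 1) : Matrix ι ι F) * x
      rw [← Units.val_mul, ← Units.val_mul]
      congr 1
      have hp : x ^ ((k + 1 : Fin 5) : ℕ) = x * x ^ (k : ℕ) := by
        rw [Fin.val_add, Fin.val_one, ← pow_succ', pow_eq_pow_mod ((k : ℕ) + 1) hxr]
      simp only [s, hp]
      group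

/-- An element of the normaliser that cycles the five involutions, as a rescaled product of differences. -/
theorem exists_cycle [Nonempty ι] (h2 : (2 : F) ≠ 0) (R : Subgroup (GL ι F))
    (hRs : Cfsg.Geo.IsSymplecticTypeGroup 2 R)
    (hRi : Cfsg.Geo.ActsAbsolutelyIrreducibly (Cfsg.Geo.matrixSet R)) (hR5 : Nat.card R = 2 ^ 5)
    (hRZ : Nat.card (Subgroup.center R) = 2) (hRm : Cfsg.Geo.IsOfMinusType 2 R) :
    ∃ (t : Fin 5 → GL ι F) (y : GL ι F), (∀ i, t i ∈ R) ∧ IsFrame (fun i => (t i : Matrix ι ι F)) ∧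
      (y : Matrix ι ι F) = (4 : F)⁻¹ • cycle (fun i => (t i : Matrix ι ι F)) ∧
      y ∈ Cfsg.Geo.subgroupNormalizer R ∧ 5 ∣ orderOf y := by
  obtain ⟨t, htR, ht, hgen, -, -⟩ := exists_five h2 R hRs hRi hR5 hRZ hRm
  have h4 : (4 : F) ≠ 0 := by rw [show (4 : F) = 2 * 2 by norm_num]; exact mul_ne_zero h2 h2
  have hs : ((4 : F)⁻¹ * (4 : F)⁻¹) * 16 = 1 := by field_simp; norm_num
  let y : GL ι F := ⟨(4 : F)⁻¹ • cycle (fun i => (t i : Matrix ι ι F)),
    (4 : F)⁻¹ • cycle (fun i => (t i.rev : Matrix ι ι F)),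
    by rw [smul_mul_smul, ht.cycle_mul_rev, smul_smul, hs, one_smul],
    by rw [smul_mul_smul, ht.rev_mul_cycle, smul_smul, hs, one_smul]⟩
  have hy : ∀ i, y * t i = t (i + 1) * y := fun i => Units.ext (by
    show ((4 : F)⁻¹ • cycle _) * (t i : Matrix ι ι F) = (t (i + 1) : Matrix ι ι F) * ((4 : F)⁻¹ • cycle _)
    rw [smul_mul_assoc, mul_smul_comm, (ht.cycle_semiconj i).eq])
  have hN : y ∈ Cfsg.Geo.subgroupNormalizer R := by
    haveI : Finite R := Nat.finite_of_card_ne_zero (by rw [hR5]; norm_num)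
    have hle : R ≤ R.comap (MulAut.conj y).toMonoidHom := hgen.trans ((Subgroup.closure_le _).2 (by
      rintro _ ⟨i, rfl⟩
      show y * t i * y⁻¹ ∈ R
      rw [hy, mul_inv_cancel_right]
      exact htR _))
    refine Subgroup.mem_normalizer_iff.2 fun g => ⟨fun hg => hle hg, fun hg => ?_⟩
    have hinj : Function.Injective fun g : R => (⟨_, hle g.2⟩ : R) := fun a b h =>
      Subtype.ext ((MulAut.conj y).injective (congrArg Subtype.val h))
    obtain ⟨g', hg'⟩ := (Finite.injective_iff_surjective.1 hinj) ⟨_, hg⟩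
    have : (g' : GL ι F) = g := (MulAut.conj y).injective (congrArg Subtype.val hg')
    exact this ▸ g'.2
  refine ⟨t, y, htR, ht, rfl, hN, ?_⟩
  have hpow : ∀ m : ℕ, y ^ m * t 0 = t (Fin.ofNat 5 m) * y ^ m := by
    intro m
    induction m with
    | zero => simp
    | succ m ih =>
      have hc : Fin.ofNat 5 (m + 1) = Fin.ofNat 5 m + 1 := Fin.ext (by simp [Fin.val_add])
      rw [pow_succ', mul_assoc, ih, ← mul_assoc, hy, mul_assoc, hc]
  have h0 := hpow (orderOf y)
  rw [pow_orderOf_eq_one, one_mul, mul_one] at h0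
  by_contra hdvd
  have hne : (0 : Fin 5) ≠ Fin.ofNat 5 (orderOf y) := fun h =>
    hdvd (Nat.dvd_of_mod_eq_zero (congrArg Fin.val h).symm)
  have h' := ht.anti _ _ hne
  change (t 0 : Matrix ι ι F) * (t _ : Matrix ι ι F) = -((t _ : Matrix ι ι F) * (t 0 : Matrix ι ι F)) at h'
  rw [← h0] at h'
  exact eq_neg_self_false (g := t 0 * t 0) h2 h'

end Group

end Cfsg.Agent.H66.Minus
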