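/-
Elements of odd prime order normalising an absolutely irreducible group `4 ∘ 2^(1+4)` in dimension four.
-/
import Cfsg.Agent.H66.MinusNormalizer
import Mathlib

set_option autoImplicit false

open Matrix

namespace Cfsg.Agent.H66.Four

open Cfsg.Agent.H66.Minus (IsFrame)

variable {F : Type*} [Field F]

local notation "M4" => Matrix (Fin 4) (Fin 4) F
local notation "G4" => GL (Fin 4) F

section Monomial

variable {t : Fin 5 → Matrix (Fin 4) (Fin 4) F}

/-- The monomials in the first four members of a frame. -/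
def mono (t : Fin 5 → M4) (f : Fin 4 → Fin 2) : M4 :=
  t 0 ^ (f 0 : ℕ) * t 1 ^ (f 1 : ℕ) * t 2 ^ (f 2 : ℕ) * t 3 ^ (f 3 : ℕ)

/-- The sign of a monomial against a member of the frame, as an exponent. -/
def flips (j : Fin 5) (f : Fin 4 → Fin 2) : ℕ :=
  ∑ i : Fin 4, if i.castSucc = j then 0 else (f i : ℕ)

theorem flips_separates : ∀ f g : Fin 4 → Fin 2, (∀ j, flips j f % 2 = flips j g % 2) → f = g := by
  intro f g h
  have h0 := h 0
  have h1 := h 1
  have h2 := h 2
  have h3 := h 3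
  have h4 := h 4
  simp [flips, Fin.sum_univ_four] at h0 h1 h2 h3 h4
  have hf0 := (f 0).isLt
  have hf1 := (f 1).isLt
  have hf2 := (f 2).isLt
  have hf3 := (f 3).isLt
  have hg0 := (g 0).isLt
  have hg1 := (g 1).isLt
  have hg2 := (g 2).isLt
  have hg3 := (g 3).isLt
  funext i
  match i with
  | 0 => apply Fin.ext; omega
  | 1 => apply Fin.ext; omega
  | 2 => apply Fin.ext; omega
  | 3 => apply Fin.ext; omega

theorem mul_mono (ht : IsFrame t) (j : Fin 5) (f : Fin 4 → Fin 2) :
    t j * mono t f = (-1 : F) ^ flips j f • (mono t f * t j) := by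
  have key : ∀ (i : Fin 4) (k : Fin 2), t j * t i.castSucc ^ (k : ℕ) =
      (-1 : F) ^ (if i.castSucc = j then 0 else (k : ℕ)) • (t i.castSucc ^ (k : ℕ) * t j) := by
    intro i k
    match k with
    | 0 => simp
    | 1 =>
      by_cases h : i.castSucc = j
      · rw [if_pos h]; simp [h]
      · rw [if_neg h]; simp [ht.anti j i.castSucc fun e => h e.symm]
  have k0 := key 0 (f 0)
  have k1 := key 1 (f 1)
  have k2 := key 2 (f 2)
  have k3 := key 3 (f 3)
  simp only [show (0 : Fin 4).castSucc = (0 : Fin 5) from rfl, show (1 : Fin 4).castSucc = (1 : Fin 5) from rfl,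
    show (2 : Fin 4).castSucc = (2 : Fin 5) from rfl, show (3 : Fin 4).castSucc = (3 : Fin 5) from rfl] at k0 k1 k2 k3
  simp only [mono, ← mul_assoc]
  rw [k0, smul_mul_assoc, smul_mul_assoc, smul_mul_assoc, mul_assoc _ (t j), k1, mul_smul_comm, smul_mul_assoc,
    smul_mul_assoc, ← mul_assoc, mul_assoc _ (t j), k2, mul_smul_comm, smul_mul_assoc, ← mul_assoc,
    mul_assoc _ (t j), k3, mul_smul_comm, ← mul_assoc]
  simp only [smul_smul, ← pow_add]
  rfl

theorem mono_ne_zero (ht : IsFrame t) (f : Fin 4 → Fin 2) : mono t f ≠ 0 := by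
  have hu : ∀ i (k : ℕ), IsUnit (t i ^ k) := fun i k => (IsUnit.of_mul_eq_one (t i) (ht.sq i)).pow k
  exact ((((hu 0 _).mul (hu 1 _)).mul (hu 2 _)).mul (hu 3 _)).ne_zero

theorem neg_one_pow_ne (h2 : (2 : F) ≠ 0) {a b : ℕ} (h : a % 2 ≠ b % 2) : (-1 : F) ^ a ≠ (-1) ^ b := by
  rw [neg_one_pow_eq_pow_mod_two, neg_one_pow_eq_pow_mod_two (n := b)]
  have ha : a % 2 < 2 := Nat.mod_lt _ two_pos
  have hb : b % 2 < 2 := Nat.mod_lt _ two_pos
  intro e
  interval_cases a % 2 <;> interval_cases b % 2 <;> first | omega | (apply h2; simp at e; linear_combination e) |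
    (apply h2; simp at e; linear_combination -e)

theorem mono_independent (h2 : (2 : F) ≠ 0) (ht : IsFrame t) : LinearIndependent F (mono t) := by
  classical
  rw [Fintype.linearIndependent_iff]
  intro c hc g
  have hL : ∀ L : Finset (Fin 5),
      ∑ f, (∏ j ∈ L, ((-1 : F) ^ flips j g + (-1) ^ flips j f)) • (c f • mono t f) = 0 := by
    intro L
    induction L using Finset.induction_on with
    | empty => simpa using hc
    | insert j L hj ih =>
      have e := congrArg (fun M : M4 => t j * M * t j) ih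
      simp only [Finset.mul_sum, Finset.sum_mul, mul_zero, zero_mul, mul_smul_comm, smul_mul_assoc,
        mul_mono ht, mul_assoc, ht.sq, mul_one, smul_smul] at e
      have e' : ∑ f, ((-1 : F) ^ flips j g * ∏ j ∈ L, ((-1 : F) ^ flips j g + (-1) ^ flips j f)) •
          (c f • mono t f) = 0 := by
        simp only [← smul_smul, ← Finset.smul_sum]
        rw [ih, smul_zero]
      calc ∑ f, (∏ j ∈ insert j L, ((-1 : F) ^ flips j g + (-1) ^ flips j f)) • (c f • mono t f)
          = ∑ f, (((-1 : F) ^ flips j g * ∏ j ∈ L, ((-1 : F) ^ flips j g + (-1) ^ flips j f)) • (c f • mono t f) +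
              ((∏ j ∈ L, ((-1 : F) ^ flips j g + (-1) ^ flips j f)) * (c f * (-1) ^ flips j f)) • mono t f) := by
            refine Finset.sum_congr rfl fun f _ => ?_
            rw [Finset.prod_insert hj, smul_smul, smul_smul, ← add_smul]
            congr 1
            ring
        _ = 0 := by rw [Finset.sum_add_distrib, e', e, add_zero]
  have h := hL Finset.univ
  rw [Finset.sum_eq_single g (fun f _ hf => ?_) (fun hg => absurd (Finset.mem_univ g) hg)] at h
  · rw [smul_eq_zero] at h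
    rcases h with h | h
    · exfalso
      refine Finset.prod_ne_zero_iff.2 (fun j _ => ?_) h
      rw [← two_mul]
      exact mul_ne_zero h2 (pow_ne_zero _ (by norm_num))
    · exact (smul_eq_zero.1 h).resolve_right (mono_ne_zero ht g)
  · obtain ⟨j, hj⟩ : ∃ j, flips j f % 2 ≠ flips j g % 2 := by
      by_contra hh
      push Not at hh
      exact hf (flips_separates f g hh)
    rw [Finset.prod_eq_zero (Finset.mem_univ j), zero_smul]
    have hj' : (flips j g + flips j f) % 2 = 1 := by omega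
    rw [neg_one_pow_eq_pow_mod_two (n := flips j g), neg_one_pow_eq_pow_mod_two (n := flips j f)]
    have : flips j f % 2 = 0 ∧ flips j g % 2 = 1 ∨ flips j f % 2 = 1 ∧ flips j g % 2 = 0 := by omega
    rcases this with ⟨a, b⟩ | ⟨a, b⟩ <;> rw [a, b] <;> simp

theorem exists_mono_sum (h2 : (2 : F) ≠ 0) (ht : IsFrame t) (M : M4) :
    ∃ c : (Fin 4 → Fin 2) → F, M = ∑ f, c f • mono t f := by
  have hspan : Submodule.span F (Set.range (mono t)) = ⊤ := by
    refine (mono_independent h2 ht).span_eq_top_of_card_eq_finrank ?_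
    rw [Module.finrank_matrix, Module.finrank_self]
    simp
  obtain ⟨c, hc⟩ := (Submodule.mem_span_range_iff_exists_fun F).1 (hspan ▸ Submodule.mem_top : M ∈ _)
  exact ⟨c, hc.symm⟩

/-- A matrix commuting or anticommuting with every member of a frame is a multiple of one monomial. -/
theorem eq_smul_mono (h2 : (2 : F) ≠ 0) (ht : IsFrame t) {M : M4} {ε : Fin 5 → F}
    (hM : ∀ j, t j * M = ε j • (M * t j)) :
    M = 0 ∨ ∃ (a : F) (f : Fin 4 → Fin 2), M = a • mono t f ∧ ∀ j, ε j = (-1) ^ flips j f := by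
  obtain ⟨c, hc⟩ := exists_mono_sum h2 ht M
  have key : ∀ j f, c f * ((-1 : F) ^ flips j f - ε j) = 0 := by
    intro j f
    have h := hM j
    rw [hc, Finset.mul_sum, Finset.sum_mul, Finset.smul_sum] at h
    simp only [mul_smul_comm, smul_mul_assoc, mul_mono ht] at h
    have h' := congrArg (fun A : M4 => A * t j) h
    simp only [Finset.sum_mul, smul_mul_assoc, mul_assoc, ht.sq, mul_one, smul_smul] at h'
    have h'' : ∑ f, (c f * ((-1 : F) ^ flips j f - ε j)) • mono t f = 0 := by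
      simp only [mul_sub, sub_smul, Finset.sum_sub_distrib]
      rw [h', sub_eq_zero]
      exact Finset.sum_congr rfl fun f _ => congrArg (· • mono t f) (by ring)
    have li : LinearIndependent F (mono t) := mono_independent h2 ht
    rw [linearIndependent_iff'] at li
    exact li Finset.univ (fun f => c f * ((-1 : F) ^ flips j f - ε j)) h'' f (Finset.mem_univ f)
  by_cases h0 : ∀ f, c f = 0
  · left; rw [hc]; simp [h0]
  push Not at h0
  obtain ⟨f, hf⟩ := h0
  have hε : ∀ j, ε j = (-1) ^ flips j f := fun j => (sub_eq_zero.1 ((mul_eq_zero.1 (key j f)).resolve_left hf)).symm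
  refine Or.inr ⟨c f, f, ?_, hε⟩
  rw [hc]
  refine Finset.sum_eq_single f (fun g _ hg => ?_) (fun h => absurd (Finset.mem_univ f) h)
  obtain ⟨j, hj⟩ : ∃ j, flips j g % 2 ≠ flips j f % 2 := by
    by_contra hh
    push Not at hh
    exact hg (flips_separates g f hh)
  have := key j g
  rw [hε] at this
  rw [(mul_eq_zero.1 this).resolve_right (sub_ne_zero.2 (neg_one_pow_ne h2 hj)), zero_smul]

theorem scalar_of_commute (h2 : (2 : F) ≠ 0) (ht : IsFrame t) {M : M4} (hM : ∀ j, M * t j = t j * M) :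
    ∃ c : F, M = c • (1 : M4) := by
  rcases eq_smul_mono h2 ht (ε := fun _ => 1) (fun j => by rw [one_smul, hM j]) with h | ⟨a, f, h, hε⟩
  · exact ⟨0, by rw [h, zero_smul]⟩
  · have hf : f = fun _ => 0 := flips_separates f _ fun j => by
      by_contra hne
      refine neg_one_pow_ne h2 hne ?_
      rw [← hε j]
      simp [flips]
    exact ⟨a, by rw [h, hf]; simp [mono]⟩

end Monomial

/-- Permutations as endomorphisms. -/
def endHom (α : Type*) : Equiv.Perm α →* Function.End α where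
  toFun σ := ⇑σ
  map_one' := rfl
  map_mul' _ _ := rfl

/-- What is used about a group `4 ∘ 2^(1+4)`. -/
structure Data (i : F) (R : Subgroup G4) : Prop where
  sqi : i * i = -1
  imem : ∃ u ∈ R, (u : M4) = i • (1 : M4)
  sign : ∀ g ∈ R, ∀ h ∈ R, g * h = h * g ∨ (g : M4) * h = -((h : M4) * g)
  sq : ∀ g ∈ R, (g : M4) * g = 1 ∨ (g : M4) * g = -1
  sch : ∀ M : M4, (∀ g ∈ R, M * (g : M4) = (g : M4) * M) → ∃ c : F, M = c • (1 : M4)
  pow_four : ∀ g ∈ R, g ^ 4 = 1
  card : Nat.card R = 64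
  cardZ : Nat.card (Subgroup.center R) = 4

theorem exists_data (h2 : (2 : F) ≠ 0) (R : Subgroup G4) (hRs : Cfsg.Geo.IsSymplecticTypeGroup 2 R)
    (hRi : Cfsg.Geo.ActsAbsolutelyIrreducibly (Cfsg.Geo.matrixSet R)) (hR6 : Nat.card R = 2 ^ 6)
    (hRZ : Nat.card (Subgroup.center R) = 4) : ∃ i : F, Data i R := by
  classical
  have h4 : ∀ q : R, q ^ 4 = 1 := fun q => by
    have h := Monoid.pow_exponent_eq_one q
    rw [hRs.exponent_eq] at h
    exact h
  have hsch : ∀ M : M4, (∀ g ∈ R, M * (g : M4) = (g : M4) * M) → ∃ c : F, M = c • (1 : M4) :=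
    fun M hM => hRi.2 M (by rintro _ ⟨g, hg, rfl⟩; exact hM g hg)
  have hpow : ∀ g ∈ R, g ^ 4 = 1 := fun g hg => congrArg Subtype.val (h4 ⟨g, hg⟩)
  -- the centre consists of four scalars
  have hcs : ∀ z : Subgroup.center R, ∃ c : F, (((z : R) : G4) : M4) = c • (1 : M4) := fun z =>
    hsch _ fun g hg => congrArg (fun u : R => ((u : G4) : M4)) (Subgroup.mem_center_iff.1 z.2 ⟨g, hg⟩).symm
  choose c hc using hcs
  have hcinj : Function.Injective c := fun a b hab =>
    Subtype.ext (Subtype.ext (Units.ext (by rw [hc, hc, hab])))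
  have hc4 : ∀ z, c z ^ 4 = 1 := fun z => by
    have h := congrArg Units.val (hpow _ (z : R).2)
    rw [Units.val_pow_eq_pow_val, hc, _root_.smul_pow, one_pow, Units.val_one] at h
    exact smul_left_injective F (one_ne_zero (α := M4)) (h.trans (one_smul F 1).symm)
  haveI : Finite (Subgroup.center R) := Nat.finite_of_card_ne_zero (by omega)
  haveI := Fintype.ofFinite (Subgroup.center R)
  obtain ⟨z₀, hz₀⟩ : ∃ z, ¬ (c z = 1 ∨ c z = -1) := by
    by_contra h
    push Not at h
    have hle : (Finset.univ.image c) ⊆ {1, -1} := by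
      intro x hx
      obtain ⟨z, -, rfl⟩ := Finset.mem_image.1 hx
      by_cases h1 : c z = 1
      · simp [h1]
      · simp [(h z).resolve_left h1]
    have := (Finset.card_le_card hle).trans Finset.card_le_two
    rw [Finset.card_image_of_injective _ hcinj, Finset.card_univ, ← Nat.card_eq_fintype_card, hRZ] at this
    omega
  have hi : c z₀ * c z₀ = -1 := by
    have h : (c z₀ * c z₀) * (c z₀ * c z₀) = 1 := by
      linear_combination hc4 z₀
    refine (mul_self_eq_one_iff.1 h).resolve_left fun e => hz₀ ?_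
    exact mul_self_eq_one_iff.1 e
  haveI : Finite R := Nat.finite_of_card_ne_zero (by rw [hR6]; norm_num)
  refine ⟨c z₀, hi, ⟨_, (z₀ : R).2, hc z₀⟩, ?_, ?_, hsch, hpow, hR6.trans (by norm_num), hRZ⟩
  all_goals
    have hzm : (((z₀ : R) * (z₀ : R) : R) : G4).val = (-1 : M4) := by
      rw [Subgroup.coe_mul, Units.val_mul, hc, smul_mul_smul, mul_one, hi, neg_one_smul]
    set w : R := (z₀ : R) * (z₀ : R) with hw
    have hwc : w ∈ Subgroup.center R := Subgroup.mul_mem _ z₀.2 z₀.2
    have hw2 : w * w = 1 := Subtype.ext (Units.ext (by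
      rw [Subgroup.coe_mul, Units.val_mul, hzm, neg_mul_neg, one_mul]; rfl))
    have hw1 : w ≠ 1 := fun e => by
      rw [e] at hzm
      exact Minus.eq_neg_self_false (g := (1 : G4)) h2 hzm
    obtain ⟨hcomm, hsq, -⟩ := H58.symplectic_four_spec ⟨hRs.pGroup, hRs.cyclic_of_characteristic⟩ h4 hwc hw2 hw1
  · intro g hg h hh
    rcases hcomm ⟨g, hg⟩ ⟨h, hh⟩ with e | e
    · exact Or.inl (congrArg Subtype.val (commutatorElement_eq_one_iff_mul_comm.1 e))
    · right
      have e' : (⟨g, hg⟩ : R) * ⟨h, hh⟩ = w * (⟨h, hh⟩ * ⟨g, hg⟩) := by rw [← e, commutatorElement_def]; group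
      have := congrArg (fun u : R => ((u : G4) : M4)) e'
      simpa [hzm] using this
  · intro g hg
    rcases hsq ⟨g, hg⟩ with e | e
    · exact Or.inl (congrArg (fun u : R => ((u : G4) : M4)) e)
    · exact Or.inr ((congrArg (fun u : R => ((u : G4) : M4)) e).trans hzm)

variable {i : F} {R : Subgroup (GL (Fin 4) F)}

theorem Data.commute_or (D : Data i R) (h2 : (2 : F) ≠ 0) {g h : G4} (hg : g ∈ R) (hh : h ∈ R) :
    ¬ ((g : M4) * h = (h : M4) * g) ↔ (g : M4) * h = -((h : M4) * g) := by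
  constructor
  · intro hne
    exact (D.sign g hg h hh).resolve_left fun e => hne (congrArg Units.val e)
  · intro ha he
    exact Minus.eq_neg_self_false (g := h * g) h2 (he.symm.trans ha)

theorem Data.involution (D : Data i R) {g : G4} (hg : g ∈ R) :
    ∃ s ∈ R, (s : M4) * s = 1 ∧ ∃ a : F, a ≠ 0 ∧ (s : M4) = a • (g : M4) := by
  rcases D.sq g hg with h | h
  · exact ⟨g, hg, h, 1, one_ne_zero, (one_smul _ _).symm⟩
  · obtain ⟨u, hu, hu'⟩ := D.imem
    refine ⟨u * g, Subgroup.mul_mem _ hu hg, ?_, i, ?_, ?_⟩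
    · rw [Units.val_mul, hu', smul_mul_assoc, one_mul, smul_mul_smul, h, D.sqi, neg_one_smul, neg_neg]
    · intro e; have := D.sqi; simp [e] at this
    · rw [Units.val_mul, hu', smul_mul_assoc, one_mul]

theorem Data.exists_anti (D : Data i R) (h2 : (2 : F) ≠ 0) {g : G4} (hg : g ∈ R)
    (hns : ∀ c : F, (g : M4) ≠ c • (1 : M4)) :
    ∃ s ∈ R, (s : M4) * s = 1 ∧ (g : M4) * s = -((s : M4) * g) := by
  obtain ⟨h, hh, hne⟩ : ∃ h ∈ R, ¬ (g : M4) * h = (h : M4) * g := by
    by_contra hc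
    push Not at hc
    obtain ⟨c, hc'⟩ := D.sch _ hc
    exact hns c hc'
  obtain ⟨s, hs, hs2, a, -, hsa⟩ := D.involution hh
  refine ⟨s, hs, hs2, ?_⟩
  rw [hsa, mul_smul_comm, smul_mul_assoc, (D.commute_or h2 hg hh).1 hne, smul_neg]

theorem Data.trace_eq_zero (D : Data i R) (h2 : (2 : F) ≠ 0) {g : G4} (hg : g ∈ R)
    (hns : ∀ c : F, (g : M4) ≠ c • (1 : M4)) : (g : M4).trace = 0 := by
  obtain ⟨s, -, hs2, ha⟩ := D.exists_anti h2 hg hns
  have h : (g : M4).trace = -(g : M4).trace := by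
    calc (g : M4).trace = ((s : M4) * ((g : M4) * s)).trace := by
          rw [trace_mul_comm, mul_assoc, hs2, mul_one]
      _ = ((s : M4) * (-((s : M4) * g))).trace := by rw [ha]
      _ = -(g : M4).trace := by rw [mul_neg, trace_neg, ← mul_assoc, hs2, one_mul]
  linear_combination (norm := (field_simp; ring)) (1 / 2 : F) * h

/-- A frame of involutions inside `R`, generating it together with the scalars. -/
theorem Data.exists_frame (D : Data i R) (h2 : (2 : F) ≠ 0) :
    ∃ t : Fin 5 → G4, (∀ j, t j ∈ R) ∧ IsFrame (fun j => (t j : M4)) ∧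
      R ≤ Subgroup.closure (Set.range t ∪ {g | g ∈ R ∧ ∃ c : F, (g : M4) = c • (1 : M4)}) := by
  classical
  obtain ⟨u, hu, hu'⟩ := D.imem
  haveI : Finite R := Nat.finite_of_card_ne_zero (by rw [D.card]; norm_num)
  obtain ⟨g₁, hg₁, hns₁⟩ : ∃ g ∈ R, ∀ c : F, (g : M4) ≠ c • (1 : M4) := by
    by_contra hc
    push Not at hc
    have htop : Subgroup.center R = ⊤ := by
      refine eq_top_iff.2 fun g _ => Subgroup.mem_center_iff.2 fun h => Subtype.ext (Units.ext ?_)
      obtain ⟨c, hcc⟩ := hc _ g.2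
      simp [hcc]
    have := D.cardZ
    rw [htop, Subgroup.card_top, D.card] at this
    omega
  obtain ⟨a₁, ha₁, ha₁2, k₁, hk₁, ha₁'⟩ := D.involution hg₁
  have hns : ∀ c : F, (a₁ : M4) ≠ c • (1 : M4) := fun c hc => hns₁ (k₁⁻¹ * c) (by
    rw [← smul_smul, ← hc, ha₁', inv_smul_smul₀ hk₁])
  obtain ⟨b₁, hb₁, hb₁2, hab₁⟩ := D.exists_anti h2 ha₁ hns
  -- projection to the centraliser of the first pair
  have proj : ∀ g ∈ R, ∃ m ∈ R, (m = 1 ∨ m = a₁ ∨ m = b₁ ∨ m = a₁ * b₁) ∧
      (a₁ : M4) * (m * g : G4) = ((m * g : G4) : M4) * a₁ ∧ (b₁ : M4) * (m * g : G4) = ((m * g : G4) : M4) * b₁ := by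
    intro g hg
    by_cases hA : (a₁ : M4) * g = (g : M4) * a₁ <;> by_cases hB : (b₁ : M4) * g = (g : M4) * b₁
    · exact ⟨1, Subgroup.one_mem _, Or.inl rfl, by simpa using hA, by simpa using hB⟩
    · rw [D.commute_or h2 hb₁ hg] at hB
      refine ⟨a₁, ha₁, Or.inr (Or.inl rfl), ?_, ?_⟩
      · rw [Units.val_mul, mul_assoc, ← hA]
      · rw [Units.val_mul, ← mul_assoc, show (b₁ : M4) * a₁ = -((a₁ : M4) * b₁) by rw [hab₁, neg_neg],
          neg_mul, mul_assoc, hB, mul_neg, neg_neg, mul_assoc]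
    · rw [D.commute_or h2 ha₁ hg] at hA
      refine ⟨b₁, hb₁, Or.inr (Or.inr (Or.inl rfl)), ?_, ?_⟩
      · rw [Units.val_mul, ← mul_assoc, hab₁, neg_mul, mul_assoc, hA, mul_neg, neg_neg, mul_assoc]
      · rw [Units.val_mul, mul_assoc, ← hB]
    · rw [D.commute_or h2 ha₁ hg] at hA
      rw [D.commute_or h2 hb₁ hg] at hB
      refine ⟨a₁ * b₁, Subgroup.mul_mem _ ha₁ hb₁, Or.inr (Or.inr (Or.inr rfl)), ?_, ?_⟩
      · simp only [Units.val_mul, mul_assoc]
        rw [← neg_eq_iff_eq_neg.2 hA, mul_neg, mul_neg, ← mul_assoc (b₁ : M4) (a₁ : M4),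
          show (b₁ : M4) * a₁ = -((a₁ : M4) * b₁) by rw [hab₁, neg_neg], neg_mul, mul_neg, neg_neg, mul_assoc]
      · simp only [Units.val_mul, mul_assoc]
        rw [← neg_eq_iff_eq_neg.2 hB, mul_neg, mul_neg, ← mul_assoc (b₁ : M4) (a₁ : M4),
          show (b₁ : M4) * a₁ = -((a₁ : M4) * b₁) by rw [hab₁, neg_neg], neg_mul, mul_assoc]
  obtain ⟨g₂, hg₂, hns₂, hA₂, hB₂⟩ : ∃ g ∈ R, (∀ c : F, (g : M4) ≠ c • (1 : M4)) ∧
      (a₁ : M4) * g = (g : M4) * a₁ ∧ (b₁ : M4) * g = (g : M4) * b₁ := by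
    by_contra hc
    push Not at hc
    have hsc : ∀ g ∈ R, ∃ m ∈ ({1, a₁, b₁, a₁ * b₁} : Finset G4), ∃ c : F,
        ((m * g : G4) : M4) = c • (1 : M4) := by
      intro g hg
      obtain ⟨m, hm, hmc, hA, hB⟩ := proj g hg
      refine ⟨m, by simpa using hmc, ?_⟩
      by_contra hns'
      push Not at hns'
      exact hc _ (Subgroup.mul_mem _ hm hg) hns' hA hB
    choose m hm c hc' using hsc
    have hinv : ∀ g (hg : g ∈ R), (m g hg * g) ∈ R := fun g hg => by
      have := hm g hg
      simp only [Finset.mem_insert, Finset.mem_singleton] at this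
      rcases this with h | h | h | h <;> rw [h]
      · rwa [one_mul]
      · exact Subgroup.mul_mem _ ha₁ hg
      · exact Subgroup.mul_mem _ hb₁ hg
      · exact Subgroup.mul_mem _ (Subgroup.mul_mem _ ha₁ hb₁) hg
    let Φ : R → ({1, a₁, b₁, a₁ * b₁} : Finset G4) × Subgroup.center R := fun g =>
      (⟨m g g.2, hm g g.2⟩, ⟨⟨m g g.2 * g, hinv g g.2⟩, Subgroup.mem_center_iff.2 fun h =>
        Subtype.ext (Units.ext (by
          show ((h : G4) : M4) * ((m g g.2 * g : G4) : M4) = ((m g g.2 * g : G4) : M4) * (h : G4)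
          rw [hc' g g.2, mul_smul_comm, smul_mul_assoc, mul_one, one_mul]))⟩)
    have hΦ : Function.Injective Φ := fun g h e => by
      have e1 : m g g.2 = m h h.2 := congrArg (fun q => (q.1 : G4)) e
      have e2 : m g g.2 * g = m h h.2 * h := congrArg (fun q => ((q.2 : R) : G4)) e
      rw [e1] at e2
      exact Subtype.ext (mul_left_cancel e2)
    have := Nat.card_le_card_of_injective Φ hΦ
    rw [Nat.card_prod, D.card, D.cardZ, Nat.card_eq_fintype_card, Fintype.card_coe] at this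
    have h4 := (Finset.card_le_four : ({1, a₁, b₁, a₁ * b₁} : Finset G4).card ≤ 4)
    omega
  obtain ⟨a₂, ha₂, ha₂2, k₂, hk₂, ha₂'⟩ := D.involution hg₂
  have hns' : ∀ c : F, (a₂ : M4) ≠ c • (1 : M4) := fun c hc => hns₂ (k₂⁻¹ * c) (by
    rw [← smul_smul, ← hc, ha₂', inv_smul_smul₀ hk₂])
  have hAa : (a₁ : M4) * a₂ = (a₂ : M4) * a₁ := by rw [ha₂', mul_smul_comm, smul_mul_assoc, hA₂]
  have hBa : (b₁ : M4) * a₂ = (a₂ : M4) * b₁ := by rw [ha₂', mul_smul_comm, smul_mul_assoc, hB₂]
  obtain ⟨h₀, hh₀, -, hanti₀⟩ := D.exists_anti h2 ha₂ hns'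
  obtain ⟨m, hm, hmc, hA₀, hB₀⟩ := proj h₀ hh₀
  have hma : (m : M4) * a₂ = (a₂ : M4) * m := by
    rcases hmc with h | h | h | h <;> rw [h]
    · simp
    · exact hAa
    · exact hBa
    · rw [Units.val_mul, mul_assoc, hBa, ← mul_assoc, hAa, mul_assoc]
  obtain ⟨b₂, hb₂, hb₂2, k₃, -, hb₂'⟩ := D.involution (Subgroup.mul_mem _ hm hh₀)
  have hAb : (a₁ : M4) * b₂ = (b₂ : M4) * a₁ := by rw [hb₂', mul_smul_comm, smul_mul_assoc, hA₀]
  have hBb : (b₁ : M4) * b₂ = (b₂ : M4) * b₁ := by rw [hb₂', mul_smul_comm, smul_mul_assoc, hB₀]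
  have hab₂ : (a₂ : M4) * b₂ = -((b₂ : M4) * a₂) := by
    rw [hb₂', mul_smul_comm, smul_mul_assoc, Units.val_mul, ← mul_assoc, ← hma, mul_assoc, hanti₀, mul_neg,
      smul_neg, mul_assoc]
  -- the frame
  let t : Fin 5 → G4 := ![a₁, b₁, u * a₁ * b₁ * a₂, u * a₁ * b₁ * b₂, u * a₁ * b₁ * (u * a₂ * b₂)]
  have htR : ∀ j, t j ∈ R := by
    have hc := Subgroup.mul_mem _ (Subgroup.mul_mem _ hu ha₁) hb₁
    intro j
    fin_cases j
    · exact ha₁
    · exact hb₁
    · exact Subgroup.mul_mem _ hc ha₂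
    · exact Subgroup.mul_mem _ hc hb₂
    · exact Subgroup.mul_mem _ hc (Subgroup.mul_mem _ (Subgroup.mul_mem _ hu ha₂) hb₂)
  set A := (a₁ : M4)
  set B := (b₁ : M4)
  set P := (a₂ : M4)
  set Q := (b₂ : M4)
  have rBA : ∀ X, B * (A * X) = -(A * (B * X)) := fun X => by
    rw [← mul_assoc, ← mul_assoc A, hab₁, neg_mul, neg_neg]
  have rQP : ∀ X, Q * (P * X) = -(P * (Q * X)) := fun X => by
    rw [← mul_assoc, ← mul_assoc P, hab₂, neg_mul, neg_neg]
  have rPA : ∀ X, P * (A * X) = A * (P * X) := fun X => by rw [← mul_assoc, ← hAa, mul_assoc]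
  have rPB : ∀ X, P * (B * X) = B * (P * X) := fun X => by rw [← mul_assoc, ← hBa, mul_assoc]
  have rQA : ∀ X, Q * (A * X) = A * (Q * X) := fun X => by rw [← mul_assoc, ← hAb, mul_assoc]
  have rQB : ∀ X, Q * (B * X) = B * (Q * X) := fun X => by rw [← mul_assoc, ← hBb, mul_assoc]
  have rAA : ∀ X, A * (A * X) = X := fun X => by rw [← mul_assoc, ha₁2, one_mul]
  have rBB : ∀ X, B * (B * X) = X := fun X => by rw [← mul_assoc, hb₁2, one_mul]
  have rPP : ∀ X, P * (P * X) = X := fun X => by rw [← mul_assoc, ha₂2, one_mul]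
  have rQQ : ∀ X, Q * (Q * X) = X := fun X => by rw [← mul_assoc, hb₂2, one_mul]
  have sBA : B * A = -(A * B) := by rw [hab₁, neg_neg]
  have sQP : Q * P = -(P * Q) := by rw [hab₂, neg_neg]
  have ht : IsFrame fun j => (t j : M4) := by
    constructor
    · intro j
      fin_cases j <;> simp [t, hu', A, B, P, Q, mul_assoc, smul_mul_assoc, mul_smul_comm, smul_smul, D.sqi,
        rBA, rQP, rPA, rPB, rQA, rQB, rAA, rBB, rPP, rQQ, ha₁2, hb₁2, ha₂2, hb₂2, sBA, sQP,
        hAa.symm, hBa.symm, hAb.symm, hBb.symm]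
    · intro j k hjk
      fin_cases j <;> fin_cases k <;> first | exact absurd rfl hjk |
        simp [t, hu', A, B, P, Q, mul_assoc, smul_mul_assoc, mul_smul_comm, smul_smul, D.sqi,
          rBA, rQP, rPA, rPB, rQA, rQB, rAA, rBB, rPP, rQQ, ha₁2, hb₁2, ha₂2, hb₂2, sBA, sQP,
          hAa.symm, hBa.symm, hAb.symm, hBb.symm]
  refine ⟨t, htR, ht, fun g hg => ?_⟩
  have hε : ∀ j, ∃ e : F, (t j : M4) * g = e • ((g : M4) * (t j : M4)) := fun j => by
    rcases D.sign _ (htR j) _ hg with h | h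
    · exact ⟨1, by rw [one_smul]; exact congrArg Units.val h⟩
    · exact ⟨-1, by rw [neg_one_smul]; exact h⟩
  choose e he using hε
  rcases eq_smul_mono h2 ht he with h | ⟨a, f, h, -⟩
  · exact absurd h g.ne_zero
  · set S := Subgroup.closure (Set.range t ∪ {g | g ∈ R ∧ ∃ c : F, (g : M4) = c • (1 : M4)})
    have hw : ∀ j, t j ∈ S := fun j => Subgroup.subset_closure (Or.inl ⟨j, rfl⟩)
    set w := t 0 ^ (f 0 : ℕ) * t 1 ^ (f 1 : ℕ) * t 2 ^ (f 2 : ℕ) * t 3 ^ (f 3 : ℕ)
    have hwS : w ∈ S := Subgroup.mul_mem _ (Subgroup.mul_mem _ (Subgroup.mul_mem _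
      (Subgroup.pow_mem _ (hw 0) _) (Subgroup.pow_mem _ (hw 1) _)) (Subgroup.pow_mem _ (hw 2) _))
      (Subgroup.pow_mem _ (hw 3) _)
    have hwR : w ∈ R := Subgroup.mul_mem _ (Subgroup.mul_mem _ (Subgroup.mul_mem _
      (Subgroup.pow_mem _ (htR 0) _) (Subgroup.pow_mem _ (htR 1) _)) (Subgroup.pow_mem _ (htR 2) _))
      (Subgroup.pow_mem _ (htR 3) _)
    have hwv : (w : M4) = mono (fun j => (t j : M4)) f := by
      simp [w, mono, Units.val_mul, Units.val_pow_eq_pow_val]
    have hgw : ((g * w⁻¹ : G4) : M4) = a • (1 : M4) := by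
      rw [Units.val_mul, h, ← hwv, smul_mul_assoc, Units.mul_inv]
    rw [← inv_mul_cancel_right g w]
    exact Subgroup.mul_mem _ (Subgroup.subset_closure (Or.inr ⟨Subgroup.mul_mem _ hg (Subgroup.inv_mem _ hwR), a, hgw⟩))
      hwS

/-- A matrix conjugating the frame into `R` normalises `R`. -/
theorem Data.mem_normalizer (D : Data i R) {t : Fin 5 → G4} {S : Set G4} (hS : ∀ g ∈ S, ∃ c : F, (g : M4) = c • (1 : M4))
    (hSR : S ⊆ R) (hgen : R ≤ Subgroup.closure (Set.range t ∪ S)) {y : G4} (hy : ∀ j, y * t j * y⁻¹ ∈ R) :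
    y ∈ Cfsg.Geo.subgroupNormalizer R := by
  haveI : Finite R := Nat.finite_of_card_ne_zero (by rw [D.card]; norm_num)
  have hle : R ≤ R.comap (MulAut.conj y).toMonoidHom := hgen.trans ((Subgroup.closure_le _).2 (by
    rintro g (⟨j, rfl⟩ | hg)
    · exact hy j
    · obtain ⟨c, hc⟩ := hS g hg
      have hcom : g * y = y * g := Units.ext (by
        rw [Units.val_mul, Units.val_mul, hc, smul_mul_assoc, one_mul, mul_smul_comm, mul_one])
      show y * g * y⁻¹ ∈ R
      rw [← hcom, mul_inv_cancel_right]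
      exact hSR hg))
  refine Subgroup.mem_normalizer_iff.2 fun g => ⟨fun hg => hle hg, fun hg => ?_⟩
  have hinj : Function.Injective fun g : R => (⟨_, hle g.2⟩ : R) := fun a b h =>
    Subtype.ext ((MulAut.conj y).injective (congrArg Subtype.val h))
  obtain ⟨g', hg'⟩ := (Finite.injective_iff_surjective.1 hinj) ⟨_, hg⟩
  have : (g' : G4) = g := (MulAut.conj y).injective (congrArg Subtype.val hg')
  exact this ▸ g'.2

theorem Data.eq_one_of_conj_eq_smul (D : Data i R) {x g : G4} (hx : x ∈ Cfsg.Geo.subgroupNormalizer R) (hg : g ∈ R)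
    {r : ℕ} (hr : Odd r) (hxr : x ^ r = 1) {c : F}
    (h : ((x * g * x⁻¹ : G4) : M4) = c • (g : M4)) : c = 1 := by
  have hg' := (Subgroup.mem_normalizer_iff.1 hx g).1 hg
  have hq : ((x * g * x⁻¹ * g⁻¹ : G4) : M4) = c • (1 : M4) := by
    rw [Units.val_mul, h, smul_mul_assoc, Units.mul_inv]
  have h4 : c ^ 4 = 1 := by
    have e := congrArg Units.val (D.pow_four _ (Subgroup.mul_mem _ hg' (Subgroup.inv_mem _ hg)))
    rw [Units.val_pow_eq_pow_val, hq, _root_.smul_pow, one_pow, Units.val_one] at e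
    exact smul_left_injective F (one_ne_zero (α := M4)) (e.trans (one_smul F 1).symm)
  have hiter : ∀ k : ℕ, ((x ^ k : G4) : M4) * g = c ^ k • ((g : M4) * (x ^ k : G4)) := by
    have h1 : (x : M4) * g = c • ((g : M4) * x) := by
      rw [← smul_mul_assoc, ← h, ← Units.val_mul, ← Units.val_mul, inv_mul_cancel_right]
    intro k
    induction k with
    | zero => simp
    | succ k ih =>
      rw [pow_succ, Units.val_mul, mul_assoc, h1, mul_smul_comm, ← mul_assoc, ih, smul_mul_assoc, smul_smul,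
        mul_assoc, pow_succ']
  have hcr : c ^ r = 1 := by
    have e := hiter r
    rw [hxr, Units.val_one, one_mul, mul_one] at e
    exact smul_left_injective F g.ne_zero ((one_smul F (g : M4)).trans e).symm
  have hd : orderOf c ∣ Nat.gcd r 4 := Nat.dvd_gcd (orderOf_dvd_of_pow_eq_one hcr) (orderOf_dvd_of_pow_eq_one h4)
  have hco : Nat.gcd r 4 = 1 := (Nat.Coprime.pow_right 2 (Nat.coprime_two_right.2 hr) : Nat.Coprime r (2 ^ 2))
  rw [hco, Nat.dvd_one, orderOf_eq_one_iff] at hd
  exact hd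

/-- A normalising element of odd order that is a multiple of a pseudo-reflection or transvection is scalar. -/
theorem Data.scalar_of_hyperplane (D : Data i R) (h2 : (2 : F) ≠ 0) {x : G4}
    (hx : x ∈ Cfsg.Geo.subgroupNormalizer R) {r : ℕ} (hr : Odd r) (hxr : x ^ r = 1)
    {a : F} {v φ : Fin 4 → F} (hxf : (x : M4) = a • (1 + vecMulVec v φ)) :
    ∃ c : F, (x : M4) = c • (1 : M4) := by
  have hN : ∀ g ∈ R, x * g * x⁻¹ ∈ R := fun g hg => (Subgroup.mem_normalizer_iff.1 hx g).1 hg
  have hN' : ∀ g ∈ R, x⁻¹ * g * x ∈ R := fun g hg => by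
    have := (Subgroup.mem_normalizer_iff.1 (Subgroup.inv_mem _ hx) g).1 hg
    rwa [inv_inv] at this
  have ha : a ≠ 0 := fun e => x.ne_zero (by rw [hxf, e, zero_smul])
  have hcomm : ∀ g ∈ R, (g : M4) * (x * g * x⁻¹ : G4) = ((x * g * x⁻¹ : G4) : M4) * g := by
    intro g hg
    by_contra hne
    obtain ⟨s, -, hs2, k, hk, hsg⟩ := D.involution hg
    have han := (D.commute_or h2 hg (hN g hg)).1 hne
    refine Minus.false_of_hyperplane h2 (by simp) (x := 1 + vecMulVec v φ)
      (x' := a • ((x⁻¹ : G4) : M4)) (s := (s : M4)) ?_ rfl hs2 ?_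
    · rw [smul_mul_assoc, ← mul_smul_comm, ← hxf, Units.inv_mul]
    · have e : (1 + vecMulVec v φ) * (s : M4) * (a • ((x⁻¹ : G4) : M4)) = k • ((x * g * x⁻¹ : G4) : M4) := by
        rw [Units.val_mul, Units.val_mul, hxf, hsg]
        simp only [smul_mul_assoc, mul_smul_comm, smul_smul, mul_comm]
      rw [e, hsg]
      simp only [smul_mul_assoc, mul_smul_comm, smul_smul]
      rw [han, smul_neg, neg_neg]
  have hall : ∀ g ∈ R, (x : M4) * g = (g : M4) * x := by
    intro g hg
    obtain ⟨p₁, hp₁⟩ : ∃ p₁, p₁ = x * g * x⁻¹ := ⟨_, rfl⟩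
    have hpR : p₁ ∈ R := hp₁ ▸ hN g hg
    obtain ⟨q₁, hq₁⟩ : ∃ q₁, q₁ = x⁻¹ * g * x := ⟨_, rfl⟩
    have key : ∀ h ∈ R, ((h : M4) * p₁ = (p₁ : M4) * h ↔ (h : M4) * q₁ = (q₁ : M4) * h) := by
      intro h hh
      have e1 := hcomm (g * h) (Subgroup.mul_mem _ hg hh)
      have eh := hcomm h hh
      have eg := hcomm g hg
      rw [← hp₁] at eg
      set h' := x * h * x⁻¹ with hh'
      rw [show x * (g * h) * x⁻¹ = p₁ * h' by rw [hp₁, hh']; group] at e1
      have hconj : ((g : M4) * h' = (h' : M4) * g) ↔ ((h : M4) * q₁ = (q₁ : M4) * h) := by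
        rw [← Units.val_mul, ← Units.val_mul, ← Units.val_mul, ← Units.val_mul]
        constructor
        · intro e
          refine congrArg Units.val ?_
          calc h * q₁ = x⁻¹ * (h' * g) * x := by rw [hq₁, hh']; group
            _ = x⁻¹ * (g * h') * x := by rw [Units.ext e]
            _ = q₁ * h := by rw [hq₁, hh']; group
        · intro e
          refine congrArg Units.val ?_
          calc g * h' = x * (q₁ * h) * x⁻¹ := by rw [hq₁, hh']; group
            _ = x * (h * q₁) * x⁻¹ := by rw [Units.ext e]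
            _ = h' * g := by rw [hq₁, hh']; group
      rw [← hconj]
      simp only [Units.val_mul, mul_assoc] at e1
      constructor
      · intro e
        rw [← mul_assoc (h : M4) (p₁ : M4), e, mul_assoc (p₁ : M4), eh, ← mul_assoc (g : M4) (p₁ : M4), eg,
          mul_assoc (p₁ : M4)] at e1
        have e2 := p₁.isUnit.mul_left_cancel e1
        rw [← mul_assoc, ← mul_assoc] at e2
        exact h.isUnit.mul_right_cancel e2
      · intro e
        by_contra hne
        have han := (D.commute_or h2 hh hpR).1 hne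
        rw [← mul_assoc (h : M4) (p₁ : M4), han, neg_mul, mul_assoc (p₁ : M4), eh, mul_neg,
          ← mul_assoc (g : M4) (p₁ : M4), eg, mul_assoc (p₁ : M4), ← mul_neg] at e1
        have e2 := p₁.isUnit.mul_left_cancel e1
        rw [← mul_assoc, ← mul_assoc, ← e, ← neg_mul] at e2
        have e3 := h.isUnit.mul_right_cancel e2
        exact Minus.eq_neg_self_false (g := g * h') h2 e3.symm
    obtain ⟨d, hd⟩ := D.sch ((p₁ * q₁⁻¹ : G4) : M4) fun h hh => by
      have hq : q₁ ∈ R := hq₁ ▸ hN' g hg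
      rw [← Units.val_mul, ← Units.val_mul]
      by_cases hc : (h : M4) * q₁ = (q₁ : M4) * h
      · have hc' := (key h hh).2 hc
        rw [← Units.val_mul, ← Units.val_mul] at hc hc'
        have h1 : Commute h q₁ := Units.ext hc
        have h2' : Commute h p₁ := Units.ext hc'
        exact congrArg Units.val (h2'.mul_right h1.inv_right).symm.eq
      · have hp := (D.commute_or h2 hh hpR).1 fun e => hc ((key h hh).1 e)
        have hq' := (D.commute_or h2 hh hq).1 hc
        rw [Units.val_mul, Units.val_mul, Units.val_mul]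
        have hq'' : ((q₁⁻¹ : G4) : M4) * h = -((h : M4) * (q₁⁻¹ : G4)) := by
          refine q₁.isUnit.mul_left_cancel ?_
          rw [← mul_assoc, Units.mul_inv, one_mul, mul_neg, ← mul_assoc,
            show (q₁ : M4) * h = -((h : M4) * q₁) by rw [hq', neg_neg], neg_mul, mul_assoc, Units.mul_inv, mul_one,
            neg_neg]
        rw [mul_assoc, hq'', mul_neg, ← mul_assoc, show (p₁ : M4) * h = -((h : M4) * p₁) by rw [hp, neg_neg],
          neg_mul, neg_neg, mul_assoc, Units.val_mul]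
    have hx2 : ((x ^ 2 * g * (x ^ 2)⁻¹ : G4) : M4) = d • (g : M4) := by
      have e : x ^ 2 * g * (x ^ 2)⁻¹ = x * (p₁ * q₁⁻¹ * q₁) * x⁻¹ := by rw [hp₁, pow_two]; group
      rw [e, Units.val_mul, Units.val_mul x, Units.val_mul (p₁ * q₁⁻¹), hd, smul_mul_assoc, one_mul, mul_smul_comm,
        smul_mul_assoc, ← Units.val_mul, ← Units.val_mul]
      congr 2
      rw [hq₁]; group
    have hd1 := D.eq_one_of_conj_eq_smul (Subgroup.pow_mem _ hx 2) hg hr
      (by rw [← pow_mul, mul_comm, pow_mul, hxr, one_pow]) hx2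
    rw [hd1, one_smul] at hx2
    have hc : Commute (x ^ 2) g := mul_inv_eq_iff_eq_mul.1 (Units.ext hx2)
    obtain ⟨n, hn⟩ := exists_pow_eq_self_of_coprime
      ((Nat.coprime_two_left.2 hr).coprime_dvd_right (orderOf_dvd_of_pow_eq_one hxr))
    have := hc.pow_left n
    rw [hn] at this
    exact congrArg Units.val this.eq
  exact D.sch _ hall

/-- Fixed cosets of a normalising element. -/
theorem Data.trivial_of_all_fixed (D : Data i R) {x : G4} (hx : x ∈ Cfsg.Geo.subgroupNormalizer R)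
    {r : ℕ} (hr : Odd r) (hxr : x ^ r = 1)
    (h : ∀ g ∈ R, ∃ c : F, ((x * g * x⁻¹ : G4) : M4) = c • (g : M4)) : ∃ c : F, (x : M4) = c • (1 : M4) := by
  refine D.sch _ fun g hg => ?_
  obtain ⟨c, hc⟩ := h g hg
  rw [D.eq_one_of_conj_eq_smul hx hg hr hxr hc, one_smul] at hc
  exact congrArg Units.val (mul_inv_eq_iff_eq_mul.1 (Units.ext hc))

/-- A normalising element of prime order at least five: either scalar, or of order five and fixing no coset. -/
theorem Data.big (D : Data i R) (h2 : (2 : F) ≠ 0) {x : G4} (hx : x ∈ Cfsg.Geo.subgroupNormalizer R)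
    {r : ℕ} [Fact r.Prime] (hr : 5 ≤ r) (hxr : x ^ r = 1) (hns : ∀ c : F, (x : M4) ≠ c • (1 : M4)) :
    r = 5 ∧ ∀ g ∈ R, (∃ c : F, ((x * g * x⁻¹ : G4) : M4) = c • (g : M4)) → ∃ c : F, (g : M4) = c • (1 : M4) := by
  classical
  haveI : Finite R := Nat.finite_of_card_ne_zero (by rw [D.card]; norm_num)
  have hodd : Odd r := ((Fact.out : r.Prime).eq_two_or_odd').resolve_left (by omega)
  let φ : MulAut R :=
    { toFun := fun g => ⟨x * g * x⁻¹, (Subgroup.mem_normalizer_iff.1 hx g).1 g.2⟩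
      invFun := fun g => ⟨x⁻¹ * g * x, by
        have := (Subgroup.mem_normalizer_iff.1 (Subgroup.inv_mem _ hx) g).1 g.2
        rwa [inv_inv] at this⟩
      left_inv := fun g => Subtype.ext (by simp [mul_assoc])
      right_inv := fun g => Subtype.ext (by simp [mul_assoc])
      map_mul' := fun g h => Subtype.ext (by simp [mul_assoc]) }
  let Q := R ⧸ Subgroup.center R
  haveI := Fintype.ofFinite Q
  let π : MulAut Q := H91.MinusFive.act R φ
  let πe : Equiv.Perm Q := π.toEquiv
  have hπ : ∀ g : R, π (g : Q) = ((φ g : R) : Q) := fun g => rfl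
  have hπr : (πe) ^ r ^ 1 = 1 := by
    rw [pow_one]
    have hk : ∀ (k : ℕ) (g : R), ∃ h : R, (h : G4) = x ^ k * g * (x ^ k)⁻¹ ∧
        (πe ^ k) (g : Q) = (h : Q) := by
      intro k g
      induction k with
      | zero => exact ⟨g, by simp, rfl⟩
      | succ k ih =>
        obtain ⟨h, hh, he⟩ := ih
        refine ⟨φ h, ?_, ?_⟩
        · show x * (h : G4) * x⁻¹ = _
          rw [hh, pow_succ']; group
        · rw [pow_succ', Equiv.Perm.mul_apply, he]; exact hπ h
    refine Equiv.ext fun q => ?_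
    obtain ⟨g, rfl⟩ := QuotientGroup.mk_surjective q
    obtain ⟨h, hh, he⟩ := hk r g
    rw [he, Equiv.Perm.one_apply]
    congr 1
    exact Subtype.ext (by rw [hh, hxr]; simp)
  have hfix : ∀ g : R, π (g : Q) = (g : Q) ↔ ∃ c : F, ((x * g * x⁻¹ : G4) : M4) = c • ((g : G4) : M4) := by
    intro g
    rw [hπ, eq_comm, QuotientGroup.eq, Subgroup.mem_center_iff]
    constructor
    · intro h
      obtain ⟨c, hc⟩ := D.sch (((g⁻¹ * φ g : R) : G4) : M4) fun k hk =>
        congrArg (fun w : R => ((w : G4) : M4)) (h ⟨k, hk⟩).symm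
      refine ⟨c, ?_⟩
      have e : (x * g * x⁻¹ : G4) = (g : G4) * ((g⁻¹ * φ g : R) : G4) := by simp [φ]
      rw [e, Units.val_mul, hc, mul_smul_comm, mul_one]
    · rintro ⟨c, hc⟩ k
      have e : (((g⁻¹ * φ g : R) : G4) : M4) = c • (1 : M4) := by
        show (((g : G4)⁻¹ * (x * g * x⁻¹) : G4) : M4) = _
        rw [Units.val_mul, hc, mul_smul_comm, Units.inv_mul]
      refine Subtype.ext (Units.ext ?_)
      show ((k : G4) : M4) * (((g⁻¹ * φ g : R) : G4) : M4) = (((g⁻¹ * φ g : R) : G4) : M4) * (k : G4)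
      rw [e, smul_mul_assoc, one_mul, mul_smul_comm, mul_one]
  let C : Subgroup Q :=
    { carrier := {q | π q = q}
      mul_mem' := fun {a b} ha hb => by show π (a * b) = a * b; rw [map_mul, ha, hb]
      one_mem' := map_one π
      inv_mem' := fun {a} ha => by show π a⁻¹ = a⁻¹; rw [map_inv, ha] }
  have hQ : Fintype.card Q = 16 := by
    have h := (Subgroup.center R).card_mul_index
    rw [D.cardZ, D.card] at h
    rw [← Nat.card_eq_fintype_card]
    change 4 * Nat.card Q = 64 at h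
    omega
  have hdvd : Nat.card C ∣ 2 ^ 4 := by
    have := C.card_subgroup_dvd_card
    rwa [Nat.card_eq_fintype_card (α := Q), hQ] at this
  have hmod : 16 % r = Nat.card C % r := by
    have h := Equiv.Perm.card_fixedPoints_modEq (p := r) (n := 1) (f := endHom Q πe)
      (by rw [← map_pow, hπr, map_one])
    rw [hQ] at h
    simp only [← Nat.card_eq_fintype_card] at h
    exact h
  obtain ⟨k, hk, hCk⟩ := (Nat.dvd_prime_pow Nat.prime_two).1 hdvd
  have hk4 : k ≠ 4 := by
    intro e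
    subst e
    have htop : C = ⊤ := Subgroup.eq_top_of_card_eq C (by rw [hCk, Nat.card_eq_fintype_card, hQ]; norm_num)
    obtain ⟨c, hc⟩ := D.trivial_of_all_fixed hx hodd hxr fun g hg =>
      (hfix ⟨g, hg⟩).1 (by
        have : ((⟨g, hg⟩ : R) : Q) ∈ C := by rw [htop]; exact Subgroup.mem_top _
        exact this)
    exact hns c hc
  rw [hCk] at hmod
  have hrd : r ∣ 16 - 2 ^ k := by
    have : 2 ^ k ≤ 16 := by interval_cases k <;> norm_num
    exact (Nat.modEq_iff_dvd' this).1 hmod.symm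
  have hcases : (r = 5 ∧ k = 0) ∨ (r = 7 ∧ k = 1) := by
    have hp : r.Prime := Fact.out
    have : r ≤ 15 := (Nat.le_of_dvd (by interval_cases k <;> first | omega | norm_num) hrd).trans
      (by have := Nat.one_le_two_pow (n := k); omega)
    interval_cases k <;> interval_cases r <;> first | omega | (exfalso; norm_num at hp; done) | (exfalso; norm_num at hrd; done)
  rcases hcases with ⟨h5, hk0⟩ | ⟨h7, hk1⟩
  · subst hk0
    refine ⟨h5, fun g hg hc => ?_⟩
    have hmem : ((⟨g, hg⟩ : R) : Q) ∈ C := (hfix ⟨g, hg⟩).2 hc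
    rw [Subgroup.eq_bot_of_card_eq C (by rw [hCk]; norm_num), Subgroup.mem_bot, QuotientGroup.eq_one_iff,
      Subgroup.mem_center_iff] at hmem
    exact D.sch _ fun k hk => congrArg (fun w : R => ((w : G4) : M4)) (hmem ⟨k, hk⟩).symm
  · exfalso
    subst hk1 h7
    -- the cosets commuting with the fixed one: eight of them
    obtain ⟨v, hvC, hv1⟩ := (Subgroup.bot_or_exists_ne_one C).resolve_left fun h => by
      rw [h, Subgroup.card_bot] at hCk; norm_num at hCk
    obtain ⟨v₀, rfl⟩ := QuotientGroup.mk_surjective v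
    obtain ⟨c, hc⟩ := (hfix v₀).1 hvC
    have hvns : ∀ c : F, ((v₀ : G4) : M4) ≠ c • (1 : M4) := fun c hc => hv1 ((QuotientGroup.eq_one_iff _).2
      (Subgroup.mem_center_iff.2 fun k => Subtype.ext (Units.ext (by simp [hc]))))
    rw [D.eq_one_of_conj_eq_smul hx v₀.2 hodd hxr hc, one_smul] at hc
    have hxv : Commute x (v₀ : G4) := mul_inv_eq_iff_eq_mul.1 (Units.ext hc)
    let Cv : Subgroup R := Subgroup.centralizer ({v₀} : Set R)
    have hcv : ∀ g : R, g ∈ Cv ↔ ((g : G4) : M4) * (v₀ : G4) = ((v₀ : G4) : M4) * (g : G4) := fun g => by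
      rw [Subgroup.mem_centralizer_singleton_iff, Subtype.ext_iff, Units.ext_iff]
      simp only [Subgroup.coe_mul, Units.val_mul]
    have hcidx : Cv.index = 2 := by
      obtain ⟨s, hs, -, hsa⟩ := D.exists_anti h2 v₀.2 hvns
      have hsn : ¬ ((s : M4) * (v₀ : G4) = ((v₀ : G4) : M4) * s) := by
        rw [D.commute_or h2 hs v₀.2, hsa, neg_neg]
      refine Subgroup.index_eq_two_iff.2 ⟨⟨s, hs⟩, fun g => ?_⟩
      rw [hcv, hcv]
      have hv₀s := (D.commute_or h2 hs v₀.2).1 hsn
      by_cases hgc : ((g : G4) : M4) * (v₀ : G4) = ((v₀ : G4) : M4) * (g : G4)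
      · refine Or.inr ⟨hgc, fun e => hsn ?_⟩
        have e' : ((g : G4) : M4) * ((s : M4) * (v₀ : G4)) = ((v₀ : G4) : M4) * ((g : G4) : M4) * s := by
          rw [← mul_assoc, mul_assoc ((v₀ : G4) : M4)]
          simpa [Subgroup.coe_mul, Units.val_mul] using e
        rw [← hgc, mul_assoc] at e'
        exact (g : G4).isUnit.mul_left_cancel e'
      · refine Or.inl ⟨?_, hgc⟩
        have hga := (D.commute_or h2 g.2 v₀.2).1 hgc
        simp only [Subgroup.coe_mul, Units.val_mul]
        rw [mul_assoc, hv₀s, mul_neg, ← mul_assoc, hga, neg_mul, neg_neg, mul_assoc]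
    let W : Subgroup Q := Cv.map (QuotientGroup.mk' (Subgroup.center R))
    have hWc : Nat.card W = 8 := by
      have hle : Subgroup.center R ≤ Cv := Subgroup.center_le_centralizer _
      have hker : (QuotientGroup.mk' (Subgroup.center R)).ker ≤ Cv := by rwa [QuotientGroup.ker_mk']
      have h1 : W.index = 2 := by
        rw [Subgroup.index_map_eq _ (QuotientGroup.mk'_surjective _) hker, hcidx]
      have := W.card_mul_index
      rw [h1, Nat.card_eq_fintype_card (α := Q), hQ] at this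
      omega
    have hWinv : ∀ q, q ∈ W → πe q ∈ W := by
      rintro _ ⟨g, hg, rfl⟩
      refine ⟨φ g, ?_, (hπ g).symm⟩
      have hgv : Commute (g : G4) (v₀ : G4) := Units.ext ((hcv g).1 hg)
      refine (hcv _).2 ?_
      rw [← Units.val_mul, ← Units.val_mul]
      refine congrArg Units.val ?_
      show x * g * x⁻¹ * (v₀ : G4) = (v₀ : G4) * (x * g * x⁻¹)
      exact (((hxv.mul_left hgv).mul_left hxv.inv_left)).eq
    have hiff : ∀ q, πe q ∈ W ↔ q ∈ W := fun q => by
      refine ⟨fun h => ?_, hWinv q⟩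
      obtain ⟨⟨q', hq'⟩, e⟩ := ((Finite.injective_iff_surjective (f := fun q : W => (⟨πe q, hWinv q q.2⟩ : W))).1
        fun a b e => Subtype.ext (πe.injective (congrArg Subtype.val e))) ⟨_, h⟩
      exact πe.injective (congrArg Subtype.val e) ▸ hq'
    let σ : Equiv.Perm W := πe.subtypePerm hiff
    haveI := Fintype.ofFinite W
    have hσ : σ ^ 7 ^ 1 = 1 := by
      rw [pow_one] at hπr ⊢
      refine Equiv.ext fun q => Subtype.ext ?_
      rw [Equiv.Perm.subtypePerm_pow]
      simp [hπr]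
    have h8 := Equiv.Perm.card_fixedPoints_modEq (p := 7) (n := 1) (f := endHom W σ)
      (by rw [← map_pow, hσ, map_one])
    rw [← Nat.card_eq_fintype_card, hWc] at h8
    have hfp : Fintype.card (Function.fixedPoints (endHom W σ)) ≤ 2 := by
      rw [← Nat.card_eq_fintype_card]
      refine le_trans (Nat.card_le_card_of_injective
        (fun q => (⟨((q : W) : Q), congrArg Subtype.val (show σ q.1 = q.1 from q.2)⟩ : C)) ?_) (by rw [hCk]; norm_num)
      intro a b e
      exact Subtype.ext (Subtype.ext (congrArg (fun q : C => (q : Q)) e))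
    have h1 : 8 % 7 = Fintype.card (Function.fixedPoints (endHom W σ)) % 7 := by
      show Nat.ModEq 7 8 _
      convert h8
    have h2' : 1 < Fintype.card (Function.fixedPoints (endHom W σ)) := by
      rw [Fintype.one_lt_card_iff]
      refine ⟨⟨⟨1, W.one_mem⟩, Subtype.ext (map_one π)⟩,
        ⟨⟨(v₀ : Q), ⟨v₀, (hcv _).2 rfl, rfl⟩⟩, Subtype.ext hvC⟩, fun e => hv1 ?_⟩
      exact (congrArg (fun q : Function.fixedPoints (endHom W σ) => ((q.1 : W) : Q)) e).symm
    omega

/-- The product of the traces of an element of order five and of its inverse. -/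
theorem Data.trace_mul_trace (D : Data i R) (h2 : (2 : F) ≠ 0) {x : G4} (hx : x ∈ Cfsg.Geo.subgroupNormalizer R)
    (hfix : ∀ g ∈ R, (∃ c : F, ((x * g * x⁻¹ : G4) : M4) = c • (g : M4)) → ∃ c : F, (g : M4) = c • (1 : M4)) :
    (x : M4).trace * ((x⁻¹ : G4) : M4).trace = 1 := by
  classical
  haveI : Finite R := Nat.finite_of_card_ne_zero (by rw [D.card]; norm_num)
  haveI := Fintype.ofFinite R
  set S : M4 := ∑ g : R, ((g : G4) : M4) * x * ((g : G4)⁻¹ : G4) with hS
  obtain ⟨c, hc⟩ := D.sch S fun h hh => by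
    rw [hS, Finset.sum_mul, Finset.mul_sum,
      ← Equiv.sum_comp (Equiv.mulLeft (⟨h, hh⟩ : R)) (fun g : R => ((g : G4) : M4) * x * ((g : G4)⁻¹ : G4) * h)]
    refine Finset.sum_congr rfl fun g _ => ?_
    simp [mul_assoc]
  have h64 : ((Fintype.card R : ℕ) : F) = 64 := by
    rw [← Nat.card_eq_fintype_card, D.card]; norm_num
  have t1 : S.trace = 64 * (x : M4).trace := by
    rw [hS, trace_sum]
    simp only [trace_mul_cycle, Units.inv_mul, one_mul]
    rw [Finset.sum_const, Finset.card_univ, nsmul_eq_mul, h64]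
  have hterm : ∀ g : R, (((g : G4) : M4) * x * ((g : G4)⁻¹ : G4) * (x⁻¹ : G4)).trace =
      if g ∈ Subgroup.center R then 4 else 0 := by
    intro g
    have hmem : (g : G4) * (x * (g : G4)⁻¹ * x⁻¹) ∈ R :=
      Subgroup.mul_mem _ g.2 ((Subgroup.mem_normalizer_iff.1 hx _).1 (Subgroup.inv_mem _ g.2))
    have heq : ((g : G4) : M4) * x * ((g : G4)⁻¹ : G4) * (x⁻¹ : G4) =
        (((g : G4) * (x * (g : G4)⁻¹ * x⁻¹) : G4) : M4) := by simp [mul_assoc]
    rw [heq]
    split_ifs with hgc
    · have : (g : G4) * (x * (g : G4)⁻¹ * x⁻¹) = 1 := by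
        obtain ⟨c', hc'⟩ := D.sch ((g : G4) : M4) fun h hh =>
          congrArg (fun w : R => ((w : G4) : M4)) (Subgroup.mem_center_iff.1 hgc ⟨h, hh⟩).symm
        have hcom : Commute x (g : G4) := Units.ext (by
          rw [Units.val_mul, Units.val_mul, hc', mul_smul_comm, smul_mul_assoc, mul_one, one_mul])
        rw [hcom.inv_right.eq]; group
      rw [this, Units.val_one, trace_one]; simp
    · refine D.trace_eq_zero h2 hmem fun d hd => hgc ?_
      obtain ⟨c', hc'⟩ := hfix _ g.2 (by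
        refine ⟨d⁻¹, ?_⟩
        have hd0 : d ≠ 0 := fun e => (_ : G4).ne_zero (hd.trans (by rw [e, zero_smul]))
        have e' : ((g : G4) : M4) = d • ((x * g * x⁻¹ : G4) : M4) := by
          have e : (g : G4) = (g : G4) * (x * (g : G4)⁻¹ * x⁻¹) * (x * g * x⁻¹) := by group
          conv_lhs => rw [e, Units.val_mul, hd, smul_mul_assoc, one_mul]
        rw [eq_inv_smul_iff₀ hd0, ← e'])
      exact Subgroup.mem_center_iff.2 fun k => Subtype.ext (Units.ext (by simp [hc']))
  have t2 : (S * (x⁻¹ : G4)).trace = 16 := by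
    rw [hS, Finset.sum_mul, trace_sum, Finset.sum_congr rfl (fun g _ => hterm g), Finset.sum_ite,
      Finset.sum_const_zero, add_zero, Finset.sum_const]
    have : (Finset.univ.filter fun g : R => g ∈ Subgroup.center R).card = 4 := by
      rw [← Fintype.card_subtype, ← Nat.card_eq_fintype_card]
      exact D.cardZ
    rw [this]; norm_num
  rw [hc, trace_smul, trace_one] at t1
  rw [hc, smul_mul_assoc, one_mul, trace_smul] at t2
  simp at t1 t2
  have h16 : (16 : F) ≠ 0 := by
    rw [show (16 : F) = 2 * 2 * (2 * 2) by norm_num]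
    exact mul_ne_zero (mul_ne_zero h2 h2) (mul_ne_zero h2 h2)
  have h4 : (4 : F) ≠ 0 := by rw [show (4 : F) = 2 * 2 by norm_num]; exact mul_ne_zero h2 h2
  have hc16 : c = 16 * (x : M4).trace := mul_right_cancel₀ h4 (by linear_combination t1)
  rw [hc16] at t2
  refine mul_left_cancel₀ h16 ?_
  rw [Matrix.coe_units_inv]
  linear_combination t2

end Cfsg.Agent.H66.Four
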