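/-
Explicit elements normalising a group `4 ∘ 2^(1+4)` in dimension four.
-/
import Cfsg.Agent.H66.FourNormalizer
import Mathlib

set_option autoImplicit false

open Matrix

namespace Cfsg.Agent.H66.Four

open Cfsg.Agent.H66.Minus (IsFrame)

variable {F : Type*} [Field F]

local notation "M4" => Matrix (Fin 4) (Fin 4) F
local notation "G4" => GL (Fin 4) F

/-- The three-cycle sum of an anticommuting triple. -/
def triple (a b c : M4) : M4 := a * b + b * c + c * a

/-- An anticommuting triple of involutions. -/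
structure IsTriple (a b c : M4) : Prop where
  sqa : a * a = 1
  sqb : b * b = 1
  sqc : c * c = 1
  ab : b * a = -(a * b)
  bc : c * b = -(b * c)
  ca : a * c = -(c * a)

theorem IsTriple.cyc {a b c : M4} (h : IsTriple a b c) : IsTriple b c a :=
  ⟨h.sqb, h.sqc, h.sqa, h.bc, h.ca, h.ab⟩

theorem triple_cyc (a b c : M4) : triple b c a = triple a b c := by
  unfold triple; abel

theorem IsTriple.sq {a b c : M4} (h : IsTriple a b c) : triple a b c * triple a b c = (-3 : F) • 1 := by
  have r1 : ∀ X, a * (a * X) = X := fun X => by rw [← mul_assoc, h.sqa, one_mul]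
  have r2 : ∀ X, b * (b * X) = X := fun X => by rw [← mul_assoc, h.sqb, one_mul]
  have r3 : ∀ X, c * (c * X) = X := fun X => by rw [← mul_assoc, h.sqc, one_mul]
  have r4 : ∀ X, b * (a * X) = -(a * (b * X)) := fun X => by rw [← mul_assoc, h.ab, neg_mul, mul_assoc]
  have r5 : ∀ X, c * (b * X) = -(b * (c * X)) := fun X => by rw [← mul_assoc, h.bc, neg_mul, mul_assoc]
  have e : c * a = -(a * c) := by rw [h.ca, neg_neg]
  have r6 : ∀ X, c * (a * X) = -(a * (c * X)) := fun X => by rw [← mul_assoc, e, neg_mul, mul_assoc]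
  simp only [triple, add_mul, mul_add, mul_assoc, r1, r2, r3, r4, r5, r6, h.sqa, h.sqb, h.sqc, h.ab, h.bc, e,
    mul_neg, neg_mul, neg_neg, mul_one]
  rw [neg_smul, show (3 : F) = 1 + 1 + 1 by norm_num, add_smul, add_smul, one_smul]
  abel

/-- The element of order three cycling a triple. -/
def rot (a b c : M4) : M4 := (2 : F)⁻¹ • (triple a b c - 1)

theorem IsTriple.rot_pow (h2 : (2 : F) ≠ 0) {a b c : M4} (h : IsTriple a b c) :
    rot a b c * rot a b c * rot a b c = 1 := by
  unfold rot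
  set A := triple a b c
  have hA : A * A = (-3 : F) • 1 := h.sq
  have e2 : ((2 : F)⁻¹ • (A - 1)) * ((2 : F)⁻¹ • (A - 1)) = (2 : F)⁻¹ • (-A - 1) := by
    rw [smul_mul_smul, mul_sub, sub_mul, hA, mul_one, one_mul, show (-3 : F) • (1 : M4) - A - (A - 1) =
      (2 : F) • (-A - 1) by rw [neg_smul, show (3 : F) = 2 + 1 by norm_num, add_smul, one_smul, two_smul, two_smul]; abel,
      smul_smul]
    congr 1
    field_simp
  rw [e2, smul_mul_smul, mul_sub, sub_mul, sub_mul, neg_mul, hA, mul_one, mul_one, one_mul,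
    show -((-3 : F) • (1 : M4)) - A - (-A - 1) = (4 : F) • (1 : M4) by
      rw [neg_smul, neg_neg, show (4 : F) = 3 + 1 by norm_num, add_smul, one_smul]; abel,
    smul_smul, show (2 : F)⁻¹ * (2 : F)⁻¹ * 4 = 1 by field_simp; norm_num, one_smul]

theorem IsTriple.rot_conj {a b c : M4} (h : IsTriple a b c) : rot a b c * a = b * rot a b c := by
  have r2 : ∀ X, b * (b * X) = X := fun X => by rw [← mul_assoc, h.sqb, one_mul]
  have r4 : ∀ X, b * (a * X) = -(a * (b * X)) := fun X => by rw [← mul_assoc, h.ab, neg_mul, mul_assoc]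
  have r1 : ∀ X, a * (a * X) = X := fun X => by rw [← mul_assoc, h.sqa, one_mul]
  have e : c * a = -(a * c) := by rw [h.ca, neg_neg]
  simp only [rot, smul_mul_assoc, mul_smul_comm, triple, sub_mul, mul_sub, add_mul, mul_add, mul_assoc, one_mul,
    mul_one, h.sqa, h.sqb, r1, r2, r4, h.ab, e, mul_neg, neg_mul, neg_neg]
  congr 1
  abel

theorem IsTriple.rot_comm {a b c : M4} {u : M4} (hab : a * b * u = u * (a * b))
    (hbc : b * c * u = u * (b * c)) (hca : c * a * u = u * (c * a)) : rot a b c * u = u * rot a b c := by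
  simp only [rot, smul_mul_assoc, mul_smul_comm, triple, sub_mul, mul_sub, add_mul, mul_add, one_mul, mul_one]
  rw [hab, hbc, hca]

theorem trace_zero_of_anti (h2 : (2 : F) ≠ 0) {w s : M4} (hs : s * s = 1) (h : w * s = -(s * w)) :
    w.trace = 0 := by
  have h' : w.trace = -w.trace := by
    calc w.trace = (s * (w * s)).trace := by rw [trace_mul_comm, mul_assoc, hs, mul_one]
      _ = (s * (-(s * w))).trace := by rw [h]
      _ = -w.trace := by rw [mul_neg, trace_neg, ← mul_assoc, hs, one_mul]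
  linear_combination (norm := (field_simp; ring)) (1 / 2 : F) * h'

theorem trace_three (h2 : (2 : F) ≠ 0) {t : Fin 5 → M4} (ht : IsFrame t) {a b c d : Fin 5} (hda : d ≠ a) (hdb : d ≠ b)
    (hdc : d ≠ c) : (t a * t b * t c).trace = 0 := by
  refine trace_zero_of_anti h2 (ht.sq d) ?_
  calc t a * t b * t c * t d = t a * (t b * (t c * t d)) := by simp only [mul_assoc]
    _ = -(t a * (t b * t d * t c)) := by rw [ht.anti c d hdc.symm]; simp only [mul_neg, mul_assoc]
    _ = t a * t d * t b * t c := by rw [ht.anti b d hdb.symm]; simp only [mul_neg, neg_neg, neg_mul, mul_assoc]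
    _ = -(t d * (t a * t b * t c)) := by rw [ht.anti a d hda.symm]; simp only [neg_mul, mul_assoc]

variable {i : F} {R : Subgroup (GL (Fin 4) F)}

theorem Data.two_ne_pow (h2 : (2 : F) ≠ 0) : (4 : F) ≠ 0 := by
  rw [show (4 : F) = 2 * 2 by norm_num]; exact mul_ne_zero h2 h2

theorem IsTriple.exists_unit (h2 : (2 : F) ≠ 0) {a b c : M4} (h : IsTriple a b c) :
    ∃ y : G4, (y : M4) = rot a b c ∧ y ^ 3 = 1 := by
  have hr := h.rot_pow h2
  exact ⟨⟨rot a b c, rot a b c * rot a b c, by rw [← mul_assoc, hr], hr⟩, rfl,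
    Units.ext (by rw [Units.val_pow_eq_pow_val, pow_succ, pow_two, hr]; rfl)⟩

/-- An adjoint map for which `i` is skew. -/
structure IsAdjoint (i : F) (J : M4 → M4) : Prop where
  one : J 1 = 1
  mul : ∀ A B, J (A * B) = J B * J A
  add : ∀ A B, J (A + B) = J A + J B
  half : ∀ A, J ((2 : F)⁻¹ • A) = (2 : F)⁻¹ • J A
  skew : ∀ A, J (i • A) = -(i • J A)

theorem IsAdjoint.sub {J : M4 → M4} (hJ : IsAdjoint i J) (A B : M4) : J (A - B) = J A - J B := by
  have h := hJ.add (A - B) B
  rw [sub_add_cancel] at h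
  rw [h]; abel

theorem hermitian_of_unitary {J : M4 → M4} {g : M4} (hg : g * g = 1) (hu : J g * g = 1) : J g = g := by
  calc J g = J g * g * g := by rw [mul_assoc, hg, mul_one]
    _ = g := by rw [hu, one_mul]

/-- The rotation of a hermitian triple is unitary. -/
theorem IsTriple.rot_unitary (h2 : (2 : F) ≠ 0) {a b c : M4} (h : IsTriple a b c) {J : M4 → M4}
    (hJ : IsAdjoint i J) (ha : J a = a) (hb : J b = b) (hc : J c = c) : J (rot a b c) * rot a b c = 1 := by
  have hJA : J (triple a b c) = -triple a b c := by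
    unfold triple
    rw [hJ.add, hJ.add, hJ.mul, hJ.mul, hJ.mul, ha, hb, hc, h.ab, h.bc, h.ca]
    abel
  have hA : triple a b c * triple a b c = (-3 : F) • 1 := h.sq
  rw [rot, hJ.half, hJ.sub, hJA, hJ.one, smul_mul_smul]
  set A := triple a b c
  rw [sub_mul, mul_sub, mul_sub, neg_mul, hA, mul_one, mul_one, one_mul,
    show -((-3 : F) • (1 : M4)) - -A - (A - 1) = (4 : F) • (1 : M4) by
      rw [neg_smul, neg_neg, show (4 : F) = 3 + 1 by norm_num, add_smul, one_smul]; abel,
    smul_smul, show (2 : F)⁻¹ * (2 : F)⁻¹ * 4 = 1 by field_simp; norm_num, one_smul]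

/-- The two kinds of elements of order three in the normaliser, preserving every form the group preserves. -/
theorem Data.exists_three_adjoint (D : Data i R) (h2 : (2 : F) ≠ 0) :
    (∃ y ∈ Cfsg.Geo.subgroupNormalizer R, y ^ 3 = 1 ∧ (y : M4).trace = -2 ∧
      ∀ J : M4 → M4, IsAdjoint i J → (∀ g ∈ R, J (g : M4) * g = 1) → J (y : M4) * y = 1) ∧
    (∃ y ∈ Cfsg.Geo.subgroupNormalizer R, y ^ 3 = 1 ∧ (y : M4).trace = 1 ∧
      ∀ J : M4 → M4, IsAdjoint i J → (∀ g ∈ R, J (g : M4) * g = 1) → J (y : M4) * y = 1) := by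
  obtain ⟨t, htR, ht, hgen⟩ := D.exists_frame h2
  obtain ⟨u, huR, hu⟩ := D.imem
  set T : Fin 5 → M4 := fun j => (t j : M4)
  have anti : ∀ j k, j ≠ k → T k * T j = -(T j * T k) := fun j k h => ht.anti k j h.symm
  have h1 : IsTriple (T 0) (T 1) (T 2) :=
    ⟨ht.sq 0, ht.sq 1, ht.sq 2, anti 0 1 (by decide), anti 1 2 (by decide), anti 2 0 (by decide)⟩
  set s : M4 := i • (T 3 * T 4) with hs
  have hss : s * s = 1 := by
    rw [hs, smul_mul_smul, D.sqi, mul_assoc, ← mul_assoc (T 4), anti 3 4 (by decide), neg_mul, mul_assoc, ht.sq,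
      mul_one, mul_neg, ht.sq, smul_neg, neg_one_smul, neg_neg]
  have hs3 : T 3 * s = -(s * T 3) := by
    rw [hs, mul_smul_comm, smul_mul_assoc, mul_assoc (T 3) (T 4), anti 3 4 (by decide), mul_neg, smul_neg, neg_neg]
  have hs4 : s * T 4 = -(T 4 * s) := by
    rw [hs, mul_smul_comm, smul_mul_assoc, ← mul_assoc (T 4), anti 3 4 (by decide), neg_mul, smul_neg, neg_neg]
  have h2t : IsTriple (T 3) (T 4) s := ⟨ht.sq 3, ht.sq 4, hss, anti 3 4 (by decide), hs4, hs3⟩
  have hpair : ∀ a b c : Fin 5, a ≠ b → a ≠ c → b ≠ c → T a * T b * T c = T c * (T a * T b) := by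
    intro a b c _ hac hbc
    rw [mul_assoc, ht.anti b c hbc, mul_neg, ← mul_assoc, ht.anti a c hac, neg_mul, neg_neg, mul_assoc]
  obtain ⟨y, hy, hy3⟩ := h1.exists_unit h2
  obtain ⟨z, hz, hz3⟩ := h2t.exists_unit h2
  have hyc : ∀ j, j = 3 ∨ j = 4 → Commute (y : M4) (T j) := by
    intro j hj
    rw [hy]
    rcases hj with rfl | rfl <;> exact IsTriple.rot_comm (hpair _ _ _ (by decide) (by decide) (by decide))
      (hpair _ _ _ (by decide) (by decide) (by decide)) (hpair _ _ _ (by decide) (by decide) (by decide))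
  have hym : ∀ j, ∃ k, (y : M4) * T j = T k * y := by
    intro j
    rw [hy]
    match j with
    | 0 => exact ⟨1, h1.rot_conj⟩
    | 1 => exact ⟨2, by have := h1.cyc.rot_conj; rwa [rot, triple_cyc] at this⟩
    | 2 => exact ⟨0, by have := h1.cyc.cyc.rot_conj; rwa [rot, triple_cyc, triple_cyc] at this⟩
    | 3 => exact ⟨3, hy ▸ (hyc 3 (Or.inl rfl)).eq⟩
    | 4 => exact ⟨4, hy ▸ (hyc 4 (Or.inr rfl)).eq⟩
  have hS : ∀ g ∈ {g | g ∈ R ∧ ∃ c : F, (g : M4) = c • (1 : M4)}, ∃ c : F, (g : M4) = c • (1 : M4) := fun g hg => hg.2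
  have hSR : {g | g ∈ R ∧ ∃ c : F, (g : M4) = c • (1 : M4)} ⊆ (R : Set G4) := fun g hg => hg.1
  have hyN : y ∈ Cfsg.Geo.subgroupNormalizer R := D.mem_normalizer hS hSR hgen fun j => by
    obtain ⟨k, hk⟩ := hym j
    have : y * t j * y⁻¹ = t k := mul_inv_eq_iff_eq_mul.2 (Units.ext (by simpa using hk))
    rw [this]; exact htR k
  have htA : (triple (T 0) (T 1) (T 2)).trace = 0 := by
    simp [triple, ht.trace_mul h2]
  have h4 := Data.two_ne_pow h2
  have hherm : ∀ J : M4 → M4, IsAdjoint i J → (∀ g ∈ R, J (g : M4) * g = 1) →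
      (∀ j, J (T j) = T j) ∧ J s = s := by
    intro J hJ hR
    have hTj : ∀ j, J (T j) = T j := fun j => hermitian_of_unitary (ht.sq j) (hR _ (htR j))
    refine ⟨hTj, ?_⟩
    rw [hs, hJ.skew, hJ.mul, hTj, hTj, anti 3 4 (by decide), smul_neg, neg_neg]
  have hyu : ∀ J : M4 → M4, IsAdjoint i J → (∀ g ∈ R, J (g : M4) * g = 1) → J (y : M4) * y = 1 :=
    fun J hJ hR => by
      rw [hy]; exact h1.rot_unitary h2 hJ ((hherm J hJ hR).1 0) ((hherm J hJ hR).1 1) ((hherm J hJ hR).1 2)
  constructor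
  · refine ⟨y, hyN, hy3, ?_, hyu⟩
    rw [hy, rot, trace_smul, trace_sub, htA, trace_one]
    simp
    field_simp
    norm_num
  · -- the second triple
    have hzc : ∀ a b : Fin 5, a ≠ b → a ≠ 3 → a ≠ 4 → b ≠ 3 → b ≠ 4 → Commute (z : M4) (T a * T b) := by
      intro a b hab ha3 ha4 hb3 hb4
      have e3 : Commute (T a * T b) (T 3) := hpair a b 3 hab ha3 hb3
      have e4 : Commute (T a * T b) (T 4) := hpair a b 4 hab ha4 hb4
      have es : Commute (T a * T b) s := (e3.mul_right e4).smul_right i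
      rw [hz]
      exact IsTriple.rot_comm (e3.mul_right e4).eq.symm (e4.mul_right es).eq.symm (es.mul_right e3).eq.symm
    let K : Subgroup G4 := R.comap (MulAut.conj z).toMonoidHom
    have hK : ∀ g : G4, g ∈ K ↔ z * g * z⁻¹ ∈ R := fun g => Iff.rfl
    have hfix : ∀ g, g ∈ R → Commute (z : M4) (g : M4) → g ∈ K := fun g hg hc => by
      rw [hK, show z * g = g * z from Units.ext hc.eq, mul_inv_cancel_right]; exact hg
    obtain ⟨c, hc⟩ := scalar_of_commute h2 ht (M := ((t 0 * t 1 * t 2 * t 3 * t 4 : G4) : M4)) fun j => by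
      have k := mul_mono ht j (fun _ => 1)
      have he : flips j (fun _ => 1) % 2 = if j = 4 then 0 else 1 :=
        (by decide : ∀ j : Fin 5, flips j (fun _ => 1) % 2 = if j = 4 then 0 else 1) j
      have hm : ((t 0 * t 1 * t 2 * t 3 * t 4 : G4) : M4) = mono T (fun _ => 1) * T 4 := by
        simp [mono, T]
      rw [hm, ← mul_assoc (T j), k, neg_one_pow_eq_pow_mod_two, he]
      by_cases hj : j = 4
      · subst hj; simp [mul_assoc, ht.sq]
      · rw [if_neg hj, pow_one, neg_one_smul, neg_mul, mul_assoc _ (T j), ht.anti j 4 hj, mul_neg, neg_neg,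
          mul_assoc]
    set P := t 0 * t 1 * t 2 * t 3 * t 4 with hP
    have hPR : P ∈ R := Subgroup.mul_mem _ (Subgroup.mul_mem _ (Subgroup.mul_mem _ (Subgroup.mul_mem _
      (htR 0) (htR 1)) (htR 2)) (htR 3)) (htR 4)
    have mP : P ∈ K := hfix P hPR (by rw [hc]; exact (Commute.one_right _).smul_right c)
    have m01 : t 0 * t 1 ∈ K := hfix _ (Subgroup.mul_mem _ (htR 0) (htR 1))
      (by simpa using hzc 0 1 (by decide) (by decide) (by decide) (by decide) (by decide))
    have m12 : t 1 * t 2 ∈ K := hfix _ (Subgroup.mul_mem _ (htR 1) (htR 2))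
      (by simpa using hzc 1 2 (by decide) (by decide) (by decide) (by decide) (by decide))
    have m3 : t 3 ∈ K := by
      rw [hK, show z * t 3 = t 4 * z from Units.ext (by rw [Units.val_mul, Units.val_mul, hz]; exact h2t.rot_conj),
        mul_inv_cancel_right]
      exact htR 4
    have m4 : t 4 ∈ K := by
      have e : z * t 4 = (u * (t 3 * t 4)) * z := Units.ext (by
        simp only [Units.val_mul, hz, hu, smul_mul_assoc, one_mul]
        have := h2t.cyc.rot_conj
        rw [rot, triple_cyc] at this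
        simp only [hs] at this
        simp only [rot, smul_mul_assoc, mul_smul_comm, hs] at this ⊢
        first
          | exact this
          | (rw [smul_comm i]; exact this))
      rw [hK, e, mul_inv_cancel_right]
      exact Subgroup.mul_mem _ huR (Subgroup.mul_mem _ (htR 3) (htR 4))
    have m2 : t 2 ∈ K := by
      have : t 2 = (t 0 * t 1)⁻¹ * P * (t 4)⁻¹ * (t 3)⁻¹ := by rw [hP]; group
      rw [this]
      exact Subgroup.mul_mem _ (Subgroup.mul_mem _ (Subgroup.mul_mem _ (Subgroup.inv_mem _ m01) mP)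
        (Subgroup.inv_mem _ m4)) (Subgroup.inv_mem _ m3)
    have m1 : t 1 ∈ K := by
      rw [show t 1 = t 1 * t 2 * (t 2)⁻¹ by group]; exact Subgroup.mul_mem _ m12 (Subgroup.inv_mem _ m2)
    have m0 : t 0 ∈ K := by
      rw [show t 0 = t 0 * t 1 * (t 1)⁻¹ by group]; exact Subgroup.mul_mem _ m01 (Subgroup.inv_mem _ m1)
    have hzN : z ∈ Cfsg.Geo.subgroupNormalizer R := D.mem_normalizer hS hSR hgen fun j => by
      match j with
      | 0 => exact (hK _).1 m0
      | 1 => exact (hK _).1 m1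
      | 2 => exact (hK _).1 m2
      | 3 => exact (hK _).1 m3
      | 4 => exact (hK _).1 m4
    have hcyz : Commute y z := Units.ext (by
      rw [Units.val_mul, Units.val_mul, hy]
      show rot (T 0) (T 1) (T 2) * (z : M4) = (z : M4) * rot (T 0) (T 1) (T 2)
      exact IsTriple.rot_comm (hzc 0 1 (by decide) (by decide) (by decide) (by decide) (by decide)).eq.symm
        (hzc 1 2 (by decide) (by decide) (by decide) (by decide) (by decide)).eq.symm
        (hzc 2 0 (by decide) (by decide) (by decide) (by decide) (by decide)).eq.symm)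
    refine ⟨y * z, Subgroup.mul_mem _ hyN hzN, by rw [hcyz.mul_pow, hy3, hz3, one_mul], ?_, fun J hJ hR => ?_⟩
    rotate_left
    · have hzu : J (z : M4) * z = 1 := by
        rw [hz]; exact h2t.rot_unitary h2 hJ ((hherm J hJ hR).1 3) ((hherm J hJ hR).1 4) (hherm J hJ hR).2
      rw [Units.val_mul, hJ.mul, mul_assoc, ← mul_assoc (J (y : M4)), hyu J hJ hR, one_mul, hzu]
    have hB : triple (T 3) (T 4) s = T 3 * T 4 - i • T 3 - i • T 4 := by
      rw [triple, hs, mul_smul_comm, smul_mul_assoc, ← mul_assoc (T 4), anti 3 4 (by decide), neg_mul,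
        mul_assoc (T 3) (T 4), ht.sq, mul_one, mul_assoc (T 3), anti 3 4 (by decide), mul_neg, ← mul_assoc,
        ht.sq, one_mul, smul_neg, smul_neg]
      abel
    have tr1 : ∀ j, (T j).trace = 0 := fun j => by
      obtain ⟨k, hk⟩ : ∃ k, k ≠ j := ⟨j + 1, (by decide : ∀ j : Fin 5, j + 1 ≠ j) j⟩
      exact trace_zero_of_anti h2 (ht.sq k) (ht.anti j k hk.symm)
    have q : ∀ a b : Fin 5, a ≠ b → a ≠ 3 → a ≠ 4 → b ≠ 3 → b ≠ 4 →
        (T a * T b * (T 3 * T 4 - i • T 3 - i • T 4)).trace = 0 := by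
      intro a b hab ha3 ha4 hb3 hb4
      simp only [mul_sub, trace_sub, mul_smul_comm, trace_smul]
      rw [ht.trace_mul_four h2 hab ha3 ha4 hb4, trace_three h2 ht ha4.symm hb4.symm (by decide),
        trace_three h2 ht ha3.symm hb3.symm (by decide)]
      simp
    rw [Units.val_mul, hy, hz, rot, rot, smul_mul_smul, trace_smul, hB, triple]
    simp only [sub_mul, mul_sub, add_mul, trace_sub, trace_add, mul_one, one_mul, trace_smul, trace_one, tr1,
      ht.trace_mul h2, Fintype.card_fin, smul_eq_mul, ne_eq, Fin.reduceEq, not_false_eq_true]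
    have q1 := q 0 1 (by decide) (by decide) (by decide) (by decide) (by decide)
    have q2 := q 1 2 (by decide) (by decide) (by decide) (by decide) (by decide)
    have q3 := q 2 0 (by decide) (by decide) (by decide) (by decide) (by decide)
    simp only [mul_sub, trace_sub] at q1 q2 q3
    field_simp
    push_cast
    linear_combination q1 + q2 + q3

/-- The two kinds of elements of order three in the normaliser. -/
theorem Data.exists_three (D : Data i R) (h2 : (2 : F) ≠ 0) :
    (∃ y ∈ Cfsg.Geo.subgroupNormalizer R, y ^ 3 = 1 ∧ (y : M4).trace = -2) ∧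
    (∃ y ∈ Cfsg.Geo.subgroupNormalizer R, y ^ 3 = 1 ∧ (y : M4).trace = 1) := by
  obtain ⟨⟨y, hy, hy3, hyt, -⟩, ⟨z, hz, hz3, hzt, -⟩⟩ := D.exists_three_adjoint h2
  exact ⟨⟨y, hy, hy3, hyt⟩, ⟨z, hz, hz3, hzt⟩⟩

/-- An element of order five in the normaliser. -/
theorem Data.exists_five_elt [Fintype F] (D : Data i R) (h2 : (2 : F) ≠ 0) :
    ∃ y ∈ Cfsg.Geo.subgroupNormalizer R, 5 ∣ orderOf y := by
  obtain ⟨t, htR, ht, hgen⟩ := D.exists_frame h2
  have h4 := Data.two_ne_pow h2
  have hs : ((4 : F)⁻¹ * (4 : F)⁻¹) * 16 = 1 := by field_simp; norm_num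
  let y : G4 := ⟨(4 : F)⁻¹ • Minus.cycle (fun j => (t j : M4)),
    (4 : F)⁻¹ • Minus.cycle (fun j => (t j.rev : M4)),
    by rw [smul_mul_smul, ht.cycle_mul_rev, smul_smul, hs, one_smul],
    by rw [smul_mul_smul, ht.rev_mul_cycle, smul_smul, hs, one_smul]⟩
  have hy : ∀ j, y * t j = t (j + 1) * y := fun j => Units.ext (by
    show ((4 : F)⁻¹ • Minus.cycle _) * (t j : M4) = (t (j + 1) : M4) * ((4 : F)⁻¹ • Minus.cycle _)
    rw [smul_mul_assoc, mul_smul_comm, (ht.cycle_semiconj j).eq])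
  refine ⟨y, D.mem_normalizer (fun g hg => hg.2) (fun g hg => hg.1) hgen fun j => ?_, ?_⟩
  · rw [hy, mul_inv_cancel_right]; exact htR _
  have hpow : ∀ m : ℕ, y ^ m * t 0 = t (Fin.ofNat 5 m) * y ^ m := by
    intro m
    induction m with
    | zero => simp
    | succ m ih =>
      have hc : Fin.ofNat 5 (m + 1) = Fin.ofNat 5 m + 1 := Fin.ext (by simp [Fin.val_add])
      rw [pow_succ', mul_assoc, ih, ← mul_assoc, hy, mul_assoc, hc]
  have h0 := hpow (orderOf y)
  rw [pow_orderOf_eq_one, one_mul, mul_one] at h0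
  by_contra hdvd
  have hne : (0 : Fin 5) ≠ Fin.ofNat 5 (orderOf y) := fun h =>
    hdvd (Nat.dvd_of_mod_eq_zero (congrArg Fin.val h).symm)
  have h' := ht.anti _ _ hne
  change (t 0 : M4) * (t _ : M4) = -((t _ : M4) * (t 0 : M4)) at h'
  rw [← h0] at h'
  exact Minus.eq_neg_self_false (g := t 0 * t 0) h2 h'

/-- Non-scalar involutions in the normaliser with traces two and zero, preserving every form the group preserves. -/
theorem Data.exists_two_adjoint (D : Data i R) (h2 : (2 : F) ≠ 0) :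
    (∃ y ∈ Cfsg.Geo.subgroupNormalizer R, (y : M4) * y = 1 ∧ (y : M4).trace = 2 ∧
      (∀ c : F, (y : M4) ≠ c • (1 : M4)) ∧
      ∀ J : M4 → M4, IsAdjoint i J → (∀ g ∈ R, J (g : M4) * g = 1) → J (y : M4) * y = 1) ∧
    (∃ y ∈ Cfsg.Geo.subgroupNormalizer R, (y : M4) * y = 1 ∧ (y : M4).trace = 0 ∧
      (∀ c : F, (y : M4) ≠ c • (1 : M4)) ∧
      ∀ J : M4 → M4, IsAdjoint i J → (∀ g ∈ R, J (g : M4) * g = 1) → J (y : M4) * y = 1) := by
  obtain ⟨t, htR, ht, hgen⟩ := D.exists_frame h2
  obtain ⟨u, huR, hu⟩ := D.imem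
  set T : Fin 5 → M4 := fun j => (t j : M4)
  have anti : ∀ j k, j ≠ k → T k * T j = -(T j * T k) := fun j k h => ht.anti k j h.symm
  have hpair : ∀ a b c : Fin 5, a ≠ c → b ≠ c → T a * T b * T c = T c * (T a * T b) := by
    intro a b c hac hbc
    rw [mul_assoc, ht.anti b c hbc, mul_neg, ← mul_assoc, ht.anti a c hac, neg_mul, neg_neg, mul_assoc]
  set a : M4 := T 0 with ha
  set b : M4 := i • (T 1 * T 2) with hb
  have haa : a * a = 1 := ht.sq 0
  have hbb : b * b = 1 := by
    rw [hb, smul_mul_smul, D.sqi, mul_assoc, ← mul_assoc (T 2), anti 1 2 (by decide), neg_mul, mul_assoc, ht.sq,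
      mul_one, mul_neg, ht.sq, smul_neg, neg_one_smul, neg_neg]
  have hab : b * a = a * b := by
    rw [hb, smul_mul_assoc, mul_smul_comm, hpair 1 2 0 (by decide) (by decide)]
  have h4 := Data.two_ne_pow h2
  set E : M4 := 1 + a + b - a * b with hE
  have hEE : E * E = (4 : F) • 1 := by
    have r1 : ∀ X, b * (a * X) = a * (b * X) := fun X => by rw [← mul_assoc, hab, mul_assoc]
    have r2 : ∀ X, a * (a * X) = X := fun X => by rw [← mul_assoc, haa, one_mul]
    simp only [hE, add_mul, mul_add, sub_mul, mul_sub, one_mul, mul_one, mul_assoc, haa, hbb, hab, r1, r2]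
    rw [show (4 : F) = 1 + 1 + 1 + 1 by norm_num, add_smul, add_smul, add_smul, one_smul]
    abel
  have hval : ((2 : F)⁻¹ • E) * ((2 : F)⁻¹ • E) = 1 := by
    rw [smul_mul_smul, hEE, smul_smul, show (2 : F)⁻¹ * (2 : F)⁻¹ * 4 = 1 by field_simp; norm_num, one_smul]
  let Y : G4 := ⟨(2 : F)⁻¹ • E, (2 : F)⁻¹ • E, hval, hval⟩
  -- a generator anticommuting with one of `a`, `b` is multiplied by the other
  have hmoveA : ∀ v : M4, v * a = -(a * v) → v * b = b * v → E * v = v * b * E := by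
    intro v h1 h2'
    have e1 : a * v = -(v * a) := by rw [h1, neg_neg]
    have e2 : a * b * v = -(v * (a * b)) := by rw [mul_assoc, ← h2', ← mul_assoc, e1, neg_mul, mul_assoc]
    simp only [hE, add_mul, sub_mul, one_mul, e1, e2, ← h2', mul_add, mul_sub, mul_one, mul_assoc, hbb, hab]
    rw [← mul_assoc b a b, hab, mul_assoc a b b, hbb, mul_one]
    abel
  have hmoveB : ∀ v : M4, v * b = -(b * v) → v * a = a * v → E * v = v * a * E := by
    intro v h1 h2'
    have e1 : b * v = -(v * b) := by rw [h1, neg_neg]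
    have e2 : a * b * v = -(v * (a * b)) := by rw [mul_assoc, e1, mul_neg, ← mul_assoc, ← h2', mul_assoc]
    simp only [hE, add_mul, sub_mul, one_mul, e1, e2, ← h2', mul_add, mul_sub, mul_one, mul_assoc, haa]
    rw [← mul_assoc a a b, haa, one_mul]
    abel
  have hmem : ∀ v w : G4, w ∈ R → E * (v : M4) = (w : M4) * E → Y * v * Y⁻¹ ∈ R := by
    intro v w hw e
    have : Y * v = w * Y := Units.ext (by
      show ((2 : F)⁻¹ • E) * (v : M4) = (w : M4) * ((2 : F)⁻¹ • E)
      rw [smul_mul_assoc, mul_smul_comm, e])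
    rw [this, mul_inv_cancel_right]
    exact hw
  let K : Subgroup G4 := R.comap (MulAut.conj Y).toMonoidHom
  have hK : ∀ g : G4, g ∈ K ↔ Y * g * Y⁻¹ ∈ R := fun g => Iff.rfl
  have hbR : u * (t 1 * t 2) ∈ R := Subgroup.mul_mem _ huR (Subgroup.mul_mem _ (htR 1) (htR 2))
  have hbv : ((u * (t 1 * t 2) : G4) : M4) = b := by simp [hu, hb, T]
  have m0 : t 0 ∈ K := (hK _).2 (hmem _ _ (htR 0) (by
    show E * a = a * E
    simp only [hE, add_mul, mul_add, sub_mul, mul_sub, one_mul, mul_one, hab]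
    rw [mul_assoc a b a, hab]))
  have m12 : t 1 * t 2 ∈ K := (hK _).2 (hmem _ _ (Subgroup.mul_mem _ (htR 1) (htR 2)) (by
    have hc : T 1 * T 2 = (-i) • b := by rw [hb, smul_smul, neg_mul, D.sqi, neg_neg, one_smul]
    show E * ((t 1 * t 2 : G4) : M4) = ((t 1 * t 2 : G4) : M4) * E
    rw [Units.val_mul]
    show E * (T 1 * T 2) = T 1 * T 2 * E
    rw [hc, mul_smul_comm, smul_mul_assoc]
    congr 1
    simp only [hE, add_mul, mul_add, sub_mul, mul_sub, one_mul, mul_one, hab, mul_assoc]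
    rw [← mul_assoc b a b, hab, mul_assoc a b b]))
  have m34 : ∀ j, j = 3 ∨ j = 4 → t j ∈ K := fun j hj => by
    refine (hK _).2 (hmem _ (t j * (u * (t 1 * t 2))) (Subgroup.mul_mem _ (htR j) hbR) ?_)
    rw [Units.val_mul, hbv]
    refine hmoveA (T j) ?_ ?_
    · rcases hj with rfl | rfl <;> exact anti 0 _ (by decide)
    · rw [hb, smul_mul_assoc, mul_smul_comm]
      rcases hj with rfl | rfl <;> rw [hpair 1 2 _ (by decide) (by decide)]
  have m13 : t 1 * t 3 ∈ K := by
    refine (hK _).2 (hmem _ (t 1 * t 3 * t 0) (Subgroup.mul_mem _ (Subgroup.mul_mem _ (htR 1) (htR 3)) (htR 0)) ?_)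
    simp only [Units.val_mul]
    refine hmoveB (T 1 * T 3) ?_ (hpair 1 3 0 (by decide) (by decide))
    rw [hb, mul_smul_comm, smul_mul_assoc, ← smul_neg]
    congr 1
    calc T 1 * T 3 * (T 1 * T 2) = T 1 * (T 3 * T 1) * T 2 := by simp only [mul_assoc]
      _ = -(T 3 * T 2) := by rw [anti 1 3 (by decide), mul_neg, ← mul_assoc, ht.sq, one_mul, neg_mul]
      _ = T 2 * T 3 := by rw [anti 2 3 (by decide), neg_neg]
      _ = -(T 1 * T 2 * (T 1 * T 3)) := by
        rw [show T 1 * T 2 * (T 1 * T 3) = T 1 * (T 2 * T 1) * T 3 by simp only [mul_assoc], anti 1 2 (by decide),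
          mul_neg, ← mul_assoc, ht.sq, one_mul, neg_mul, neg_neg]
  have m1 : t 1 ∈ K := by
    rw [show t 1 = t 1 * t 3 * (t 3)⁻¹ by group]
    exact Subgroup.mul_mem _ m13 (Subgroup.inv_mem _ (m34 3 (Or.inl rfl)))
  have m2 : t 2 ∈ K := by
    rw [show t 2 = (t 1)⁻¹ * (t 1 * t 2) by group]
    exact Subgroup.mul_mem _ (Subgroup.inv_mem _ m1) m12
  have hYN : Y ∈ Cfsg.Geo.subgroupNormalizer R := D.mem_normalizer (fun g hg => hg.2) (fun g hg => hg.1) hgen
    fun j => by
      match j with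
      | 0 => exact (hK _).1 m0
      | 1 => exact (hK _).1 m1
      | 2 => exact (hK _).1 m2
      | 3 => exact (hK _).1 (m34 3 (Or.inl rfl))
      | 4 => exact (hK _).1 (m34 4 (Or.inr rfl))
  have tra : a.trace = 0 := trace_zero_of_anti h2 (ht.sq 1) (ht.anti 0 1 (by decide))
  refine ⟨⟨Y, hYN, hval, ?_, fun c hc => ?_, fun J hJ hR => ?_⟩,
    ⟨t 0, Subgroup.le_normalizer (htR 0), ht.sq 0, tra, fun c hc => ?_, fun J hJ hR => hR _ (htR 0)⟩⟩
  rotate_left
  · change (2 : F)⁻¹ • E = c • (1 : M4) at hc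
    have hT : T 3 * b = b * T 3 := by
      rw [hb, mul_smul_comm, smul_mul_assoc, hpair 1 2 3 (by decide) (by decide)]
    have h3 := hmoveA (T 3) (anti 0 3 (by decide)) hT
    have hE' : E = (2 * c) • (1 : M4) := by
      rw [← smul_smul, ← hc, smul_inv_smul₀ h2]
    have hc0 : 2 * c ≠ 0 := fun e => by
      rw [hE', e, zero_smul, mul_zero] at hEE
      exact h4 ((smul_eq_zero.1 hEE.symm).resolve_right one_ne_zero)
    rw [hE', smul_mul_assoc, one_mul, mul_smul_comm, mul_one] at h3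
    have h5 := smul_right_injective M4 hc0 h3
    have hb1 : b = 1 := by
      calc b = T 3 * T 3 * b := by rw [ht.sq, one_mul]
        _ = 1 := by rw [mul_assoc, ← h5, ht.sq]
    have h6 : b.trace = 4 := by rw [hb1, trace_one]; simp
    rw [hb, trace_smul, ht.trace_mul h2 (by decide : (1 : Fin 5) ≠ 2), smul_zero] at h6
    exact h4 h6.symm
  · show J ((2 : F)⁻¹ • E) * ((2 : F)⁻¹ • E) = 1
    have hTj : ∀ j, J (T j) = T j := fun j => hermitian_of_unitary (ht.sq j) (hR _ (htR j))
    have hJb : J b = b := by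
      rw [hb, hJ.skew, hJ.mul, hTj, hTj, anti 1 2 (by decide), smul_neg, neg_neg]
    rw [hJ.half, hE, hJ.sub, hJ.add, hJ.add, hJ.one, hJ.mul, hJb, ha, hTj, ← ha, hab, ← hE]
    exact hval
  · have h := ht.anti 0 1 (by decide)
    change a * T 1 = -(T 1 * a) at h
    change a = c • (1 : M4) at hc
    rw [hc, smul_mul_assoc, one_mul, mul_smul_comm, mul_one] at h
    refine Minus.eq_neg_self_false (g := t 0 * t 1) h2 ?_
    rw [Units.val_mul]
    show a * T 1 = -(a * T 1)
    rw [hc, smul_mul_assoc, one_mul]; exact h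
  show ((2 : F)⁻¹ • E).trace = 2
  have trb : b.trace = 0 := by rw [hb, trace_smul, ht.trace_mul h2 (by decide : (1 : Fin 5) ≠ 2), smul_zero]
  have trab : (a * b).trace = 0 := by
    rw [ha, hb, mul_smul_comm, trace_smul, ← mul_assoc, trace_three h2 ht (d := 3) (by decide) (by decide) (by decide),
      smul_zero]
  rw [trace_smul, hE, trace_sub, trace_add, trace_add, tra, trb, trab, trace_one, smul_eq_mul]
  simp
  field_simp
  norm_num

/-- Involutions in the normaliser with traces two and zero. -/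
theorem Data.exists_two (D : Data i R) (h2 : (2 : F) ≠ 0) :
    (∃ y ∈ Cfsg.Geo.subgroupNormalizer R, (y : M4) * y = 1 ∧ (y : M4).trace = 2) ∧
    (∃ y ∈ Cfsg.Geo.subgroupNormalizer R, (y : M4) * y = 1 ∧ (y : M4).trace = 0) := by
  obtain ⟨⟨y, hy, hy2, hyt, -, -⟩, ⟨z, hz, hz2, hzt, -, -⟩⟩ := D.exists_two_adjoint h2
  exact ⟨⟨y, hy, hy2, hyt⟩, ⟨z, hz, hz2, hzt⟩⟩

end Cfsg.Agent.H66.Four
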