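/-
Unitary elements of small order in dimension four.
-/
import Cfsg.Agent.H66.FourElements
import Cfsg.Agent.H66.FourCharpoly
import Cfsg.Agent.H66.ExtraspecialNormalizerSU
import Cfsg.Agent.H67.GUMatrix
import Mathlib

set_option autoImplicit false

open Polynomial Matrix

namespace Cfsg.Agent.H66.Four

variable {F : Type*} [Field F] [Fintype F] {p : ℕ}

theorem two_or_three : ∀ a : ZMod 5, a ^ 2 ≠ 1 → a ≠ 0 → a = 2 ∨ a = 3 := by decide

/-- The adjoint for the standard hermitian form. -/
def adj (hF : Fintype.card F = p ^ 2) (M : Matrix (Fin 4) (Fin 4) F) : Matrix (Fin 4) (Fin 4) F :=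
  (M.map (H3.conjQ hF))ᵀ

theorem mem_GU_iff_adj (hF : Fintype.card F = p ^ 2) (g : GL (Fin 4) F) :
    g ∈ Cfsg.GU 4 F p ↔ adj hF (g : Matrix (Fin 4) (Fin 4) F) * (g : Matrix (Fin 4) (Fin 4) F) = 1 := by
  rw [H67.mem_GU_iff_matrix hF]
  constructor
  · intro h
    have h' := congrArg Matrix.transpose h
    rw [Matrix.transpose_mul, Matrix.transpose_transpose, Matrix.transpose_one] at h'
    exact h'
  · intro h
    have h' := congrArg Matrix.transpose h
    rw [Matrix.transpose_mul, Matrix.transpose_one] at h'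
    unfold adj at h'
    rw [Matrix.transpose_transpose] at h'
    exact h'

theorem adj_mul (hF : Fintype.card F = p ^ 2) (A B : Matrix (Fin 4) (Fin 4) F) :
    adj hF (A * B) = adj hF B * adj hF A := by
  unfold adj
  rw [Matrix.map_mul, Matrix.transpose_mul]

theorem adj_smul (hF : Fintype.card F = p ^ 2) (c : F) (A : Matrix (Fin 4) (Fin 4) F) :
    adj hF (c • A) = H3.conjQ hF c • adj hF A := by
  unfold adj
  ext a b
  simp only [Matrix.transpose_apply, Matrix.map_apply, Matrix.smul_apply, smul_eq_mul, map_mul]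

theorem adj_one (hF : Fintype.card F = p ^ 2) : adj hF (1 : Matrix (Fin 4) (Fin 4) F) = 1 := by
  unfold adj
  rw [Matrix.map_one _ (map_zero _) (map_one _), Matrix.transpose_one]

theorem conjQ_skew (hF : Fintype.card F = p ^ 2) (hp : p % 4 = 3) {i : F} (hi : i * i = -1) :
    H3.conjQ hF i = -i := by
  obtain ⟨k, hk⟩ : ∃ k, p = 4 * k + 3 := ⟨p / 4, by omega⟩
  have h4 : i ^ 4 = 1 := by linear_combination (i * i - 1) * hi
  rw [H3.conjQ_apply, hk, pow_add, pow_mul, h4, one_pow, one_mul]
  linear_combination i * hi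

theorem isAdjoint (hF : Fintype.card F = p ^ 2) (hp : p % 4 = 3) {i : F} (hi : i * i = -1) :
    IsAdjoint i (adj hF) where
  one := adj_one hF
  mul := adj_mul hF
  add A B := by
    unfold adj
    ext a b
    simp only [Matrix.transpose_apply, Matrix.map_apply, Matrix.add_apply, map_add]
  half A := by rw [adj_smul, map_inv₀, map_ofNat]
  skew A := by rw [adj_smul, conjQ_skew hF hp hi, neg_smul]

theorem trace_adj (hF : Fintype.card F = p ^ 2) (A : Matrix (Fin 4) (Fin 4) F) :
    (adj hF A).trace = H3.conjQ hF A.trace := by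
  unfold adj
  rw [Matrix.trace_transpose]
  exact (AddMonoidHom.map_trace (H3.conjQ hF).toAddMonoidHom A).symm

/-- Unitary elements of order three when the cube roots of unity are fixed by conjugation. -/
theorem charpoly_three_unitary [Fact p.Prime] [CharP F p] (hF : Fintype.card F = p ^ 2) (hp : p % 3 = 1) (hp5 : 5 ≤ p)
    {ω : F} (hω : IsPrimitiveRoot ω 3) {A : Matrix (Fin 4) (Fin 4) F} (hA : A ^ 3 = 1) (hu : adj hF A * A = 1) :
    A.charpoly = (X - C 1) ^ 4 ∨ (A.charpoly = ((X - C ω) * (X - C (ω ^ 2))) ^ 2 ∧ A.trace = -2) ∨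
      (A.charpoly = (X - C 1) ^ 2 * ((X - C ω) * (X - C (ω ^ 2))) ∧ A.trace = 1) := by
  classical
  have h3 : ((3 : ℕ) : F) ≠ 0 := by
    rw [Ne, CharP.cast_eq_zero_iff F p, Nat.prime_dvd_prime_iff_eq Fact.out Nat.prime_three]
    omega
  haveI : NeZero (3 : ℕ) := ⟨by norm_num⟩
  obtain ⟨Q, k, hQ⟩ := H66.Extra.exists_diagonal h3 hω hA
  have hω3 := hω.pow_eq_one
  have hωp : H3.conjQ hF ω = ω := by
    rw [H3.conjQ_apply, ← Nat.div_add_mod p 3, hp, pow_add, pow_mul, hω3, one_pow, one_mul, pow_one]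
  have hω1 : ω + ω ^ 2 = -1 := by
    have := hω.geom_sum_eq_zero (by norm_num : 1 < 3)
    simp [Finset.sum_range_succ] at this
    linear_combination this
  have htr : ∀ (B : Matrix (Fin 4) (Fin 4) F) (d : Fin 4 → F),
      B * (Q : Matrix (Fin 4) (Fin 4) F) = (Q : Matrix (Fin 4) (Fin 4) F) * Matrix.diagonal d → B.trace = ∑ j, d j := by
    intro B d hB
    have e : B = (Q : Matrix (Fin 4) (Fin 4) F) * Matrix.diagonal d * ((Q⁻¹ : GL (Fin 4) F) : Matrix _ _ F) := by
      rw [← hB, mul_assoc, Units.mul_inv, mul_one]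
    rw [e, Matrix.trace_units_conj, Matrix.trace_diagonal]
  have hadj : adj hF A = A * A := by
    have e : A * (A * A) = 1 := by rw [← mul_assoc, ← hA, pow_succ, pow_two]
    calc adj hF A = adj hF A * (A * (A * A)) := by rw [e, mul_one]
      _ = A * A := by rw [← mul_assoc, hu, one_mul]
  have hQ2 : A * A * (Q : Matrix (Fin 4) (Fin 4) F) =
      (Q : Matrix (Fin 4) (Fin 4) F) * Matrix.diagonal fun j => ω ^ (k j : ℕ) * ω ^ (k j : ℕ) := by
    rw [mul_assoc, hQ, ← mul_assoc, hQ, mul_assoc, Matrix.diagonal_mul_diagonal]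
  have key : ∀ f : Fin 3 → F, ∑ j, f (k j) =
      ((Finset.univ.filter fun j => k j = 0).card : F) * f 0 + ((Finset.univ.filter fun j => k j = 1).card : F) * f 1 +
        ((Finset.univ.filter fun j => k j = 2).card : F) * f 2 := by
    intro f
    rw [← Finset.sum_fiberwise' Finset.univ k f, Fin.sum_univ_three]
    simp only [Finset.sum_const, nsmul_eq_mul]
  have keyP : ∀ f : Fin 3 → F[X], ∏ j, f (k j) =
      f 0 ^ (Finset.univ.filter fun j => k j = 0).card * f 1 ^ (Finset.univ.filter fun j => k j = 1).card *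
        f 2 ^ (Finset.univ.filter fun j => k j = 2).card := by
    intro f
    rw [← Finset.prod_fiberwise' Finset.univ k f, Fin.prod_univ_three]
    simp only [Finset.prod_const]
  have hsum : (Finset.univ.filter fun j => k j = 0).card + (Finset.univ.filter fun j => k j = 1).card +
      (Finset.univ.filter fun j => k j = 2).card = 4 := by
    have h := Finset.card_eq_sum_card_fiberwise (f := k) (s := Finset.univ) (t := Finset.univ)
      (fun j _ => Finset.mem_univ _)
    rw [Fin.sum_univ_three] at h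
    simpa using h.symm
  have hcp : A.charpoly = ∏ j, (fun m : Fin 3 => X - C (ω ^ (m : ℕ))) (k j) :=
    H66.Extra.charpoly_of_diagonal hQ
  rw [keyP (fun m : Fin 3 => X - C (ω ^ (m : ℕ)))] at hcp
  have t1 : A.trace = ∑ j, (fun m : Fin 3 => ω ^ (m : ℕ)) (k j) := htr A _ hQ
  have t2 : (A * A).trace = ∑ j, (fun m : Fin 3 => ω ^ (m : ℕ) * ω ^ (m : ℕ)) (k j) := htr _ _ hQ2
  rw [key (fun m : Fin 3 => ω ^ (m : ℕ))] at t1
  rw [key (fun m : Fin 3 => ω ^ (m : ℕ) * ω ^ (m : ℕ))] at t2
  generalize (Finset.univ.filter fun j => k j = 0).card = a at hsum hcp t1 t2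
  generalize (Finset.univ.filter fun j => k j = 1).card = b at hsum hcp t1 t2
  generalize (Finset.univ.filter fun j => k j = 2).card = c at hsum hcp t1 t2
  simp only [Fin.val_zero, Fin.val_one, Fin.val_two, pow_zero, pow_one, mul_one] at hcp t1 t2
  have hω4 : ω ^ 2 * ω ^ 2 = ω := by linear_combination ω * hω3
  rw [hω4, ← pow_two ω] at t2
  have hbc : ((b : F) - c) * (ω - ω ^ 2) = 0 := by
    have h := trace_adj hF A
    rw [hadj, t2, t1] at h
    simp only [map_add, map_mul, map_natCast, map_pow, hωp] at h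
    linear_combination -h
  have hne : ω - ω ^ 2 ≠ 0 := by
    rw [show ω - ω ^ 2 = ω * (1 - ω) by ring]
    exact mul_ne_zero (hω.ne_zero (by norm_num)) (sub_ne_zero.2 (hω.ne_one (by norm_num)).symm)
  have hbceq : b = c := by
    have h' := (CharP.natCast_eq_natCast F p).1 (sub_eq_zero.1 ((mul_eq_zero.1 hbc).resolve_right hne))
    rwa [Nat.ModEq, Nat.mod_eq_of_lt (by omega), Nat.mod_eq_of_lt (by omega)] at h'
  subst hbceq
  have hcases : (a = 4 ∧ b = 0) ∨ (a = 0 ∧ b = 2) ∨ (a = 2 ∧ b = 1) := by omega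
  rcases hcases with ⟨rfl, rfl⟩ | ⟨rfl, rfl⟩ | ⟨rfl, rfl⟩
  · left; simpa using hcp
  · right; left
    refine ⟨by rw [hcp, pow_zero, one_mul, mul_pow], ?_⟩
    rw [t1]; push_cast; linear_combination 2 * hω1
  · right; right
    refine ⟨by rw [hcp, pow_one, pow_one, mul_assoc], ?_⟩
    rw [t1]; push_cast; linear_combination hω1

/-- Unitary elements of order five when `p` has order four modulo five. -/
theorem charpoly_five_unitary [Fact p.Prime] [CharP F p] (hF : Fintype.card F = p ^ 2)
    (hord : orderOf (p : ZMod 5) = 4) {A : Matrix (Fin 4) (Fin 4) F} (hA : A ^ 5 = 1) (hA1 : A ≠ 1)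
    (hu : adj hF A * A = 1) : A.charpoly = cyclotomic 5 F := by
  classical
  haveI : Fact (Nat.Prime 5) := ⟨Nat.prime_five⟩
  have hp5 : p % 5 = 2 ∨ p % 5 = 3 := by
    rcases two_or_three (p : ZMod 5)
      (fun e => by have := Nat.le_of_dvd two_pos (hord ▸ orderOf_dvd_of_pow_eq_one e); omega)
      (fun e => by rw [e, orderOf_zero] at hord; omega) with e | e
    · left
      have := congrArg ZMod.val e
      rwa [ZMod.val_natCast] at this
    · right
      have := congrArg ZMod.val e
      rwa [ZMod.val_natCast] at this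
  have h50 : ((5 : ℕ) : F) ≠ 0 := by
    rw [Ne, CharP.cast_eq_zero_iff F p, Nat.prime_dvd_prime_iff_eq Fact.out Nat.prime_five]
    intro e; omega
  set m := minpoly F A with hm
  -- the adjoint gives a symmetry of the minimal polynomial
  have hA4 : adj hF A = A ^ 4 := by
    calc adj hF A = adj hF A * (A * A ^ 4) := by rw [← pow_succ', hA, mul_one]
      _ = A ^ 4 := by rw [← mul_assoc, hu, one_mul]
  have hsym : aeval (A ^ 4) (m.map (H3.conjQ hF)) = 0 := by
    rw [← hA4]
    have h1 : ∀ P : F[X], aeval (adj hF A) (P.map (H3.conjQ hF)) = adj hF (aeval A P) := by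
      intro P
      induction P using Polynomial.induction_on' with
      | add P Q hP hQ =>
        rw [Polynomial.map_add, map_add, map_add, hP, hQ]
        unfold adj
        ext a b
        simp [H3.add_pow_q hF]
      | monomial n c =>
        rw [Polynomial.map_monomial, aeval_monomial, aeval_monomial, ← Algebra.smul_def, ← Algebra.smul_def, adj_smul]
        congr 1
        induction n with
        | zero => rw [pow_zero, pow_zero, adj_one]
        | succ n ih => rw [pow_succ', ih, pow_succ, adj_mul]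
    rw [h1, hm, minpoly.aeval]
    unfold adj
    ext a b
    simp [zero_pow (Fact.out : p.Prime).ne_zero]
  set K := AlgebraicClosure F
  haveI : CharP K p := charP_of_injective_algebraMap (algebraMap F K).injective p
  haveI : ExpChar K p := ExpChar.prime Fact.out
  have hroot5 : ∀ ζ : K, aeval ζ m = 0 → ζ ^ 5 = 1 := by
    intro ζ hζ
    have hd : m ∣ X ^ 5 - 1 := minpoly.dvd F _ (by simp [hA])
    obtain ⟨q, hq⟩ := hd
    have := congrArg (aeval ζ) hq
    rw [map_mul, hζ, zero_mul, map_sub, map_pow, aeval_X, map_one, sub_eq_zero] at this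
    exact this
  have hstep : ∀ ζ η : K, η ^ p = ζ ^ 4 → aeval ζ m = 0 → aeval η m = 0 := by
    intro ζ η hηζ hζ
    have hd : m ∣ (m.map (H3.conjQ hF)).comp (X ^ 4) := minpoly.dvd F _ (by
      rw [aeval_comp, map_pow, aeval_X, hsym])
    obtain ⟨q, hq⟩ := hd
    have h := congrArg (aeval ζ) hq
    rw [map_mul, hζ, zero_mul, aeval_comp, map_pow, aeval_X, ← hηζ, aeval_def, eval₂_map] at h
    have hcomp : (algebraMap F K).comp (H3.conjQ hF) = (frobenius K p).comp (algebraMap F K) := by
      refine RingHom.ext fun x => ?_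
      simp [frobenius_def]
    rw [hcomp, ← frobenius_def p η, ← hom_eval₂] at h
    exact (map_eq_zero (frobenius K p)).1 h
  have hnot : ¬ IsCoprime m (cyclotomic 5 F) := by
    intro hco
    have hdvd : m ∣ (X - C 1) * cyclotomic 5 F := by
      refine minpoly.dvd F _ ?_
      rw [mul_comm, C_1, cyclotomic_prime_mul_X_sub_one, map_sub, map_pow, aeval_X, map_one, hA, sub_self]
    obtain ⟨q, hq⟩ := hco.dvd_of_dvd_mul_right hdvd
    refine hA1 ?_
    have h0 : aeval A (X - C 1 : F[X]) = 0 := by rw [hq, map_mul, hm, minpoly.aeval, zero_mul]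
    simpa [sub_eq_zero] using h0
  obtain ⟨ζ, hζm, hζc⟩ : ∃ ζ : K, aeval ζ m = 0 ∧ aeval ζ (cyclotomic 5 F) = 0 := by
    set d := EuclideanDomain.gcd m (cyclotomic 5 F) with hd
    have hu' : ¬ IsUnit d := fun h => hnot (EuclideanDomain.gcd_isUnit_iff.1 h)
    have hd0 : d ≠ 0 := fun h => cyclotomic_ne_zero 5 F ((EuclideanDomain.gcd_eq_zero_iff.1 h).2)
    have hdeg : d.degree ≠ 0 := fun h => hu' (isUnit_iff_degree_eq_zero.2 h)
    obtain ⟨ζ, hζ⟩ := IsAlgClosed.exists_aeval_eq_zero K d hdeg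
    refine ⟨ζ, ?_, ?_⟩
    · obtain ⟨q, hq⟩ := EuclideanDomain.gcd_dvd_left m (cyclotomic 5 F)
      rw [hq, map_mul, ← hd, hζ, zero_mul]
    · obtain ⟨q, hq⟩ := EuclideanDomain.gcd_dvd_right m (cyclotomic 5 F)
      rw [hq, map_mul, ← hd, hζ, zero_mul]
  haveI : NeZero ((5 : ℕ) : K) := ⟨by
    rw [← map_natCast (algebraMap F K)]
    exact (map_ne_zero (algebraMap F K)).2 h50⟩
  have hpr : IsPrimitiveRoot ζ 5 := isRoot_cyclotomic_iff.1 (by
    rwa [aeval_def, ← eval_map, map_cyclotomic] at hζc)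
  have hall : ∀ j : ℕ, j % 5 ≠ 0 → aeval (ζ ^ j) m = 0 := by
    have hred : ∀ a b : ℕ, a % 5 = b % 5 → ζ ^ a = ζ ^ b := fun a b h => by
      rw [pow_eq_pow_mod a hpr.pow_eq_one, h, ← pow_eq_pow_mod b hpr.pow_eq_one]
    obtain ⟨n, hn, hgen⟩ : ∃ n : ℕ, (n * p) % 5 = 4 ∧ ∀ j : Fin 5, j ≠ 0 → ∃ e : Fin 4, n ^ (e : ℕ) % 5 = (j : ℕ) := by
      rcases hp5 with h | h
      · exact ⟨2, by omega, by decide⟩
      · exact ⟨3, by omega, by decide⟩
    have hiter : ∀ e : ℕ, aeval (ζ ^ (n ^ e)) m = 0 := by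
      intro e
      induction e with
      | zero => simpa using hζm
      | succ e ih =>
        refine hstep _ _ ?_ ih
        rw [← pow_mul, ← pow_mul, pow_succ, mul_assoc]
        exact hred _ _ (by rw [Nat.mul_mod, hn, Nat.mul_mod (n ^ e) 4])
    intro j hj
    obtain ⟨e, he⟩ := hgen ⟨j % 5, Nat.mod_lt _ (by norm_num)⟩ (by simpa [Fin.ext_iff] using hj)
    rw [hred j (n ^ (e : ℕ)) he.symm]
    exact hiter _
  refine Polynomial.map_injective (algebraMap F K) (algebraMap F K).injective ?_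
  rw [map_cyclotomic]
  refine eq_of_degree_sub_lt_of_eval_finset_eq (primitiveRoots 5 K) ?_ fun x hx => ?_
  · rw [hpr.card_primitiveRoots, show Nat.totient 5 = 4 by decide]
    have h1 : (A.charpoly.map (algebraMap F K)).degree = 4 := by
      rw [Polynomial.degree_map, Polynomial.degree_eq_natDegree (Matrix.charpoly_monic A).ne_zero,
        Matrix.charpoly_natDegree_eq_dim, Fintype.card_fin]
      rfl
    have h2 : (cyclotomic 5 K).degree = 4 := by
      rw [degree_cyclotomic, show Nat.totient 5 = 4 by decide]; rfl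
    refine lt_of_lt_of_le (degree_sub_lt (h1.trans h2.symm) ((Matrix.charpoly_monic A).map _).ne_zero ?_) h1.le
    rw [((Matrix.charpoly_monic A).map _).leadingCoeff, (cyclotomic.monic 5 K).leadingCoeff]
  · have hx' := (mem_primitiveRoots (by norm_num)).1 hx
    rw [(isRoot_cyclotomic_iff.2 hx').eq_zero]
    obtain ⟨j, hj, rfl⟩ := hpr.eq_pow_of_pow_eq_one hx'.pow_eq_one
    have hj0 : j % 5 ≠ 0 := fun h => by
      have : j = 0 := by omega
      subst this
      rw [pow_zero] at hx'
      exact hx'.ne_one (by norm_num) rfl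
    obtain ⟨q, hq⟩ := Matrix.minpoly_dvd_charpoly A
    rw [eval_map, ← aeval_def, hq, map_mul, hall j hj0, zero_mul]

end Cfsg.Agent.H66.Four
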