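/-
`O⁺₄(2) ≅ S₃ wr 2`.
-/
import Cfsg.Agent.H63.OPlusSix

set_option autoImplicit false

open Matrix

namespace Cfsg.Agent.H66

/-- The two basis vectors of the sum-zero vectors of `F₂³`. -/
def triVec (j : Fin 2) (i : Fin 3) : ZMod 2 := if i = 2 ∨ i = j.castSucc then 1 else 0

/-- The two-dimensional representation of `S₃` over two elements. -/
def triMat (σ : Equiv.Perm (Fin 3)) : Matrix (Fin 2) (Fin 2) (ZMod 2) :=
  fun i j => triVec j (σ⁻¹ i.castSucc)

/-- Row and column of a coordinate. -/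
def quadPos : Fin 2 ⊕ Fin 2 → Fin 2 × Fin 2
  | .inl i => (0, i)
  | .inr i => (1, 1 - i)

/-- Left multiplication on two by two matrices. -/
def leftMat (σ : Equiv.Perm (Fin 3)) : Matrix (Fin 2 ⊕ Fin 2) (Fin 2 ⊕ Fin 2) (ZMod 2) :=
  fun x y => if (quadPos x).2 = (quadPos y).2 then triMat σ (quadPos x).1 (quadPos y).1 else 0

/-- Right multiplication by the transpose. -/
def rightMat (σ : Equiv.Perm (Fin 3)) : Matrix (Fin 2 ⊕ Fin 2) (Fin 2 ⊕ Fin 2) (ZMod 2) :=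
  fun x y => if (quadPos x).1 = (quadPos y).1 then triMat σ (quadPos x).2 (quadPos y).2 else 0

/-- Transposition of two by two matrices. -/
def transMat : Matrix (Fin 2 ⊕ Fin 2) (Fin 2 ⊕ Fin 2) (ZMod 2) :=
  fun x y => if quadPos x = ((quadPos y).2, (quadPos y).1) then 1 else 0

/-- A hom into matrices preserving the form gives a hom into the isometry group. -/
def toIsom {M : Type*} [Group M] (f : M →* Matrix (Fin 2 ⊕ Fin 2) (Fin 2 ⊕ Fin 2) (ZMod 2))
    (hf : ∀ a v, Cfsg.quadFormPlus 2 (ZMod 2) (f a *ᵥ v) = Cfsg.quadFormPlus 2 (ZMod 2) v) :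
    M →* ↥(Cfsg.isometryGroup (ZMod 2) (Cfsg.quadFormPlus 2 (ZMod 2))) :=
  f.toHomUnits.codRestrict _ fun a u _ => hf a u

theorem toIsom_coe {M : Type*} [Group M] (f : M →* Matrix (Fin 2 ⊕ Fin 2) (Fin 2 ⊕ Fin 2) (ZMod 2))
    (hf : ∀ a v, Cfsg.quadFormPlus 2 (ZMod 2) (f a *ᵥ v) = Cfsg.quadFormPlus 2 (ZMod 2) v) (a : M) :
    (((toIsom f hf a : ↥(Cfsg.isometryGroup (ZMod 2) (Cfsg.quadFormPlus 2 (ZMod 2)))) :
      GL (Fin 2 ⊕ Fin 2) (ZMod 2)) : Matrix (Fin 2 ⊕ Fin 2) (Fin 2 ⊕ Fin 2) (ZMod 2)) = f a := rfl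

theorem card_oPlusFour_le :
    Nat.card ↥(Cfsg.isometryGroup (ZMod 2) (Cfsg.quadFormPlus 2 (ZMod 2))) ≤ 72 := by
  let Q := Cfsg.quadFormPlus 2 (ZMod 2)
  let b : Fin 2 ⊕ Fin 2 → (Fin 2 ⊕ Fin 2 → ZMod 2) := fun i => Pi.single i 1
  have hne : ∀ i, b i ≠ 0 := by decide +kernel
  have c1 : (H63.chainCand Q [] (b (.inl 0))).card = 9 := by decide +kernel
  have c2 : (H63.chainCand Q [b (.inl 0)] (b (.inr 0))).card = 4 := by decide +kernel
  have c3 : (H63.chainCand Q [b (.inr 0), b (.inl 0)] (b (.inl 1))).card = 2 := by decide +kernel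
  have c4 : (H63.chainCand Q [b (.inl 1), b (.inr 0), b (.inl 0)] (b (.inr 1))).card = 1 := by
    decide +kernel
  have h1 := H63.chainGroup_step Q [] _ (hne (.inl 0))
  have h2 := H63.chainGroup_step Q [b (.inl 0)] _ (hne (.inr 0))
  have h3 := H63.chainGroup_step Q [b (.inr 0), b (.inl 0)] _ (hne (.inl 1))
  have h4 := H63.chainGroup_step Q [b (.inl 1), b (.inr 0), b (.inl 0)] _ (hne (.inr 1))
  have h7 : H63.chainGroup Q [b (.inr 1), b (.inl 1), b (.inr 0), b (.inl 0)] = ⊥ := by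
    rw [eq_bot_iff]
    intro g hg
    obtain ⟨-, h⟩ := H63.chainGroup_spec Q _ g hg
    have hb : ∀ j, (g : Matrix (Fin 2 ⊕ Fin 2) (Fin 2 ⊕ Fin 2) (ZMod 2)) *ᵥ b j = b j := by
      intro j
      apply h
      rcases j with j | j <;> fin_cases j <;> simp
    rw [Subgroup.mem_bot]
    refine Units.ext (Matrix.ext fun i j => ?_)
    have := congrFun (hb j) i
    simp only [b, Matrix.mulVec_single_one, Matrix.col_apply] at this
    rw [this, Units.val_one, Matrix.one_apply, Pi.single_apply]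
  rw [c1] at h1; rw [c2] at h2; rw [c3] at h3; rw [c4] at h4
  rw [h7, Subgroup.card_bot] at h4
  show Nat.card ↥(H63.chainGroup Q []) ≤ 72
  calc Nat.card ↥(H63.chainGroup Q []) ≤ 9 * (4 * (2 * (1 * 1))) :=
        h1.trans (Nat.mul_le_mul_left _ (h2.trans (Nat.mul_le_mul_left _ (h3.trans
          (Nat.mul_le_mul_left _ h4)))))
    _ = 72 := by norm_num

theorem oPlusFour_wreath :
    Nat.card ↥(Cfsg.isometryGroup (ZMod 2) (Cfsg.quadFormPlus 2 (ZMod 2))) = 72 ∧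
    ∃ (A B : Subgroup ↥(Cfsg.isometryGroup (ZMod 2) (Cfsg.quadFormPlus 2 (ZMod 2)))),
      Nonempty (↥A ≃* Equiv.Perm (Fin 3)) ∧ Nonempty (↥B ≃* Equiv.Perm (Fin 3)) ∧ A ⊓ B = ⊥ ∧
      (∀ a ∈ A, ∀ b ∈ B, a * b = b * a) ∧ (A ⊔ B).index = 2 ∧
      ∃ g : ↥(Cfsg.isometryGroup (ZMod 2) (Cfsg.quadFormPlus 2 (ZMod 2))),
        A.map (MulAut.conj g).toMonoidHom = B := by
  have hl1 : leftMat 1 = 1 := by decide +kernel
  have hlm : ∀ σ τ, leftMat (σ * τ) = leftMat σ * leftMat τ := by decide +kernel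
  have hr1 : rightMat 1 = 1 := by decide +kernel
  have hrm : ∀ σ τ, rightMat (σ * τ) = rightMat σ * rightMat τ := by decide +kernel
  have hlQ : ∀ σ v, Cfsg.quadFormPlus 2 (ZMod 2) (leftMat σ *ᵥ v) = Cfsg.quadFormPlus 2 (ZMod 2) v := by
    decide +kernel
  have hrQ : ∀ σ v, Cfsg.quadFormPlus 2 (ZMod 2) (rightMat σ *ᵥ v) = Cfsg.quadFormPlus 2 (ZMod 2) v := by
    decide +kernel
  have hcom : ∀ σ τ, leftMat σ * rightMat τ = rightMat τ * leftMat σ := by decide +kernel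
  have hinj : ∀ σ τ, leftMat σ * rightMat τ = 1 → σ = 1 ∧ τ = 1 := by decide +kernel
  have hdisj : ∀ σ τ, leftMat σ = rightMat τ → σ = 1 := by decide +kernel
  have htQ : ∀ v, Cfsg.quadFormPlus 2 (ZMod 2) (transMat *ᵥ v) = Cfsg.quadFormPlus 2 (ZMod 2) v := by
    decide +kernel
  have htt : transMat * transMat = 1 := by decide +kernel
  have hconj : ∀ σ, transMat * leftMat σ * transMat = rightMat σ := by decide +kernel
  have hout : ∀ σ τ, leftMat σ * rightMat τ ≠ transMat := by decide +kernel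
  let L := toIsom ⟨⟨leftMat, hl1⟩, hlm⟩ hlQ
  let R := toIsom ⟨⟨rightMat, hr1⟩, hrm⟩ hrQ
  let t : ↥(Cfsg.isometryGroup (ZMod 2) (Cfsg.quadFormPlus 2 (ZMod 2))) :=
    ⟨⟨transMat, transMat, htt, htt⟩, fun u _ => htQ u⟩
  have hLR : ∀ σ τ, Commute (L σ) (R τ) := fun σ τ => Subtype.ext (Units.ext (hcom σ τ))
  let f := L.noncommCoprod R hLR
  have hf : Function.Injective f := (injective_iff_map_eq_one f).2 fun a ha => by
    have := hinj a.1 a.2 (congrArg (fun x => ((x : GL (Fin 2 ⊕ Fin 2) (ZMod 2)) :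
      Matrix (Fin 2 ⊕ Fin 2) (Fin 2 ⊕ Fin 2) (ZMod 2))) (congrArg Subtype.val ha))
    exact Prod.ext this.1 this.2
  have hLinj : Function.Injective L := fun a b h => by
    have := @hf (a, 1) (b, 1) (by simp [f, h])
    exact (Prod.ext_iff.1 this).1
  have hRinj : Function.Injective R := fun a b h => by
    have := @hf (1, a) (1, b) (by simp [f, h])
    exact (Prod.ext_iff.1 this).2
  have hrange : L.range ⊔ R.range = f.range := (MonoidHom.noncommCoprod_range _ _ _).symm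
  have h36 : Nat.card ↥f.range = 36 := by
    rw [← Nat.card_congr (MonoidHom.ofInjective hf).toEquiv, Nat.card_prod, Nat.card_perm, Nat.card_fin]
    rfl
  have htout : t ∉ f.range := by
    rintro ⟨⟨σ, τ⟩, h⟩
    exact hout σ τ (congrArg Units.val (congrArg Subtype.val h))
  have hidx := f.range.card_mul_index
  rw [h36] at hidx
  have hne1 : f.range.index ≠ 1 := fun h => htout (by
    rw [Subgroup.index_eq_one.1 h]; trivial)
  have hne0 : f.range.index ≠ 0 := Subgroup.index_ne_zero_of_finite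
  have hle := card_oPlusFour_le
  have hi2 : f.range.index = 2 := by omega
  refine ⟨by omega, L.range, R.range, ⟨(MonoidHom.ofInjective hLinj).symm⟩,
    ⟨(MonoidHom.ofInjective hRinj).symm⟩, ?_, ?_, by rw [hrange, hi2], t, ?_⟩
  · rw [eq_bot_iff]
    rintro x ⟨⟨σ, rfl⟩, τ, hτ⟩
    rw [hdisj σ τ (congrArg Units.val (congrArg Subtype.val hτ)).symm, map_one]
    exact Subgroup.one_mem _
  · rintro _ ⟨σ, rfl⟩ _ ⟨τ, rfl⟩
    exact hLR σ τ
  · rw [MonoidHom.map_range]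
    congr 1
    ext σ : 1
    exact Subtype.ext (Units.ext (hconj σ))

end Cfsg.Agent.H66
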