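/-
Primes of elements of `PSU_m(q)` commuting with an element of order `p`.
-/
import Cfsg.Agent.H66.PSLPrimeGraph
import Cfsg.Agent.H3.Isotropic
import Cfsg.Agent.H3.Count
import Cfsg.Agent.H67.UnitarySimilar

set_option autoImplicit false

open Polynomial Matrix Module

namespace Cfsg.Agent.H66

variable {F : Type*} [Field F] [Fintype F]

omit [Fintype F] in
theorem aeval_restrict_apply {V : Type*} [AddCommGroup V] [Module F V] (b : Module.End F V)
    (S : Submodule F V) (hS : ∀ x ∈ S, b x ∈ S) (P : F[X]) (x : S) :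
    (aeval (b.restrict hS) P x : V) = aeval b P x.1 := by
  induction P using Polynomial.induction_on' with
  | add P Q hP hQ =>
    rw [map_add, map_add, LinearMap.add_apply, LinearMap.add_apply, Submodule.coe_add, hP, hQ]
  | monomial i a =>
    rw [← C_mul_X_pow_eq_monomial, map_mul, map_mul, map_pow, map_pow, aeval_X, aeval_X, aeval_C, aeval_C,
      Module.End.mul_apply, Module.End.mul_apply, Module.algebraMap_end_apply, Module.algebraMap_end_apply,
      Submodule.coe_smul, Module.End.pow_restrict]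
    rfl

/-- A unitary element of prime order whose moved space is isotypic: its eigenvalues are closed under
`λ ↦ λ ^ (- q)`, so the order of `- q` is odd. -/
theorem dvd_odd_pow_add_one {q : ℕ} (p : ℕ) [Fact p.Prime] [CharP F p] (hF : Fintype.card F = q ^ 2) {n r : ℕ} [Fact r.Prime]
    (hrp : r ≠ p) (hk : 2 ≤ orderOf (Fintype.card F : ZMod r))
    {Y : GL (Fin n) F} (hY : Y ∈ Cfsg.GU n F q) (hYr : (Y : Matrix (Fin n) (Fin n) F) ^ r = 1)
    {f : F[X]} (hf : Irreducible f) (hdeg : f.natDegree ≤ orderOf (Fintype.card F : ZMod r))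
    (hfz : ¬ f ∣ Polynomial.X - C 1)
    (hf1 : ∀ P : F[X], aeval (Y : Matrix (Fin n) (Fin n) F) P = 0 → f ∣ P)
    (hf0 : aeval (Y : Matrix (Fin n) (Fin n) F) ((X - C 1) * f) = 0) :
    ∃ i : ℕ, r ∣ q ^ (2 * i + 1) + 1 := by
  classical
  set k := orderOf (Fintype.card F : ZMod r) with hkdef
  have hrP : r.Prime := Fact.out
  have hrq : ¬ r ∣ Fintype.card F := not_dvd_card_of_prime_ne p hrP hrp
  set M := (Y : Matrix (Fin n) (Fin n) F) with hM
  set σ : F →+* F := H3.conjQ hF with hσ
  set P : F[X] := (Polynomial.X - C 1) * f with hP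
  -- the twisted relation
  have hinv : M⁻¹ = (M.map σ)ᵀ := by
    have h := H67.contraMat_of_mem_GU hF hY
    rw [← hσ, H67.contraMat_eq, ← hM] at h
    have hu : IsUnit (M.map σ)ᵀ.det := by
      rw [Matrix.det_transpose, ← RingHom.mapMatrix_apply, ← RingHom.map_det]
      exact ((Matrix.isUnit_iff_isUnit_det _).1 Y.isUnit).map σ
    conv_lhs => rw [← h]
    exact Matrix.nonsing_inv_nonsing_inv _ hu
  have hMinv : M⁻¹ = M ^ (r - 1) := Matrix.inv_eq_left_inv (by
    rw [← pow_succ, Nat.sub_add_cancel hrP.pos, hYr])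
  have htw : aeval M⁻¹ (P.map σ) = 0 := by
    have h1 : ∀ R : F[X], aeval (M.map σ) (R.map σ) = (aeval M R).map σ := fun R => by
      induction R using Polynomial.induction_on' with
      | add R S hR hS =>
        rw [Polynomial.map_add, map_add, map_add, hR, hS]
        exact (Matrix.map_add σ (map_add σ) _ _).symm
      | monomial i a =>
        rw [Polynomial.map_monomial, aeval_monomial, aeval_monomial, ← RingHom.mapMatrix_apply,
          ← RingHom.mapMatrix_apply, map_mul, map_pow]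
        congr 1
        ext u v
        simp [Matrix.algebraMap_matrix_apply, apply_ite σ]
    have h2 : ∀ (N : Matrix (Fin n) (Fin n) F) (R : F[X]), aeval Nᵀ R = (aeval N R)ᵀ := fun N R => by
      induction R using Polynomial.induction_on' with
      | add R S hR hS => rw [map_add, map_add, hR, hS, Matrix.transpose_add]
      | monomial i a =>
        have ha : (algebraMap F (Matrix (Fin n) (Fin n) F) a)ᵀ = algebraMap F _ a := by
          rw [Matrix.algebraMap_eq_diagonal, Matrix.diagonal_transpose]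
        rw [aeval_monomial, aeval_monomial, Matrix.transpose_mul, Matrix.transpose_pow, ha]
        exact Algebra.commutes a _
    rw [hinv, h2, h1, hf0, Matrix.map_zero σ (map_zero σ), Matrix.transpose_zero]
  have hdvd : f ∣ (P.map σ).comp (Polynomial.X ^ (r - 1)) := hf1 _ (by
    rw [aeval_comp, map_pow, aeval_X, ← hMinv, htw])
  have hxr : f ∣ Polynomial.X ^ r - 1 := hf1 _ (by rw [map_sub, map_pow, aeval_X, map_one, hYr, sub_self])
  have : Fact (Irreducible f) := ⟨hf⟩
  let L := AdjoinRoot f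
  obtain ⟨z, hzdef⟩ : ∃ z : L, z = AdjoinRoot.root f := ⟨_, rfl⟩
  have hroot : ∀ R : F[X], f ∣ R → aeval z R = 0 := fun R hR => by
    rw [hzdef, AdjoinRoot.aeval_eq, AdjoinRoot.mk_eq_zero]; exact hR
  have hzr : z ^ r = 1 := by
    have := hroot _ hxr
    rw [map_sub, map_pow, aeval_X, map_one, sub_eq_zero] at this
    exact this
  have hq0 : 0 < q := Nat.pos_of_ne_zero fun h => by
    rw [h] at hF; simp at hF
  have hz1 : z ≠ 1 := fun h => hfz (by
    rw [← AdjoinRoot.mk_eq_zero, map_sub, AdjoinRoot.mk_X, AdjoinRoot.mk_C, map_one, ← hzdef, h, sub_self])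
  have hzo : orderOf z = r := orderOf_eq_prime hzr hz1
  have hzq : ∀ i : ℕ, aeval (z ^ (q ^ (2 * i))) f = 0 := by
    intro i
    induction i with
    | zero => simpa using hroot f dvd_rfl
    | succ i ih =>
      rw [show z ^ (q ^ (2 * (i + 1))) = (z ^ (q ^ (2 * i))) ^ Fintype.card F by
        rw [hF, ← pow_mul, ← pow_add, Nat.mul_succ]]
      rw [← Polynomial.expand_aeval, FiniteField.expand_card, map_pow, ih, zero_pow Fintype.card_ne_zero]
  let S : Finset L := (Finset.range k).image fun i => z ^ (q ^ (2 * i))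
  have hSc : S.card = k := by
    rw [Finset.card_image_of_injOn, Finset.card_range]
    intro i hi j hj hij
    simp only [Finset.coe_range, Set.mem_Iio] at hi hj
    rw [(isOfFinOrder_iff_pow_eq_one.2 ⟨r, hrP.pos, hzr⟩).pow_eq_pow_iff_modEq, hzo, ← ZMod.natCast_eq_natCast_iff, pow_mul, pow_mul, ← hF, Nat.cast_pow, Nat.cast_pow] at hij
    exact pow_injOn_Iio_orderOf hi hj hij
  have hfL : f.map (algebraMap F L) ≠ 0 := Polynomial.map_ne_zero hf.ne_zero
  have hSsub : S ⊆ (f.map (algebraMap F L)).roots.toFinset := by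
    intro w hw
    obtain ⟨i, -, rfl⟩ := Finset.mem_image.1 hw
    rw [Multiset.mem_toFinset, mem_roots hfL, IsRoot.def, eval_map_algebraMap]
    exact hzq i
  have hSeq : S = (f.map (algebraMap F L)).roots.toFinset := by
    refine Finset.eq_of_subset_of_card_le hSsub ?_
    calc _ ≤ Multiset.card (f.map (algebraMap F L)).roots := Multiset.toFinset_card_le _
      _ ≤ (f.map (algebraMap F L)).natDegree := Polynomial.card_roots' _
      _ ≤ k := by rw [natDegree_map]; exact hdeg
      _ = S.card := hSc.symm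
  -- the twisted root
  have h0 : aeval (z ^ (r - 1)) (P.map σ) = 0 := by
    have := hroot _ hdvd
    rwa [aeval_comp, map_pow, aeval_X] at this
  have h1 : aeval ((z ^ (r - 1)) ^ q) P = 0 := by
    obtain ⟨m, hp, hm⟩ := FiniteField.card F p
    obtain ⟨e, he⟩ : ∃ e, q = p ^ e := by
      have : q ∣ p ^ (m : ℕ) := hm ▸ hF ▸ dvd_pow_self q two_ne_zero
      obtain ⟨e, -, he⟩ := (Nat.dvd_prime_pow hp).1 this
      exact ⟨e, he⟩
    have : CharP L p := charP_of_injective_algebraMap (algebraMap F L).injective p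
    have h2 : ∀ R : F[X], aeval ((z ^ (r - 1)) ^ q) R = (aeval (z ^ (r - 1)) (R.map σ)) ^ q := fun R => by
      induction R using Polynomial.induction_on' with
      | add R S hR hS => rw [Polynomial.map_add, map_add, map_add, hR, hS, he, add_pow_char_pow]
      | monomial i a =>
        rw [Polynomial.map_monomial, aeval_monomial, aeval_monomial, mul_pow, ← map_pow, ← pow_mul, ← pow_mul,
          ← pow_mul, ← pow_mul]
        congr 1
        · show algebraMap F L a = algebraMap F L ((a ^ q) ^ q)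
          rw [← pow_mul, ← sq, ← hF, FiniteField.pow_card]
        · congr 1; ring
    rw [h2, h0, zero_pow hq0.ne']
  rw [hP, map_mul, mul_eq_zero, map_sub, aeval_X, aeval_C, map_one, sub_eq_zero] at h1
  rcases h1 with h1 | h1
  · exfalso
    rw [← pow_mul, ← orderOf_dvd_iff_pow_eq_one, hzo] at h1
    rcases hrP.dvd_mul.1 h1 with h | h
    · have := hrP.two_le
      have := Nat.le_of_dvd (by omega) h
      omega
    · exact hrq (hF ▸ dvd_pow h two_ne_zero)
  · have hw : (z ^ (r - 1)) ^ q ∈ S := by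
      rw [hSeq, Multiset.mem_toFinset, mem_roots hfL, IsRoot.def, eval_map_algebraMap]
      exact h1
    obtain ⟨i, -, hi⟩ := Finset.mem_image.1 hw
    rw [← pow_mul, (isOfFinOrder_iff_pow_eq_one.2 ⟨r, hrP.pos, hzr⟩).pow_eq_pow_iff_modEq, hzo, ← ZMod.natCast_eq_natCast_iff] at hi
    push_cast [Nat.cast_sub hrP.one_le] at hi
    rw [ZMod.natCast_self, zero_sub, neg_one_mul] at hi
    rcases Nat.eq_zero_or_pos i with rfl | hi0
    · refine ⟨0, (ZMod.natCast_eq_zero_iff _ _).1 ?_⟩
      push_cast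
      rw [mul_zero, pow_zero] at hi
      linear_combination hi
    · refine ⟨i - 1, ?_⟩
      have h3 : r ∣ q * (q ^ (2 * (i - 1) + 1) + 1) := (ZMod.natCast_eq_zero_iff _ _).1 (by
        push_cast
        rw [mul_add, mul_one, ← pow_succ', show 2 * (i - 1) + 1 + 1 = 2 * i by omega]
        linear_combination hi)
      exact (hrP.dvd_mul.1 h3).resolve_left fun h => hrq (hF ▸ dvd_pow h two_ne_zero)

omit [Fintype F] in
theorem mem_ker_one {n : ℕ} {v : Fin n → F} {a : Module.End F (Fin n → F)} :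
    v ∈ LinearMap.ker (a - 1) ↔ a v = v := by
  rw [LinearMap.mem_ker, LinearMap.sub_apply, Module.End.one_apply, sub_eq_zero]

/-- Commuting non-trivial unipotent and element of order `r` in `GU_n(q)`: either `2 k + 2 ≤ n`, or `- q` has
odd order mod `r`. -/
theorem dvd_odd_pow_add_one_of_commute {q : ℕ} (p : ℕ) [Fact p.Prime] [CharP F p] (hF : Fintype.card F = q ^ 2)
    {n r : ℕ} [Fact r.Prime] (hrp : r ≠ p) (hk : 2 ≤ orderOf (Fintype.card F : ZMod r))
    (hn : n ≤ 2 * orderOf (Fintype.card F : ZMod r) + 1)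
    {Y : GL (Fin n) F} (hY : Y ∈ Cfsg.GU n F q) (hYr : (Y : Matrix (Fin n) (Fin n) F) ^ r = 1)
    (hY1 : (Y : Matrix (Fin n) (Fin n) F) ≠ 1) {A : Matrix (Fin n) (Fin n) F} (hA : IsNilpotent (A - 1))
    (hA1 : A ≠ 1) (hAY : A * (Y : Matrix (Fin n) (Fin n) F) = (Y : Matrix (Fin n) (Fin n) F) * A) :
    ∃ i : ℕ, r ∣ q ^ (2 * i + 1) + 1 := by
  classical
  have hrP : r.Prime := Fact.out
  have hr0 : (r : F) ≠ 0 := by
    rw [Ne, CharP.cast_eq_zero_iff F p]
    exact fun h => hrp ((Nat.prime_dvd_prime_iff_eq Fact.out hrP).1 h).symm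
  set k := orderOf (Fintype.card F : ZMod r) with hkdef
  set M := (Y : Matrix (Fin n) (Fin n) F) with hM
  set b : Module.End F (Fin n → F) := Matrix.toLinAlgEquiv' M with hb
  set N : Module.End F (Fin n → F) := Matrix.toLinAlgEquiv' (A - 1) with hNdef
  have hbr : b ^ r = 1 := by rw [hb, ← map_pow, hYr, map_one]
  have hNn : IsNilpotent N := hA.map _
  have hNb : ∀ v, N (b v) = b (N v) := fun v => by
    rw [← Module.End.mul_apply, ← Module.End.mul_apply, hb, hNdef, ← map_mul, ← map_mul, sub_mul, mul_sub,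
      hAY, one_mul, mul_one]
  set U := LinearMap.ker (b - 1) with hU
  set W := LinearMap.range (b - 1) with hW
  have hUW : ∀ w ∈ W, b w = w → w = 0 := by
    rintro w ⟨v, hv⟩ hw
    have h1 : (∑ i ∈ Finset.range r, b ^ i) * (b - 1) = 0 := by
      rw [geom_sum_mul, hbr, sub_self]
    have h2 : ∀ i : ℕ, (b ^ i) w = w := fun i => by
      induction i with
      | zero => rfl
      | succ i ih => rw [pow_succ, Module.End.mul_apply, hw, ih]
    have h3 := LinearMap.congr_fun h1 v
    rw [Module.End.mul_apply, hv, LinearMap.sum_apply, Finset.sum_congr rfl fun i _ => h2 i,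
      Finset.sum_const, Finset.card_range, ← Nat.cast_smul_eq_nsmul F] at h3
    exact (smul_eq_zero.1 h3).resolve_left hr0
  have hdimY : ∀ S : Submodule F (Fin n → F), S ≤ W → (∀ y ∈ S, b y ∈ S) → k ∣ finrank F S := by
    intro S hSW hS
    refine orderOf_dvd_finrank_of_fpf (b.restrict hS) ?_ fun w hw => ?_
    · rw [Module.End.pow_restrict]
      refine LinearMap.ext fun w => Subtype.ext ?_
      simp [hbr]
    · exact Subtype.ext (hUW w.1 (hSW w.2) (congrArg Subtype.val hw))
  have hWb : ∀ w ∈ W, b w ∈ W := by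
    rintro w ⟨v, rfl⟩
    exact ⟨b v, by simp⟩
  have hWN : ∀ w ∈ W, N w ∈ W := by
    rintro w ⟨v, rfl⟩
    exact ⟨N v, by simp [hNb]⟩
  have hW0 : W ≠ ⊥ := fun h => hY1 (by
    rw [hW, LinearMap.range_eq_bot, sub_eq_zero, hb, ← map_one Matrix.toLinAlgEquiv'] at h
    exact Matrix.toLinAlgEquiv'.injective h)
  -- an irreducible invariant subspace in the moved space
  set K₀ := W ⊓ LinearMap.ker N with hK
  have hKb : ∀ y ∈ K₀, b y ∈ K₀ := fun y hy => ⟨hWb y hy.1, by
    show N (b y) = 0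
    rw [hNb, show N y = 0 from hy.2, map_zero]⟩
  obtain ⟨w, hw, hw0, hNw⟩ := exists_ker_of_nilpotent hNn W hW0 hWN
  have hK0 : K₀ ≠ ⊥ := fun h => hw0 ((Submodule.mem_bot F).1 (h ▸ (⟨hw, hNw⟩ : w ∈ K₀)))
  set R := W.map N with hR
  have hRW : R ≤ W := by rintro y ⟨x, hx, rfl⟩; exact hWN x hx
  have hRb : ∀ y ∈ R, b y ∈ R := by
    rintro y ⟨x, hx, rfl⟩
    exact ⟨b x, hWb x hx, hNb x⟩
  have hsum : finrank F W + finrank F U = n := by
    rw [hW, hU, LinearMap.finrank_range_add_finrank_ker, Module.finrank_pi, Fintype.card_fin]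
  have hrk : finrank F R + finrank F K₀ = finrank F W := by
    have h := LinearMap.finrank_range_add_finrank_ker (N.domRestrict W)
    rw [LinearMap.range_domRestrict, LinearMap.ker_domRestrict] at h
    have e : Submodule.comap W.subtype K₀ = Submodule.comap W.subtype (LinearMap.ker N) := by
      ext ⟨x, hx⟩
      simp [hK, hx]
    rw [← LinearEquiv.finrank_eq (Submodule.comapSubtypeEquivOfLe (inf_le_left : K₀ ≤ W)), e]
    exact h
  obtain ⟨c1, hc1⟩ := hdimY K₀ inf_le_left hKb
  obtain ⟨c2, hc2⟩ := hdimY R hRW hRb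
  have hc1' : 1 ≤ c1 := Nat.one_le_iff_ne_zero.2 fun h =>
    hK0 (Submodule.finrank_eq_zero.1 (by rw [hc1, h, mul_zero]))
  have hc12 : c1 + c2 ≤ 2 := by
    by_contra hc
    have h3 : k * 3 ≤ k * (c1 + c2) := Nat.mul_le_mul_left _ (by omega)
    rw [mul_add] at h3
    omega
  have hKk : finrank F K₀ = k ∧ (R = ⊥ ∨ (R = K₀)) := by
    rcases Nat.eq_zero_or_pos c2 with h0 | h0
    · have hR0 : R = ⊥ := Submodule.finrank_eq_zero.1 (by rw [hc2, h0, mul_zero])
      refine ⟨?_, Or.inl hR0⟩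
      rcases (show c1 = 1 ∨ c1 = 2 by omega) with h | h
      · rw [hc1, h, mul_one]
      · -- then `N` vanishes everywhere
        exfalso
        have hWK : W ≤ LinearMap.ker N := fun x hx => by
          rw [LinearMap.mem_ker, ← Submodule.mem_bot F, ← hR0]
          exact Submodule.mem_map_of_mem hx
        have hU1 : finrank F U ≤ 1 := by
          rw [hc2, h0, mul_zero, zero_add, hc1, h] at hrk
          omega
        have hUN : ∀ v ∈ U, N v ∈ U := fun v hv => by
          rw [hU, mem_ker_one] at hv ⊢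
          rw [← hNb, hv]
        have hNU : ∀ u ∈ U, N u = 0 := by
          intro u hu
          by_cases hu0 : u = 0
          · rw [hu0, map_zero]
          obtain ⟨v, hv, hv0, hNv⟩ := exists_ker_of_nilpotent hNn U
            (fun h => hu0 ((Submodule.mem_bot F).1 (h ▸ hu))) hUN
          have heq : (F ∙ v) = U := Submodule.eq_of_le_of_finrank_le
            (by rwa [Submodule.span_singleton_le_iff_mem]) (by rw [finrank_span_singleton hv0]; exact hU1)
          rw [← heq, Submodule.mem_span_singleton] at hu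
          obtain ⟨c, rfl⟩ := hu
          rw [map_smul, hNv, smul_zero]
        have hdis : W ⊓ U = ⊥ := by
          rw [eq_bot_iff]
          rintro x ⟨hx, hx'⟩
          exact (Submodule.mem_bot F).2 (hUW x hx (mem_ker_one.1 hx'))
        have htop : W ⊔ U = ⊤ := Submodule.eq_top_of_finrank_eq (by
          have := Submodule.finrank_sup_add_finrank_inf_eq W U
          rw [hdis, finrank_bot, add_zero] at this
          rw [this, hsum, Module.finrank_pi, Fintype.card_fin])
        apply hA1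
        have hN0 : N = 0 := LinearMap.ext fun v => by
          obtain ⟨x, hx, u, hu, rfl⟩ := Submodule.mem_sup.1 (htop ▸ Submodule.mem_top : v ∈ W ⊔ U)
          rw [map_add, hWK hx, hNU u hu, add_zero]; rfl
        rw [hNdef, ← map_zero Matrix.toLinAlgEquiv'] at hN0
        exact sub_eq_zero.1 (Matrix.toLinAlgEquiv'.injective hN0)
    · have h1 : c1 = 1 := by omega
      have h2 : c2 = 1 := by omega
      refine ⟨by rw [hc1, h1, mul_one], Or.inr ?_⟩
      have hR0 : R ≠ ⊥ := fun h => by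
        rw [h, finrank_bot, h2, mul_one] at hc2
        omega
      obtain ⟨y, hy, hy0, hNy⟩ := exists_ker_of_nilpotent hNn R hR0 fun y hy => ⟨y, hRW hy, rfl⟩
      have hne : R ⊓ K₀ ≠ ⊥ := fun h => hy0 ((Submodule.mem_bot F).1 (h ▸ (⟨hy, hRW hy, hNy⟩ : y ∈ R ⊓ K₀)))
      obtain ⟨c3, hc3⟩ := hdimY (R ⊓ K₀) (inf_le_left.trans hRW) fun y hy => ⟨hRb y hy.1, hKb y hy.2⟩
      have hc3' : 1 ≤ c3 := Nat.one_le_iff_ne_zero.2 fun h =>
        hne (Submodule.finrank_eq_zero.1 (by rw [hc3, h, mul_zero]))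
      have hle : k ≤ finrank F ↥(R ⊓ K₀) := hc3 ▸ Nat.le_mul_of_pos_right _ hc3'
      have e1 := Submodule.eq_of_le_of_finrank_le (inf_le_left : R ⊓ K₀ ≤ R) (by rw [hc2, h2, mul_one]; exact hle)
      have e2 := Submodule.eq_of_le_of_finrank_le (inf_le_right : R ⊓ K₀ ≤ K₀) (by rw [hc1, h1, mul_one]; exact hle)
      rw [← e1, e2]
  obtain ⟨hKdim, hRK⟩ := hKk
  -- the minimal polynomial on it
  set b₀ := b.restrict hKb with hb₀
  obtain ⟨f, hfirr, hfd⟩ : ∃ f : F[X], Irreducible f ∧ f ∣ minpoly F b₀ := by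
    have : Nontrivial K₀ := Submodule.nontrivial_iff_ne_bot.2 hK0
    exact WfDvdMonoid.exists_irreducible_factor
      (fun h => by
        have := natDegree_eq_zero_of_isUnit h
        have := minpoly.natDegree_pos (Algebra.IsIntegral.isIntegral b₀ : IsIntegral F b₀)
        omega)
      (minpoly.ne_zero (Algebra.IsIntegral.isIntegral b₀))
  have hfdeg : f.natDegree ≤ k := by
    refine (Polynomial.natDegree_le_of_dvd (hfd.trans (LinearMap.minpoly_dvd_charpoly b₀))
      b₀.charpoly_monic.ne_zero).trans ?_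
    rw [LinearMap.charpoly_natDegree, hKdim]
  have hfK : ∀ x ∈ K₀, aeval b f x = 0 := by
    set Z := K₀ ⊓ LinearMap.ker (aeval b f) with hZ
    have hfb : ∀ v, aeval b f (b v) = b (aeval b f v) := fun v => by
      rw [← Module.End.mul_apply, ← Module.End.mul_apply]
      exact LinearMap.congr_fun (by
        have h := ((Commute.all f Polynomial.X).map (aeval b)).eq
        rwa [aeval_X] at h) v
    have hZb : ∀ y ∈ Z, b y ∈ Z := fun y hy => ⟨hKb y hy.1, by
      show aeval b f (b y) = 0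
      rw [hfb, show aeval b f y = 0 from hy.2, map_zero]⟩
    have hZ0 : Z ≠ ⊥ := by
      intro h
      obtain ⟨g, hg⟩ := hfd
      have hinj : ∀ x : K₀, aeval b₀ f x = 0 → x = 0 := fun x hx => by
        have h1 : aeval b f x.1 = 0 := by rw [← aeval_restrict_apply b K₀ hKb f x, ← hb₀, hx]; rfl
        exact Subtype.ext ((Submodule.mem_bot F).1 (h ▸ (⟨x.2, h1⟩ : x.1 ∈ Z)))
      have hg0 : aeval b₀ g = 0 := LinearMap.ext fun x => hinj _ (by
        rw [← Module.End.mul_apply, ← map_mul, ← hg]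
        exact LinearMap.congr_fun (minpoly.aeval F b₀) x)
      obtain ⟨u, hu⟩ := minpoly.dvd F b₀ hg0
      have hμ0 : minpoly F b₀ ≠ 0 := minpoly.ne_zero (Algebra.IsIntegral.isIntegral b₀)
      have hfu : f * u = 1 := by
        apply mul_left_cancel₀ hμ0
        rw [mul_one]
        calc minpoly F b₀ * (f * u) = f * (minpoly F b₀ * u) := by ring
          _ = minpoly F b₀ := by rw [← hu, hg]
      exact hfirr.not_isUnit (.of_mul_eq_one _ hfu)
    obtain ⟨c3, hc3⟩ := hdimY Z (inf_le_left.trans inf_le_left) hZb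
    have hc3' : 1 ≤ c3 := Nat.one_le_iff_ne_zero.2 fun h =>
      hZ0 (Submodule.finrank_eq_zero.1 (by rw [hc3, h, mul_zero]))
    have heq : Z = K₀ := Submodule.eq_of_le_of_finrank_le inf_le_left
      (by rw [hKdim, hc3]; exact Nat.le_mul_of_pos_right _ hc3')
    intro x hx
    rw [← heq] at hx
    exact hx.2
  have hNf : ∀ v, N (aeval b f v) = aeval b f (N v) := fun v => by
    have hc : Commute N b := LinearMap.ext fun x => hNb x
    have hcf : ∀ P : F[X], Commute N (aeval b P) := fun P => by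
      induction P using Polynomial.induction_on' with
      | add P Q hP hQ => rw [map_add]; exact hP.add_right hQ
      | monomial i a =>
        rw [aeval_monomial]
        exact (Algebra.commute_algebraMap_right a N).mul_right (hc.pow_right i)
    rw [← Module.End.mul_apply, ← Module.End.mul_apply, (hcf f).eq]
  have hfW : ∀ v ∈ W, aeval b f v ∈ K₀ := by
    intro v hv
    have hvW : aeval b f v ∈ W := by
      have := (aeval_restrict_apply b W hWb f ⟨v, hv⟩)
      rw [← this]
      exact ((aeval (b.restrict hWb) f) ⟨v, hv⟩).2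
    refine ⟨hvW, ?_⟩
    show N (aeval b f v) = 0
    rw [hNf]
    rcases hRK with h | h
    · rw [show N v = 0 from (Submodule.mem_bot F).1 (h ▸ Submodule.mem_map_of_mem hv), map_zero]
    · exact hfK _ (h ▸ Submodule.mem_map_of_mem hv)
  -- `f ^ 2` kills the moved space, hence so does `f`
  obtain ⟨h, hh⟩ : f ∣ Polynomial.X ^ r - 1 := by
    refine hfd.trans (minpoly.dvd F b₀ ?_)
    refine LinearMap.ext fun x => Subtype.ext ?_
    rw [hb₀, aeval_restrict_apply, map_sub, map_pow, aeval_X, map_one, hbr, sub_self]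
    rfl
  have hsep : IsCoprime f h := by
    have hs : (Polynomial.X ^ r - 1 : F[X]).Separable := by
      rw [← map_one C]; exact Polynomial.separable_X_pow_sub_C 1 hr0 one_ne_zero
    rw [hh] at hs
    exact hs.isCoprime
  have hfW0 : ∀ v ∈ W, aeval b f v = 0 := by
    obtain ⟨c, d, hcd⟩ := hsep
    intro v hv
    have e : f = c * (f * f) + d * (Polynomial.X ^ r - 1) := by
      rw [hh]
      calc f = (c * f + d * h) * f := by rw [hcd, one_mul]
        _ = _ := by ring
    rw [e, map_add, map_mul, map_mul, map_mul, LinearMap.add_apply, Module.End.mul_apply, Module.End.mul_apply,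
      Module.End.mul_apply, hfK _ (hfW v hv), map_sub, map_pow, aeval_X, map_one, hbr, sub_self,
      LinearMap.zero_apply, map_zero, map_zero, add_zero]
  refine dvd_odd_pow_add_one p hF hrp hk hY hYr hfirr hfdeg ?_ ?_ ?_
  · intro hf
    have h1 : ∀ x ∈ K₀, x = 0 := fun x hx => by
      obtain ⟨u, hu⟩ := hf
      refine hUW x hx.1 ?_
      have h2 : aeval b (Polynomial.X - C (1 : F) : F[X]) x = 0 := by
        rw [hu, mul_comm, map_mul, Module.End.mul_apply, hfK x hx, map_zero]
      simp only [map_sub, aeval_X, map_one, LinearMap.sub_apply, Module.End.one_apply, sub_eq_zero] at h2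
      exact h2
    exact hK0 ((Submodule.eq_bot_iff _).2 h1)
  · intro P hP
    refine hfd.trans (minpoly.dvd F b₀ ?_)
    refine LinearMap.ext fun x => Subtype.ext ?_
    rw [hb₀, aeval_restrict_apply, hb, ← AlgEquiv.coe_algHom, aeval_algHom_apply, hP, map_zero]
    rfl
  · refine Matrix.toLinAlgEquiv'.injective ?_
    rw [map_zero, ← AlgEquiv.coe_algHom, ← aeval_algHom_apply, AlgEquiv.coe_algHom, ← hb]
    refine LinearMap.ext fun v => ?_
    rw [mul_comm, map_mul, Module.End.mul_apply, map_sub, aeval_X, map_one]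
    exact hfW0 _ ⟨v, by rw [map_one]⟩

/-- A prime to `q + 1` factor of `|GU|` divides `|SU|`. -/
theorem dvd_card_SU {q : ℕ} (hF : Fintype.card F = q ^ 2) {k r : ℕ} (hr : r.Prime) (hk : 1 ≤ k)
    (h : r ∣ Nat.card (Cfsg.GU k F q)) (hrq : ¬ r ∣ q + 1) : r ∣ Nat.card (Cfsg.SU k F q) := by
  rw [← H3.card_SU hF hk] at h
  exact (hr.dvd_mul.1 h).resolve_left hrq

/-- The main step. -/
theorem dvd_card_SU_of_commute {q : ℕ} (p : ℕ) [Fact p.Prime] [CharP F p] {m : ℕ} (hm : 4 ≤ m)
    (hF : Fintype.card F = q ^ 2) {r : ℕ} (hr : r.Prime) {a b : Cfsg.PSU m F q} (ha : orderOf a = p)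
    (hb : orderOf b = r) (hab : Commute a b) : r ∣ Nat.card (Cfsg.SU (m - 2) F q) := by
  classical
  have := Fact.mk hr
  have hcard := H3.card_GU (F := F) hF (m - 2)
  by_cases hrq1 : r ∣ q + 1
  · -- `(q + 1) (q ^ 2 - 1)` divides `|GU|`
    have h2 : (q + 1) * (q ^ 2 - 1) ∣ Nat.card (Cfsg.GU (m - 2) F q) := by
      rw [hcard]
      refine dvd_mul_of_dvd_right ?_ _
      refine dvd_trans ?_ (Finset.prod_dvd_prod_of_subset (Finset.range 2) _ _ (by
        intro x hx; simp only [Finset.mem_range] at hx ⊢; omega))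
      simp [Finset.prod_range_succ]
    rw [← H3.card_SU hF (by omega)] at h2
    have h3 : q ^ 2 - 1 ∣ Nat.card (Cfsg.SU (m - 2) F q) := Nat.dvd_of_mul_dvd_mul_left (by omega) h2
    refine hrq1.trans (dvd_trans ⟨q - 1, ?_⟩ h3)
    rw [← Nat.sq_sub_sq, one_pow]
  refine dvd_card_SU hF hr (by omega) ?_ hrq1
  rw [hcard]
  by_cases hrp : r = p
  · subst hrp
    refine dvd_mul_of_dvd_left ?_ _
    obtain ⟨j, hj⟩ : ∃ j, q ^ 2 = r ^ (j + 1) := by
      obtain ⟨l, -, hl⟩ := FiniteField.card F r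
      exact ⟨(l : ℕ) - 1, by rw [← hF, hl, Nat.sub_add_cancel l.pos]⟩
    have hrq' : r ∣ q := hr.dvd_of_dvd_pow (hj ▸ dvd_pow_self r (Nat.succ_ne_zero j))
    refine hrq'.trans (dvd_pow_self q ?_)
    have : 2 ≤ (m - 2) * (m - 2 - 1) := Nat.mul_le_mul (show 2 ≤ m - 2 by omega) (show 1 ≤ m - 2 - 1 by omega)
    omega
  refine dvd_mul_of_dvd_right ?_ _
  suffices ∃ i, i < m - 2 ∧ r ∣ (if Even i then q ^ (i + 1) + 1 else q ^ (i + 1) - 1) by
    obtain ⟨i, hi, hd⟩ := this
    exact hd.trans (Finset.dvd_prod_of_mem _ (Finset.mem_range.2 hi))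
  set k := orderOf (Fintype.card F : ZMod r) with hkdef
  have hrq : ¬ r ∣ Fintype.card F := not_dvd_card_of_prime_ne p hr hrp
  have hkpos := orderOf_natCast_pos (r := r) hrq
  have hdk : r ∣ Fintype.card F ^ k - 1 := (dvd_pow_sub_one_iff Fintype.card_pos _).2 dvd_rfl
  rw [hF, ← pow_mul] at hdk
  by_cases hk1 : k = 1
  · rw [hk1] at hdk
    exact ⟨1, by omega, by simpa using hdk⟩
  by_cases hksmall : 2 * k ≤ m - 2
  · refine ⟨2 * k - 1, by omega, ?_⟩
    rw [if_neg (by rw [Nat.even_sub (by omega)]; simp), Nat.sub_add_cancel (by omega)]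
    exact hdk
  -- lift to commuting matrices
  have hq0 : 0 < q := Nat.pos_of_ne_zero fun h => by rw [h] at hF; simp at hF
  have hZ : ∀ z ∈ Subgroup.center (Cfsg.SU m F q), z ^ (q + 1) = 1 := by
    intro z hz
    obtain ⟨l, hl⟩ := (H3.mem_center_SU_iff hF (by omega) z).1 hz
    have hmat : (z.1 : Matrix (Fin m) (Fin m) F) = Matrix.scalar (Fin m) l := by
      refine Matrix.toLin'.injective (LinearMap.ext fun x => ?_)
      rw [Matrix.toLin'_apply, hl, Matrix.toLin'_apply, Matrix.scalar_apply, Matrix.diagonal_const_mulVec]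
    have hu := z.2 (Pi.single (⟨0, by omega⟩ : Fin m) 1) (Pi.single ⟨0, by omega⟩ 1)
    change Cfsg.hermForm m F q ((z.1 : Matrix (Fin m) (Fin m) F) *ᵥ _) ((z.1 : Matrix (Fin m) (Fin m) F) *ᵥ _) = _ at hu
    rw [hl] at hu
    simp [Cfsg.hermForm, Pi.single_apply, zero_pow hq0.ne', ite_pow] at hu
    apply Subtype.ext
    apply Subtype.ext
    show (z.1 : Matrix (Fin m) (Fin m) F) ^ (q + 1) = 1
    rw [hmat, ← map_pow, pow_succ', hu, map_one]
  have hpq : ¬ p ∣ q + 1 := by
    obtain ⟨l, -, hl⟩ := FiniteField.card F p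
    have hpd : p ∣ q := (Fact.out : p.Prime).dvd_of_dvd_pow (n := 2) (by rw [← hF, hl]; exact dvd_pow_self p l.pos.ne')
    intro h
    exact (Fact.out : p.Prime).not_dvd_one ((Nat.dvd_add_right hpd).1 h)
  obtain ⟨Y, hY, hYr⟩ := exists_pow_lift hZ (hr.coprime_iff_not_dvd.2 hrq1) b (hb ▸ pow_orderOf_eq_one b)
  obtain ⟨X, hX, hXp⟩ := exists_pow_lift hZ ((Fact.out : p.Prime).coprime_iff_not_dvd.2 hpq) a (ha ▸ pow_orderOf_eq_one a)
  have hXY : Commute X Y := by
    set z := X⁻¹ * (Y * X * Y⁻¹) with hz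
    have hzc : z ∈ Subgroup.center (Cfsg.SU m F q) := by
      rw [← QuotientGroup.eq_one_iff, hz, QuotientGroup.mk_mul, QuotientGroup.mk_mul, QuotientGroup.mk_mul,
        QuotientGroup.mk_inv, QuotientGroup.mk_inv, hX, hY, ← hab.eq, mul_inv_cancel_right, inv_mul_cancel]
    have hzp : z ^ p = 1 := by
      have h1 : (X * z) ^ p = 1 := by
        rw [hz, mul_inv_cancel_left, conj_pow, hXp, mul_one, mul_inv_cancel]
      rwa [(show Commute X z from Subgroup.mem_center_iff.1 hzc X).mul_pow, hXp, one_mul] at h1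
    have h3 := pow_gcd_eq_one.2 ⟨hzp, hZ z hzc⟩
    rw [Nat.Coprime.gcd_eq_one ((Fact.out : p.Prime).coprime_iff_not_dvd.2 hpq), pow_one] at h3
    rw [h3, eq_comm, inv_mul_eq_one, eq_mul_inv_iff_mul_eq] at hz
    exact hz
  let MX : Matrix (Fin m) (Fin m) F := (X.1 : Matrix (Fin m) (Fin m) F)
  let MY : Matrix (Fin m) (Fin m) F := (Y.1 : Matrix (Fin m) (Fin m) F)
  have hMY : MY ^ r = 1 := congrArg (fun g : Cfsg.SU m F q => (g.1 : Matrix (Fin m) (Fin m) F)) hYr
  have hMX : IsNilpotent (MX - 1) := nilpotent_sub_one_of_pow_char p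
    (congrArg (fun g : Cfsg.SU m F q => (g.1 : Matrix (Fin m) (Fin m) F)) hXp)
  have hMXY : MX * MY = MY * MX := congrArg (fun g : Cfsg.SU m F q => (g.1 : Matrix (Fin m) (Fin m) F)) hXY.eq
  have hMY1 : MY ≠ 1 := fun h => hr.one_lt.ne (by
    rw [← hb, ← hY, show Y = 1 from Subtype.ext (Subtype.ext h), QuotientGroup.mk_one, orderOf_one])
  have hMX1 : MX ≠ 1 := fun h => (Fact.out : p.Prime).one_lt.ne (by
    rw [← ha, ← hX, show X = 1 from Subtype.ext (Subtype.ext h), QuotientGroup.mk_one, orderOf_one])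
  have hkm : k ≤ m - 2 := by
    by_contra hc
    exact hMX1 (unipotent_commute_eq_one (r := r) (by
      rw [Ne, CharP.cast_eq_zero_iff F p]
      exact fun h => hrp ((Nat.prime_dvd_prime_iff_eq Fact.out hr).1 h).symm)
      (by omega) (by omega) hMY hMY1 hMX hMXY)
  obtain ⟨i, hi⟩ := dvd_odd_pow_add_one_of_commute p hF hrp (by omega) (by omega)
    (Y := (H3.suToGU m F q Y).1) (H3.suToGU m F q Y).2 hMY hMY1 hMX hMX1 hMXY
  -- `- q` has odd order, so `k` is odd and `r ∣ q ^ k + 1`
  have hq2 : ((q : ZMod r) ^ 2) ^ (2 * i + 1) = 1 := by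
    have h0 : ((q : ZMod r)) ^ (2 * i + 1) + 1 = 0 := by exact_mod_cast (ZMod.natCast_eq_zero_iff _ _).2 hi
    rw [← pow_mul, mul_comm, pow_mul, eq_neg_of_add_eq_zero_left h0, neg_one_sq]
  have hki : k ∣ 2 * i + 1 := by
    refine orderOf_dvd_of_pow_eq_one ?_
    rw [hF, Nat.cast_pow, hq2]
  have hkodd : Odd k := Odd.of_dvd_nat ⟨i, rfl⟩ hki
  refine ⟨k - 1, by omega, ?_⟩
  rw [if_pos (by obtain ⟨j, hj⟩ := hkodd; exact ⟨j, by omega⟩), Nat.sub_add_cancel (by omega)]
  obtain ⟨c, hc⟩ := hki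
  have hc' : Odd c := Odd.of_dvd_nat ⟨i, rfl⟩ (hc ▸ dvd_mul_left c k)
  rw [← ZMod.natCast_eq_zero_iff]
  push_cast
  have h0 : ((q : ZMod r)) ^ (2 * i + 1) + 1 = 0 := by exact_mod_cast (ZMod.natCast_eq_zero_iff _ _).2 hi
  have hsq : ((q : ZMod r) ^ k) ^ 2 = 1 := by
    rw [← pow_mul, mul_comm, pow_mul, ← Nat.cast_pow, ← hF, pow_orderOf_eq_one]
  obtain ⟨t, rfl⟩ := hc'
  rw [hc, pow_mul, pow_succ, pow_mul, hsq, one_pow, one_mul] at h0
  exact h0

/-- The statement. -/
theorem primeFactors_commuting_PSU {q : ℕ} (p : ℕ) [Fact p.Prime] [CharP F p] {m : ℕ} (hm : 4 ≤ m)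
    (hF : Fintype.card F = q ^ 2) (a b : Cfsg.PSU m F q) (ha : orderOf a = p) (hab : Commute a b) :
    (orderOf b).primeFactors ⊆ (Nat.card ↥(Cfsg.SU (m - 2) F q)).primeFactors := by
  intro r hr
  obtain ⟨hrP, hrd, hb0⟩ := Nat.mem_primeFactors.1 hr
  refine Nat.mem_primeFactors.2 ⟨hrP, ?_, Nat.card_pos.ne'⟩
  obtain ⟨j, hj⟩ := hrd
  exact dvd_card_SU_of_commute p hm hF hrP ha
    (show orderOf (b ^ j) = r by
      rw [orderOf_pow' _ (by rintro rfl; simp [hj] at hb0), hj, Nat.gcd_mul_left_left,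
        Nat.mul_div_cancel _ (Nat.pos_of_ne_zero (by rintro rfl; simp [hj] at hb0))])
    (hab.pow_right j)

end Cfsg.Agent.H66
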