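/-
Elements of prime order of `SL_2(q)` and the normaliser of a quaternion group.
-/
import Cfsg.Prelude.Def_GeometricClasses
import Mathlib

set_option autoImplicit false

open Matrix

namespace Cfsg.Agent.H66.Quat

variable {F : Type*} [Field F]

abbrev M₂ (F : Type*) := Matrix (Fin 2) (Fin 2) F

theorem cayley (A : M₂ F) : A * A = A.trace • A - A.det • 1 := by
  ext i j
  fin_cases i <;> fin_cases j <;> simp [Matrix.mul_apply, Matrix.trace_fin_two, Matrix.det_fin_two] <;> ring

/-- The commutant of a non-scalar `2 × 2` matrix is spanned by `1` and the matrix. -/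
theorem exists_comb_of_commute {A B : M₂ F} (hA : ∀ z : F, A ≠ z • 1) (hB : A * B = B * A) :
    ∃ α β : F, B = α • 1 + β • A := by
  have h00 := congrFun (congrFun hB 0) 0
  have h01 := congrFun (congrFun hB 0) 1
  have h10 := congrFun (congrFun hB 1) 0
  simp [Matrix.mul_apply, Fin.sum_univ_two] at h00 h01 h10
  by_cases ha : A 0 1 = 0
  · by_cases hc : A 1 0 = 0
    · have hd : A 0 0 - A 1 1 ≠ 0 := fun h => hA (A 0 0) (by
        ext i j
        fin_cases i <;> fin_cases j <;> simp [ha, hc, (sub_eq_zero.1 h).symm])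
      refine ⟨B 0 0 - (B 0 0 - B 1 1) / (A 0 0 - A 1 1) * A 0 0, (B 0 0 - B 1 1) / (A 0 0 - A 1 1), ?_⟩
      have e1 : B 0 1 = 0 := by
        refine (mul_eq_zero.1 (?_ : (A 0 0 - A 1 1) * B 0 1 = 0)).resolve_left hd
        rw [ha] at h01
        linear_combination h01
      have e2 : B 1 0 = 0 := by
        refine (mul_eq_zero.1 (?_ : (A 0 0 - A 1 1) * B 1 0 = 0)).resolve_left hd
        rw [hc] at h10
        linear_combination -h10
      ext i j
      fin_cases i <;> fin_cases j <;> simp [e1, e2, ha, hc]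
      field_simp
      ring
    · refine ⟨B 0 0 - B 1 0 / A 1 0 * A 0 0, B 1 0 / A 1 0, ?_⟩
      ext i j
      fin_cases i <;> fin_cases j <;> simp
      · field_simp
        linear_combination -h00
      · field_simp
      · field_simp
        linear_combination -h10
  · refine ⟨B 0 0 - B 0 1 / A 0 1 * A 0 0, B 0 1 / A 0 1, ?_⟩
    ext i j
    fin_cases i <;> fin_cases j <;> simp
    · field_simp
    · field_simp
      linear_combination h00
    · field_simp
      linear_combination h01

/-- The commutant of a non-scalar `2 × 2` matrix is commutative. -/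
theorem commute_of_nonscalar {A B C : M₂ F} (hA : ∀ z : F, A ≠ z • 1) (hB : A * B = B * A) (hC : A * C = C * A) :
    B * C = C * B := by
  obtain ⟨α, β, rfl⟩ := exists_comb_of_commute hA hB
  rw [add_mul, mul_add, smul_mul_assoc, smul_mul_assoc, mul_smul_comm, mul_smul_comm, one_mul, mul_one, hC]

/-- A companion basis of determinant one. -/
theorem exists_companion [Fintype F] (h2 : (2 : F) ≠ 0) (A : M₂ F) (hdet : A.det = 1) {t : F}
    (ht : A.trace = t) (hD : t ^ 2 - 4 ≠ 0) :
    ∃ P : M₂ F, P.det = 1 ∧ A * P = P * !![0, -1; 1, t] := by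
  rw [Matrix.det_fin_two] at hdet
  rw [Matrix.trace_fin_two] at ht
  subst ht
  obtain ⟨x, y, hxy⟩ : ∃ x y : F, A 1 0 * x ^ 2 + (A 1 1 - A 0 0) * x * y - A 0 1 * y ^ 2 = 1 := by
    by_cases hα : A 1 0 = 0
    · have hβ : A 1 1 - A 0 0 ≠ 0 := by
        intro h
        apply hD
        linear_combination (A 1 1 - A 0 0) * h + 4 * hdet + 4 * (A 0 1) * hα
      exact ⟨(1 + A 0 1) / (A 1 1 - A 0 0), 1, by rw [hα]; field_simp; ring⟩
    · set D := (A 0 0 + A 1 1) ^ 2 - 4 with hDdef
      have hodd : Fintype.card F % 2 = 1 := FiniteField.odd_card_of_char_ne_two (fun h => h2 (by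
        have h' := ringChar.Nat.cast_ringChar (R := F)
        rw [h] at h'
        exact_mod_cast h'))
      obtain ⟨u, y, huy⟩ := FiniteField.exists_root_sum_quadratic
        (f := Polynomial.X ^ 2 - Polynomial.C (4 * A 1 0)) (g := Polynomial.C (-D) * Polynomial.X ^ 2)
        (Polynomial.degree_X_pow_sub_C two_pos _) (Polynomial.degree_C_mul_X_pow 2 (neg_ne_zero.2 hD)) hodd
      simp at huy
      refine ⟨(u - (A 1 1 - A 0 0) * y) / (2 * A 1 0), y, ?_⟩
      field_simp
      linear_combination huy + (4 * y ^ 2) * hdet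
  refine ⟨!![x, A 0 0 * x + A 0 1 * y; y, A 1 0 * x + A 1 1 * y], ?_, ?_⟩
  · rw [Matrix.det_fin_two]
    simp
    linear_combination hxy
  · ext i j
    fin_cases i <;> fin_cases j <;> simp [Matrix.mul_apply, Fin.sum_univ_two]
    · linear_combination (-x) * hdet
    · linear_combination (-y) * hdet

variable [Fintype F]

/-- Non-degenerate elements of equal trace are conjugate in `SL_2`. -/
theorem exists_conj (h2 : (2 : F) ≠ 0) {a b : GL (Fin 2) F} (ha : (a : M₂ F).det = 1) (hb : (b : M₂ F).det = 1)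
    (hab : (a : M₂ F).trace = (b : M₂ F).trace) (hD : (b : M₂ F).trace ^ 2 - 4 ≠ 0) :
    ∃ g ∈ Cfsg.Geo.specialLinear (Fin 2) F, g⁻¹ * a * g = b := by
  obtain ⟨P, hP, hPa⟩ := exists_companion h2 (a : M₂ F) ha hab hD
  obtain ⟨Q, hQ, hQb⟩ := exists_companion h2 (b : M₂ F) hb rfl hD
  let P' : GL (Fin 2) F := Matrix.GeneralLinearGroup.mkOfDetNeZero P (by rw [hP]; exact one_ne_zero)
  let Q' : GL (Fin 2) F := Matrix.GeneralLinearGroup.mkOfDetNeZero Q (by rw [hQ]; exact one_ne_zero)
  have hP' : Matrix.GeneralLinearGroup.det P' = 1 := Units.ext hP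
  have hQ' : Matrix.GeneralLinearGroup.det Q' = 1 := Units.ext hQ
  refine ⟨P' * Q'⁻¹, ?_, ?_⟩
  · rw [Cfsg.Geo.specialLinear, MonoidHom.mem_ker, map_mul, map_inv, hP', hQ', inv_one, one_mul]
  · let C' : GL (Fin 2) F := P'⁻¹ * a * P'
    have hC : (C' : M₂ F) = !![0, -1; 1, (b : M₂ F).trace] := by
      show ((P'⁻¹ : GL (Fin 2) F) : M₂ F) * (a : M₂ F) * P = _
      rw [mul_assoc, hPa, ← mul_assoc]
      show ((P'⁻¹ : GL (Fin 2) F) : M₂ F) * (P' : M₂ F) * _ = _
      rw [Units.inv_mul, one_mul]
    have h : b * Q' = Q' * C' := Units.ext (by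
      show (b : M₂ F) * Q = Q * (C' : M₂ F)
      rw [hC, hQb])
    rw [_root_.mul_inv_rev, inv_inv]
    calc Q' * P'⁻¹ * a * (P' * Q'⁻¹) = Q' * C' * Q'⁻¹ := by simp [C', mul_assoc]
      _ = b := by rw [← h, mul_inv_cancel_right]

omit [Fintype F] in
/-- Generators of a quaternion subgroup. -/
theorem exists_gens (h2 : (2 : F) ≠ 0) (R : Subgroup (GL (Fin 2) F)) (hR : Nonempty (↥R ≃* QuaternionGroup 2)) :
    ∃ i j : GL (Fin 2) F, i ∈ R ∧ j ∈ R ∧ R = Subgroup.closure {i, j} ∧ (i : M₂ F) * i = -1 ∧
      (j : M₂ F) * j = -1 ∧ (j : M₂ F) * i = -((i : M₂ F) * j) ∧ Nat.card R = 8 := by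
  obtain ⟨e⟩ := hR
  let φ : QuaternionGroup 2 →* GL (Fin 2) F := R.subtype.comp e.symm.toMonoidHom
  have hφ : Function.Injective φ := R.subtype_injective.comp e.symm.injective
  have hrange : φ.range = R := by
    rw [MonoidHom.range_comp, MonoidHom.range_eq_top.2 e.symm.surjective, ← MonoidHom.range_eq_map, R.range_subtype]
  set i := φ (QuaternionGroup.a 1) with hi
  set j := φ (QuaternionGroup.xa 0) with hj
  have hiR : i ∈ R := hrange ▸ ⟨_, rfl⟩
  have hjR : j ∈ R := hrange ▸ ⟨_, rfl⟩
  have hgen : R = Subgroup.closure {i, j} := by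
    refine le_antisymm ?_ (Subgroup.closure_le _ |>.2 ?_)
    · rw [← hrange]
      rintro x ⟨y, rfl⟩
      have hia : ∀ m : ZMod (2 * 2), φ (QuaternionGroup.a m) ∈ Subgroup.closure {i, j} := fun m => by
        rw [show QuaternionGroup.a m = QuaternionGroup.a 1 ^ m.val by rw [QuaternionGroup.a_one_pow, ZMod.natCast_zmod_val],
          map_pow]
        exact Subgroup.pow_mem _ (Subgroup.subset_closure (by simp [hi])) _
      rcases y with m | m
      · exact hia m
      · rw [show QuaternionGroup.xa m = QuaternionGroup.xa 0 * QuaternionGroup.a m by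
          rw [QuaternionGroup.xa_mul_a, zero_add], map_mul]
        exact Subgroup.mul_mem _ (Subgroup.subset_closure (by simp [hj])) (hia m)
    · rintro x (rfl | rfl)
      · exact hiR
      · exact hjR
  set z := φ (QuaternionGroup.a 2) with hz
  have hii : i * i = z := by rw [hi, hz, ← map_mul]; exact congrArg φ (by decide)
  have hjj : j * j = z := by rw [hj, hz, ← map_mul]; exact congrArg φ (by decide)
  have hzz : z * z = 1 := by rw [hz, ← map_mul, ← map_one φ]; exact congrArg φ (by decide)
  have hji : j * i = z * (i * j) := by rw [hi, hj, hz, ← map_mul, ← map_mul, ← map_mul]; exact congrArg φ (by decide)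
  have hzi : z * i = i * z := by rw [hi, hz, ← map_mul, ← map_mul]; exact congrArg φ (by decide)
  have hzj : z * j = j * z := by rw [hj, hz, ← map_mul, ← map_mul]; exact congrArg φ (by decide)
  have hne : i * j ≠ j * i := fun h => by
    rw [hi, hj, ← map_mul, ← map_mul] at h
    exact absurd (hφ h) (by decide)
  obtain ⟨c, hc⟩ : ∃ c : F, (z : M₂ F) = c • 1 := by
    by_contra h
    push Not at h
    exact hne (Units.ext (commute_of_nonscalar h (congrArg Units.val hzi) (congrArg Units.val hzj)))
  have hz1 : (z : M₂ F) = -1 := by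
    have h1 : (z : M₂ F) * z = 1 := congrArg Units.val hzz
    rw [hc] at h1
    have h2' := congrFun (congrFun h1 0) 0
    simp at h2'
    rcases mul_self_eq_one_iff.1 h2' with h | h
    · exfalso
      rw [h, one_smul] at hc
      exact absurd (hφ ((hz ▸ Units.ext hc : φ (QuaternionGroup.a 2) = 1).trans (map_one φ).symm)) (by decide)
    · rw [hc, h, neg_smul, one_smul]
  refine ⟨i, j, hiR, hjR, hgen, ?_, ?_, ?_, ?_⟩
  · rw [← Units.val_mul, hii, hz1]
  · rw [← Units.val_mul, hjj, hz1]
  · rw [← Units.val_mul, hji, Units.val_mul, hz1, Units.val_mul, neg_mul, one_mul]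
  · rw [Nat.card_congr e.toEquiv, Nat.card_eq_fintype_card, QuaternionGroup.card]

omit [Fintype F] in
theorem det_trace_of_sq (h2 : (2 : F) ≠ 0) {x y : M₂ F} (hx : x * x = -1) (hy : y * y = -1) (hyx : y * x = -(x * y)) :
    x.trace = 0 ∧ x.det = 1 := by
  have hne : ∀ z : F, x ≠ z • 1 := fun z hz => by
    subst hz
    simp only [mul_smul_comm, smul_mul_assoc, mul_one, one_mul] at hyx
    have h1 : (2 * z) • y = 0 := by
      rw [← smul_smul, two_smul]
      exact eq_neg_iff_add_eq_zero.1 hyx
    rcases smul_eq_zero.1 h1 with h3 | h3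
    · have hz0 : z = 0 := (mul_eq_zero.1 h3).resolve_left h2
      rw [hz0, zero_smul, zero_mul] at hx
      exact one_ne_zero (neg_eq_zero.1 hx.symm)
    · rw [h3, zero_mul] at hy
      exact one_ne_zero (neg_eq_zero.1 hy.symm)
  have h := cayley x
  rw [hx] at h
  have ht : x.trace = 0 := by
    by_contra ht
    refine hne ((x.det - 1) / x.trace) ?_
    rw [div_eq_inv_mul, ← smul_smul, sub_smul, one_smul, eq_inv_smul_iff₀ ht]
    linear_combination (norm := abel) -h
  refine ⟨ht, ?_⟩
  rw [ht, zero_smul, zero_sub, neg_inj] at h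
  have := congrFun (congrFun h 0) 0
  simpa using this.symm

/-- The statement. -/
theorem main {p : ℕ} [Fact p.Prime] [CharP F p] (hp : 5 ≤ p)
    (R : Subgroup (GL (Fin 2) F)) (hR : Nonempty (↥R ≃* QuaternionGroup 2))
    (r : ℕ) [Fact r.Prime]
    (hΩ : r ∣ (Cfsg.Geo.subgroupNormalizer R).relIndex (Cfsg.Geo.specialLinear (Fin 2) F)) :
    (∀ x ∈ Cfsg.Geo.specialLinear (Fin 2) F, (∃ z : F, ((x ^ r : GL (Fin 2) F) : M₂ F) = z • (1 : M₂ F)) →
      (∀ z : F, (x : M₂ F) ≠ z • (1 : M₂ F)) →
      ∃ g ∈ Cfsg.Geo.specialLinear (Fin 2) F, g⁻¹ * x * g ∈ Cfsg.Geo.subgroupNormalizer R) ↔ (r = 2 ∨ r = 3) := by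
  classical
  have hrP : r.Prime := Fact.out
  have hcast : ∀ m : ℕ, 0 < m → m < 5 → (m : F) ≠ 0 := fun m hm hm5 h => by
    rw [CharP.cast_eq_zero_iff F p] at h
    have := Nat.le_of_dvd hm h
    omega
  have h2 : (2 : F) ≠ 0 := by simpa using hcast 2 two_pos (by omega)
  have h3 : (3 : F) ≠ 0 := by simpa using hcast 3 (by omega) (by omega)
  have h4 : (4 : F) ≠ 0 := by simpa using hcast 4 (by omega) (by omega)
  obtain ⟨i, j, hiR, hjR, hgen, hii, hjj, hji, hcardR⟩ := exists_gens h2 R hR
  obtain ⟨hit, hid⟩ := det_trace_of_sq h2 hii hjj hji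
  obtain ⟨hjt, -⟩ := det_trace_of_sq h2 hjj hii (by rw [hji, neg_neg])
  have hk : ((i : M₂ F) * j) * ((i : M₂ F) * j) = -1 := by
    rw [mul_assoc, ← mul_assoc (j : M₂ F), hji, neg_mul, mul_assoc (i : M₂ F) j j, hjj]
    simp [hii]
  obtain ⟨hkt, -⟩ := det_trace_of_sq h2 hk hjj (by
    rw [mul_assoc, hjj, ← mul_assoc, hji, neg_mul, mul_assoc, hjj])
  have hnegR : ∃ m : GL (Fin 2) F, m ∈ R ∧ (m : M₂ F) = -1 :=
    ⟨i * i, R.mul_mem hiR hiR, by rw [Units.val_mul, hii]⟩
  obtain ⟨m, hmR, hm⟩ := hnegR
  have hnorm : R ≤ Cfsg.Geo.subgroupNormalizer R := Subgroup.le_normalizer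
  constructor
  · intro hall
    by_contra hr
    rw [not_or] at hr
    have hr5 : 5 ≤ r := by
      have := hrP.two_le
      have h4' : r ≠ 4 := fun h => by rw [h] at hrP; norm_num at hrP
      omega
    have hrd : r ∣ Nat.card (Cfsg.Geo.specialLinear (Fin 2) F) := hΩ.trans (Subgroup.relIndex_dvd_card _ _)
    obtain ⟨⟨x, hxS⟩, hx⟩ := exists_prime_orderOf_dvd_card' r hrd
    have hxo : orderOf x = r := by rw [← hx]; exact (Subgroup.orderOf_mk x hxS).symm
    have hxs : ∀ z : F, (x : M₂ F) ≠ z • (1 : M₂ F) := by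
      intro z hz
      have hd : (x : M₂ F).det = 1 := congrArg Units.val hxS
      rw [hz, Matrix.det_smul, Matrix.det_one, mul_one, Fintype.card_fin] at hd
      have h2' : x ^ 2 = 1 := Units.ext (by rw [Units.val_pow_eq_pow_val, hz, _root_.smul_pow, hd, one_pow, one_smul, Units.val_one])
      have := Nat.le_of_dvd two_pos (hxo ▸ orderOf_dvd_of_pow_eq_one h2')
      omega
    obtain ⟨g, hg, hy⟩ := hall x hxS ⟨1, by rw [← hxo, pow_orderOf_eq_one, one_smul]; rfl⟩ hxs
    set y := g⁻¹ * x * g with hydef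
    have hyo : orderOf y = r := by
      rw [hydef, ← hxo]
      simpa using orderOf_injective (MulAut.conj g⁻¹).toMonoidHom (MulAut.conj g⁻¹).injective x
    -- `y` centralises `R`
    have hfix : ∀ h ∈ R, y * h = h * y := by
      intro h hh
      by_contra hne
      have hmem : ∀ l : ℕ, y ^ l * h * (y ^ l)⁻¹ ∈ R := fun l =>
        (Subgroup.mem_normalizer_iff.1 ((Cfsg.Geo.subgroupNormalizer R).pow_mem hy l) h).1 hh
      have hmc : ∀ u : GL (Fin 2) F, m * u = u * m := fun u => Units.ext (by simp [hm])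
      have hfixd : ∀ d : ℕ, y ^ d * h * (y ^ d)⁻¹ = h → r ∣ d := by
        intro d hd
        by_contra hrd'
        apply hne
        have hc : Commute h (y ^ d) := (mul_inv_eq_iff_eq_mul.1 hd).symm
        have hco : r.Coprime d := hrP.coprime_iff_not_dvd.2 hrd'
        obtain ⟨e, he⟩ := exists_pow_eq_self_of_coprime (x := y) (hyo ▸ hco.symm : d.Coprime (orderOf y))
        have := (hc.pow_right e).eq
        rw [he] at this
        exact this.symm
      have hneg : ∀ d : ℕ, y ^ d * h * (y ^ d)⁻¹ ≠ m * h := by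
        intro d hd
        have h2d : y ^ (2 * d) * h * (y ^ (2 * d))⁻¹ = h := by
          rw [two_mul, pow_add, show y ^ d * y ^ d * h * (y ^ d * y ^ d)⁻¹ = y ^ d * (y ^ d * h * (y ^ d)⁻¹) * (y ^ d)⁻¹ by group,
            hd, show y ^ d * (m * h) * (y ^ d)⁻¹ = m * (y ^ d * h * (y ^ d)⁻¹) by rw [← mul_assoc (y ^ d), ← hmc (y ^ d)]; group,
            hd, ← mul_assoc]
          rw [show m * m = 1 from Units.ext (by rw [Units.val_mul, hm]; simp), one_mul]
        obtain ⟨e, rfl⟩ : r ∣ d := (hrP.dvd_mul.1 (hfixd _ h2d)).resolve_left fun h => by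
          have := Nat.le_of_dvd two_pos h; omega
        rw [pow_mul, ← hyo, pow_orderOf_eq_one, one_pow, one_mul, inv_one, mul_one] at hd
        have h' : (m : M₂ F) = 1 := congrArg Units.val (mul_eq_right.1 hd.symm)
        rw [hm] at h'
        have := congrFun (congrFun h' 0) 0
        simp at this
        exact h2 (by linear_combination -this)
      let Φ : Fin r ⊕ Fin r → R := Sum.elim (fun l => ⟨_, hmem l⟩) (fun l => ⟨m * (y ^ (l : ℕ) * h * (y ^ (l : ℕ))⁻¹), R.mul_mem hmR (hmem l)⟩)
      have hshift : ∀ a b : ℕ, ∀ c : GL (Fin 2) F, (∀ u, c * u = u * c) → a ≤ b →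
          y ^ b * h * (y ^ b)⁻¹ = c * (y ^ a * h * (y ^ a)⁻¹) → y ^ (b - a) * h * (y ^ (b - a))⁻¹ = c * h := by
        intro a b c hc hab he
        obtain ⟨d, rfl⟩ := Nat.exists_eq_add_of_le hab
        rw [Nat.add_sub_cancel_left]
        have he' : y ^ a * (y ^ d * h * (y ^ d)⁻¹) * (y ^ a)⁻¹ = y ^ a * (c * h) * (y ^ a)⁻¹ := by
          rw [← mul_assoc (y ^ a) c, ← hc (y ^ a)]
          rw [pow_add] at he
          calc _ = y ^ a * y ^ d * h * (y ^ a * y ^ d)⁻¹ := by group
            _ = _ := he.trans (by group)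
        exact mul_left_cancel (mul_right_cancel he')
      have hinj1 : ∀ a b : Fin r, y ^ (a : ℕ) * h * (y ^ (a : ℕ))⁻¹ = y ^ (b : ℕ) * h * (y ^ (b : ℕ))⁻¹ → a = b := by
        intro a b he
        rcases le_total (a : ℕ) b with hab | hab
        · have := hfixd _ ((hshift a b 1 (by simp) hab (by rw [one_mul, he])).trans (one_mul h))
          have := Nat.eq_zero_of_dvd_of_lt this (by omega)
          exact Fin.ext (by omega)
        · have := hfixd _ ((hshift b a 1 (by simp) hab (by rw [one_mul, he])).trans (one_mul h))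
          have := Nat.eq_zero_of_dvd_of_lt this (by omega)
          exact Fin.ext (by omega)
      have hne2 : ∀ a b : Fin r, y ^ (a : ℕ) * h * (y ^ (a : ℕ))⁻¹ ≠ m * (y ^ (b : ℕ) * h * (y ^ (b : ℕ))⁻¹) := by
        intro a b he
        rcases le_total (b : ℕ) a with hab | hab
        · exact hneg _ (hshift b a m hmc hab he)
        · refine hneg _ (hshift a b m hmc hab ?_)
          rw [he, ← mul_assoc, show m * m = 1 from Units.ext (by rw [Units.val_mul, hm]; simp), one_mul]
      have hΦ : Function.Injective Φ := by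
        rintro (a | a) (b | b) he
        · rw [hinj1 a b (congrArg Subtype.val he)]
        · exact absurd (congrArg Subtype.val he) (hne2 a b)
        · exact absurd (congrArg Subtype.val he).symm (hne2 b a)
        · rw [hinj1 a b (mul_left_cancel (congrArg Subtype.val he))]
      have : Finite R := Nat.finite_of_card_ne_zero (by omega)
      have := Nat.card_le_card_of_injective Φ hΦ
      rw [Nat.card_eq_fintype_card, Fintype.card_sum, Fintype.card_fin, hcardR] at this
      omega
    obtain ⟨z, hz⟩ : ∃ z : F, (y : M₂ F) = z • 1 := by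
      by_contra hc
      push Not at hc
      have h' := commute_of_nonscalar hc (congrArg Units.val (hfix i hiR)) (congrArg Units.val (hfix j hjR))
      rw [hji, eq_neg_iff_add_eq_zero, ← two_smul F] at h'
      rcases smul_eq_zero.1 h' with h' | h'
      · exact h2 h'
      · rw [h', zero_mul] at hk
        exact one_ne_zero (neg_eq_zero.1 hk.symm)
    refine hxs z ?_
    have hx' : x = g * y * g⁻¹ := by rw [hydef]; group
    rw [hx', Units.val_mul, Units.val_mul, hz, mul_smul_comm, smul_mul_assoc, mul_one, Units.mul_inv]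
  · intro hr x hxS hxr hxs
    obtain ⟨z, hz⟩ := hxr
    have hd : (x : M₂ F).det = 1 := congrArg Units.val hxS
    have hc := cayley (x : M₂ F)
    rw [hd, one_smul] at hc
    set t := (x : M₂ F).trace with ht
    rw [Units.val_pow_eq_pow_val] at hz
    rcases hr with rfl | rfl
    · rw [pow_two, hc] at hz
      have ht0 : t = 0 := by
        by_contra ht0
        refine hxs ((z + 1) / t) ?_
        rw [div_eq_inv_mul, ← smul_smul, add_smul, one_smul, eq_inv_smul_iff₀ ht0, ← hz, sub_add_cancel]
      obtain ⟨g, hg, hgi⟩ := exists_conj h2 hd hid (by rw [hit, ← ht, ht0])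
        (by rw [hit]; simpa using h4)
      exact ⟨g, hg, hgi ▸ hnorm hiR⟩
    · rw [pow_succ, pow_two, hc, sub_mul, smul_mul_assoc, hc, one_mul] at hz
      have ht1 : t * t = 1 := by
        by_contra ht1
        refine hxs ((z + t) / (t * t - 1)) ?_
        rw [div_eq_inv_mul, ← smul_smul, add_smul, eq_inv_smul_iff₀ (sub_ne_zero.2 ht1), ← hz, smul_sub, smul_smul,
          sub_smul, one_smul]
        abel
      -- the element of order three of the normaliser
      set I := (i : M₂ F) with hI
      set J := (j : M₂ F) with hJ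
      have r1 : ∀ X : M₂ F, I * (I * X) = -X := fun X => by rw [← mul_assoc, hii, neg_one_mul]
      have r2 : ∀ X : M₂ F, J * (J * X) = -X := fun X => by rw [← mul_assoc, hjj, neg_one_mul]
      have r3 : ∀ X : M₂ F, J * (I * X) = -(I * (J * X)) := fun X => by rw [← mul_assoc, hji, neg_mul, mul_assoc]
      set W : M₂ F := (2 : F)⁻¹ • (-1 + I + J + I * J) with hW
      have hW2 : W * W = -W - 1 := by
        have e : (-1 + I + J + I * J) * (-1 + I + J + I * J) = (2 : F) • (-(-1 + I + J + I * J)) - (4 : F) • (1 : M₂ F) := by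
          simp [mul_add, add_mul, mul_assoc, r1, r2, r3, hii, hjj, hji, two_smul,
            show (4 : F) = 1 + 1 + 1 + 1 by norm_num, add_smul]
          abel
        rw [hW, smul_mul_smul_comm, e, smul_sub, smul_smul, smul_smul, smul_neg,
          show ((2 : F)⁻¹ * 2⁻¹ * 2) = 2⁻¹ by field_simp, show ((2 : F)⁻¹ * 2⁻¹ * 4) = 1 by field_simp; norm_num, one_smul]
      have hWt : W.trace = -1 := by
        rw [hW, Matrix.trace_smul, Matrix.trace_add, Matrix.trace_add, Matrix.trace_add, Matrix.trace_neg,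
          Matrix.trace_one, Fintype.card_fin, hit, hjt, hkt]
        push_cast
        rw [smul_eq_mul]
        field_simp
        ring
      have hWd : W.det = 1 := by
        have h := cayley W
        rw [hW2, hWt, neg_smul, one_smul, sub_right_inj] at h
        have := congrFun (congrFun h 0) 0
        simpa using this.symm
      let w : GL (Fin 2) F := Matrix.GeneralLinearGroup.mkOfDetNeZero W (by rw [hWd]; exact one_ne_zero)
      have hwv : (w : M₂ F) = W := rfl
      have c1 : w * j = i * w := Units.ext (by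
        show W * J = I * W
        rw [hW, smul_mul_assoc, mul_smul_comm]
        congr 1
        simp [mul_add, add_mul, mul_assoc, r1, r2, r3, hii, hjj, hji]
        abel)
      have c2 : w * i = (i * j) * w := Units.ext (by
        show W * I = (I * J) * W
        rw [hW, smul_mul_assoc, mul_smul_comm]
        congr 1
        simp [mul_add, add_mul, mul_assoc, r1, r2, r3, hii, hjj, hji]
        abel)
      have hwN : w ∈ Cfsg.Geo.subgroupNormalizer R := by
        have hsub : ∀ h ∈ R, w * h * w⁻¹ ∈ R := by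
          intro h hh
          rw [hgen] at hh
          induction hh using Subgroup.closure_induction with
          | mem u hu =>
            rcases hu with rfl | rfl
            · rw [c2, mul_inv_cancel_right]; exact R.mul_mem hiR hjR
            · rw [c1, mul_inv_cancel_right]; exact hiR
          | one => simp
          | mul u v _ _ hu hv =>
            have := R.mul_mem hu hv
            rwa [show w * u * w⁻¹ * (w * v * w⁻¹) = w * (u * v) * w⁻¹ by group] at this
          | inv u _ hu =>
            have := R.inv_mem hu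
            rwa [show (w * u * w⁻¹)⁻¹ = w * u⁻¹ * w⁻¹ by group] at this
        have : Finite R := Nat.finite_of_card_ne_zero (by omega)
        let f : R → R := fun h => ⟨_, hsub h h.2⟩
        have hf : Function.Surjective f := Finite.injective_iff_surjective.1 fun a b h =>
          Subtype.ext (mul_left_cancel (mul_right_cancel (congrArg Subtype.val h)))
        refine Subgroup.mem_normalizer_iff.2 fun h => ⟨hsub h, fun hh => ?_⟩
        obtain ⟨a, ha⟩ := hf ⟨_, hh⟩
        rw [← mul_left_cancel (mul_right_cancel (congrArg Subtype.val ha))]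
        exact a.2
      have hD : (w : M₂ F).trace ^ 2 - 4 ≠ 0 := by
        rw [hwv, hWt]
        intro h
        exact h3 (by linear_combination -h)
      rcases mul_self_eq_one_iff.1 ht1 with h1 | h1
      · have hmx : ((m * x : GL (Fin 2) F) : M₂ F) = -(x : M₂ F) := by rw [Units.val_mul, hm, neg_one_mul]
        obtain ⟨g, hg, hgw⟩ := exists_conj h2 (a := m * x) (b := w)
          (by rw [hmx, Matrix.det_neg, hd, Fintype.card_fin]; norm_num) hWd
          (by rw [hmx, Matrix.trace_neg, ← ht, h1, hwv, hWt]) hD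
        refine ⟨g, hg, ?_⟩
        have e : g⁻¹ * x * g = m * w := by
          rw [← hgw]
          apply Units.ext
          simp [hm]
        rw [e]
        exact Subgroup.mul_mem _ (hnorm hmR) hwN
      · obtain ⟨g, hg, hgw⟩ := exists_conj h2 (a := x) (b := w) hd hWd (by rw [← ht, h1, hwv, hWt]) hD
        exact ⟨g, hg, hgw ▸ hwN⟩

end Cfsg.Agent.H66.Quat
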