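/-
Regular unipotent matrices, transvections, and determinants of elements centralising unipotents.
-/
import Cfsg.Agent.H66.JordanCentralizer

set_option autoImplicit false

open Polynomial Module

namespace Cfsg.Agent.H66

variable {K : Type*} [Field K] {n : Type*} [Fintype n] [DecidableEq n]

/-- A regular unipotent matrix has kernel dimensions `min k n`. -/
theorem kerDim_regular {A : Matrix n n K} (hnil : (A - 1) ^ Fintype.card n = 0)
    (hreg : (A - 1).rank = Fintype.card n - 1) (k : ℕ) : kerDim A k = min k (Fintype.card n) := by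
  obtain ⟨t, d, hd, hs, hk⟩ := exists_type A ⟨_, hnil⟩
  have h1 := rank_add_kerDim A 1
  rw [pow_one, hreg, hk, typeKer, Finset.sum_congr rfl (fun i _ => min_eq_left (hd i))] at h1
  simp only [Finset.sum_const, Finset.card_univ, Fintype.card_fin, smul_eq_mul, mul_one] at h1
  rcases Nat.eq_zero_or_pos (Fintype.card n) with h0 | h0
  · have : kerDim A k ≤ Fintype.card n := by
      have := rank_add_kerDim A k
      omega
    omega
  · have ht : t = 1 := by omega
    subst ht
    rw [Fin.sum_univ_one] at hs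
    rw [hk, typeKer, Fin.sum_univ_one, hs]

/-- An invariant subspace of a regular unipotent is a kernel of a power. -/
theorem regular_invariant_subspace {A : Matrix n n K} (hnil : (A - 1) ^ Fintype.card n = 0)
    (hreg : (A - 1).rank = Fintype.card n - 1) (W : Submodule K (n → K))
    (hW : ∀ v ∈ W, A.mulVec v ∈ W) :
    W = LinearMap.ker (Matrix.mulVecLin ((A - 1) ^ finrank K W)) := by
  set f := Matrix.toLin' (A - 1) with hf
  have hWf : ∀ v ∈ W, f v ∈ W := fun v hv => by
    simp only [hf, Matrix.toLin'_apply, Matrix.sub_mulVec, Matrix.one_mulVec]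
    exact W.sub_mem (hW v hv) hv
  have hfpow : ∀ (k : ℕ) (v : n → K), (f ^ k) v = ((A - 1) ^ k).mulVec v := fun k v => by
    have : f ^ k = Matrix.toLin' ((A - 1) ^ k) :=
      (map_pow (Matrix.toLinAlgEquiv' (R := K) (n := n)) (A - 1) k).symm
    rw [this, Matrix.toLin'_apply]
  have hg : IsNilpotent (f.restrict hWf) := ⟨Fintype.card n, by
    rw [Module.End.pow_restrict]
    refine LinearMap.ext fun v => Subtype.ext ?_
    rw [LinearMap.restrict_coe_apply, hfpow, hnil, Matrix.zero_mulVec]
    rfl⟩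
  have hzero : f.restrict hWf ^ finrank K W = 0 := by
    have h := LinearMap.aeval_self_charpoly (f.restrict hWf)
    rwa [IsNilpotent.charpoly_eq_X_pow_finrank hg, map_pow, aeval_X] at h
  have hle : W ≤ LinearMap.ker (Matrix.mulVecLin ((A - 1) ^ finrank K W)) := by
    intro v hv
    rw [LinearMap.mem_ker, Matrix.mulVecLin_apply, ← hfpow]
    rw [Module.End.pow_restrict] at hzero
    exact congrArg Subtype.val (LinearMap.congr_fun hzero ⟨v, hv⟩)
  refine Submodule.eq_of_le_of_finrank_le hle ?_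
  have hk := kerDim_regular hnil hreg (finrank K W)
  change kerDim A (finrank K W) ≤ _
  omega

/-- For every block, the centraliser of a unipotent element contains every `c ^ (block size)` as a
determinant. -/
theorem exists_commute_det_pow {A : Matrix n n K} (hA : IsNilpotent (A - 1)) {t : ℕ} (d : Fin t → ℕ)
    (hsum : ∑ i, d i = Fintype.card n) (hk : ∀ k, kerDim A k = typeKer d k) (i₀ : Fin t) {c : K}
    (hc : c ≠ 0) : ∃ z : GL n K, (z : Matrix n n K) * A = A * z ∧ (z : Matrix n n K).det = c ^ d i₀ := by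
  let e : ((i : Fin t) × Fin (d i)) ≃ n := Fintype.equivOfCardEq (by simp [hsum])
  obtain ⟨u, hu⟩ := isConj_reindex_jordan d hA e hk
  let M : ∀ i, Matrix (Fin (d i)) (Fin (d i)) K := fun i => (if i = i₀ then c else 1) • 1
  set Z := Matrix.reindex e e (Matrix.blockDiagonal' M) with hZ
  have hdet : Z.det = c ^ d i₀ := by
    rw [hZ, Matrix.det_reindex_self, det_blockDiagonal'_eq_prod, Finset.prod_eq_single i₀]
    · simp [M, Matrix.det_smul]
    · intro i _ hi
      simp [M, hi]
    · simp
  have hcomm : Z * Matrix.reindex e e (Cfsg.jordanTypeMatrix d K) =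
      Matrix.reindex e e (Cfsg.jordanTypeMatrix d K) * Z := by
    simp only [hZ, ← Matrix.reindexAlgEquiv_apply K K, ← map_mul, Cfsg.jordanTypeMatrix,
      ← Matrix.blockDiagonal'_mul]
    congr 3
    funext i
    simp [M]
  have hdet' : ((u : Matrix n n K) * Z * ((u⁻¹ : GL n K) : Matrix n n K)).det = c ^ d i₀ := by
    rw [Matrix.coe_units_inv, Matrix.det_conj u.isUnit, hdet]
  refine ⟨Matrix.GeneralLinearGroup.mkOfDetNeZero _ (hdet' ▸ pow_ne_zero _ hc), ?_, hdet'⟩
  change u * Z * ((u⁻¹ : GL n K) : Matrix n n K) * A = A * (u * Z * ((u⁻¹ : GL n K) : Matrix n n K))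
  have hA' : A = u * Matrix.reindex e e (Cfsg.jordanTypeMatrix d K) * ((u⁻¹ : GL n K) : Matrix n n K) := by
    rw [hu.eq, mul_assoc, u.mul_inv, mul_one]
  rw [hA']
  simp only [mul_assoc, Units.inv_mul_cancel_left]
  rw [← mul_assoc Z, hcomm, mul_assoc]

/-- Kernel dimensions of a transvection. -/
theorem rank_pow_of_transvection {A : Matrix n n K} (h1 : (A - 1).rank = 1) (h2 : (A - 1) * (A - 1) = 0)
    (k : ℕ) : ((A - 1) ^ k).rank = if k = 0 then Fintype.card n else if k = 1 then 1 else 0 := by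
  match k with
  | 0 => simp
  | 1 => simpa using h1
  | k + 2 =>
    rw [pow_add, pow_two, h2, mul_zero, Matrix.rank_zero]
    simp

/-- Unipotent elements of `SL` with equal kernel dimensions are conjugate in `SL` as soon as a block
has size one. -/
theorem sl_isConj_of_kerDim_eq {m : ℕ} (g h : Matrix.SpecialLinearGroup (Fin m) K)
    (hg : IsNilpotent ((g : Matrix (Fin m) (Fin m) K) - 1))
    (hh : IsNilpotent ((h : Matrix (Fin m) (Fin m) K) - 1))
    (hk : ∀ k, kerDim (g : Matrix (Fin m) (Fin m) K) k = kerDim (h : Matrix (Fin m) (Fin m) K) k)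
    {t : ℕ} (d : Fin t → ℕ) (hsum : ∑ i, d i = m)
    (hd : ∀ k, kerDim (g : Matrix (Fin m) (Fin m) K) k = typeKer d k) (i₀ : Fin t) (hi₀ : d i₀ = 1) :
    IsConj g h := by
  obtain ⟨u, hu⟩ := isConj_of_kerDim_eq hg hh hk
  have hu0 : (u : Matrix (Fin m) (Fin m) K).det ≠ 0 := Matrix.GeneralLinearGroup.det_ne_zero u
  obtain ⟨z, hz, hzd⟩ := exists_commute_det_pow hg d (by simpa using hsum) hd i₀ (inv_ne_zero hu0)
  rw [hi₀, pow_one] at hzd
  let w : Matrix.SpecialLinearGroup (Fin m) K :=
    ⟨(u : Matrix (Fin m) (Fin m) K) * z, by rw [Matrix.det_mul, hzd, mul_inv_cancel₀ hu0]⟩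
  refine isConj_iff.2 ⟨w, ?_⟩
  rw [mul_inv_eq_iff_eq_mul]
  apply Subtype.ext
  change (u : Matrix (Fin m) (Fin m) K) * z * g = (h : Matrix (Fin m) (Fin m) K) * (u * z)
  rw [mul_assoc, hz, ← mul_assoc, hu.eq, mul_assoc]

/-- The determinant of a matrix commuting with a single Jordan block is a power. -/
theorem det_commute_single {d : Fin 1 → ℕ} (hd : ∀ i, 1 ≤ d i)
    (M : Matrix ((i : Fin 1) × Fin (d i)) ((i : Fin 1) × Fin (d i)) K)
    (hM : M * Cfsg.jordanTypeMatrix d K = Cfsg.jordanTypeMatrix d K * M) :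
    ∃ c : K, M.det = c ^ d 0 := by
  obtain ⟨w, hw⟩ := (commEquiv d hd).surjective ⟨M, hM⟩
  have hM' : commMat d w = M := congrArg Subtype.val hw
  refine ⟨commCol d w 0 0 0, ?_⟩
  let e : Fin (d 0) ≃ (i : Fin 1) × Fin (d i) := (Equiv.uniqueSigma fun i : Fin 1 => Fin (d i)).symm
  rw [← Matrix.det_submatrix_equiv_self e, ← hM']
  rw [Matrix.det_of_lowerTriangular]
  · have he : ∀ a : Fin (d 0), (commMat d w).submatrix e e a a = commCol d w 0 0 0 := fun a => by
      change commMat d w ⟨0, a⟩ ⟨0, a⟩ = _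
      simp [commMat]
    rw [Finset.prod_congr rfl fun a _ => he a, Finset.prod_const, Finset.card_univ, Fintype.card_fin]
  · intro a b hab
    change commMat d w ⟨0, a⟩ ⟨0, b⟩ = 0
    simp only [commMat]
    rw [if_neg]
    change (a : ℕ) < (b : ℕ) at hab
    omega

end Cfsg.Agent.H66
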